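import Cfsg.Agent.Lib.Helper86.CenTab
import Cfsg.Agent.Lib.Helper7.M24Main

set_option autoImplicit false

/-!
# Centralisers in `M24` of elements mapping `23 → 0 → 1 → 2 → 3`

If `x ∈ M24` commutes with such an `r`, then `x` is determined by `q = x 23` up to the 48
elements fixing the five points `23, 0, 1, 2, 3`: `x = g_q * f`.  `cen_all` turns a table check
over the `24 * 48` candidates into a statement about every element of the centraliser.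
-/

namespace Cfsg.Agent.Lib.Helper86.M24CenFive

open Cfsg Cfsg.Agent.Lib.Helper7.GolayBase Cfsg.Agent.Lib.Helper7.GolayPerm
  Cfsg.Agent.Lib.Helper7.ChainGen Cfsg.Agent.Lib.Helper86.TabGrp
  Cfsg.Agent.Lib.Helper86.ChainEnum Cfsg.Agent.Lib.Helper86.CenTab

/-- The tables of the 48 elements of `M24` fixing the points `23, 0, 1, 2, 3`. -/
def L48 : List (List Nat) :=
  [[0, 1, 2, 3, 4, 5, 6, 7, 8, 9, 10, 11, 12, 13, 14, 15, 16, 17, 18, 19, 20, 21, 22, 23],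
  [0, 1, 2, 3, 12, 5, 9, 10, 16, 6, 7, 22, 4, 18, 14, 19, 8, 17, 13, 15, 21, 20, 11, 23],
  [0, 1, 2, 3, 10, 5, 11, 12, 19, 22, 4, 6, 7, 20, 14, 16, 15, 17, 21, 8, 13, 18, 9, 23],
  [0, 1, 2, 3, 9, 5, 12, 11, 21, 4, 22, 7, 6, 15, 14, 13, 20, 17, 19, 18, 16, 8, 10, 23],
  [0, 1, 2, 3, 21, 5, 16, 13, 9, 8, 18, 15, 20, 7, 14, 11, 6, 17, 10, 22, 12, 4, 19, 23],
  [0, 1, 2, 3, 20, 5, 8, 18, 6, 16, 13, 19, 21, 10, 14, 22, 9, 17, 7, 11, 4, 12, 15, 23],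
  [0, 1, 2, 3, 18, 5, 15, 20, 22, 19, 21, 16, 13, 12, 14, 6, 11, 17, 4, 9, 7, 10, 8, 23],
  [0, 1, 2, 3, 8, 5, 20, 15, 4, 21, 19, 13, 16, 11, 14, 7, 12, 17, 22, 10, 6, 9, 18, 23],
  [0, 1, 2, 3, 16, 5, 21, 19, 12, 20, 15, 18, 8, 22, 14, 10, 4, 17, 11, 7, 9, 6, 13, 23],
  [0, 1, 2, 3, 19, 5, 13, 16, 10, 18, 8, 20, 15, 6, 14, 12, 7, 17, 9, 4, 11, 22, 21, 23],
  [0, 1, 2, 3, 15, 5, 18, 8, 7, 13, 16, 21, 19, 9, 14, 4, 10, 17, 6, 12, 22, 11, 20, 23],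
  [0, 1, 2, 3, 22, 5, 7, 6, 18, 10, 9, 12, 11, 16, 14, 20, 13, 17, 8, 21, 15, 19, 4, 23],
  [0, 1, 2, 3, 11, 5, 10, 9, 13, 7, 6, 4, 22, 8, 14, 21, 18, 17, 16, 20, 19, 15, 12, 23],
  [0, 1, 2, 3, 6, 5, 4, 22, 20, 12, 11, 10, 9, 19, 14, 18, 21, 17, 15, 13, 8, 16, 7, 23],
  [0, 1, 2, 3, 7, 5, 22, 4, 15, 11, 12, 9, 10, 21, 14, 8, 19, 17, 20, 16, 18, 13, 6, 23],
  [0, 1, 2, 3, 13, 5, 19, 21, 11, 15, 20, 8, 18, 4, 14, 9, 22, 17, 12, 6, 10, 7, 16, 23],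
  [0, 1, 2, 3, 8, 14, 7, 19, 9, 4, 16, 10, 15, 18, 17, 22, 11, 5, 20, 6, 13, 21, 12, 23],
  [0, 1, 2, 3, 15, 14, 4, 16, 11, 7, 19, 12, 8, 20, 17, 6, 9, 5, 18, 22, 21, 13, 10, 23],
  [0, 1, 2, 3, 16, 14, 10, 15, 6, 12, 8, 7, 19, 13, 17, 11, 22, 5, 21, 9, 18, 20, 4, 23],
  [0, 1, 2, 3, 4, 14, 15, 10, 21, 8, 12, 19, 7, 22, 17, 18, 13, 5, 6, 20, 11, 9, 16, 23],
  [0, 1, 2, 3, 21, 14, 11, 18, 4, 9, 20, 22, 13, 19, 17, 10, 7, 5, 16, 12, 15, 8, 6, 23],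
  [0, 1, 2, 3, 13, 14, 9, 20, 7, 11, 18, 6, 21, 16, 17, 12, 4, 5, 19, 10, 8, 15, 22, 23],
  [0, 1, 2, 3, 20, 14, 22, 13, 12, 6, 21, 11, 18, 15, 17, 7, 10, 5, 8, 4, 19, 16, 9, 23],
  [0, 1, 2, 3, 9, 14, 13, 22, 8, 21, 6, 18, 11, 10, 17, 19, 15, 5, 12, 16, 7, 4, 20, 23],
  [0, 1, 2, 3, 11, 14, 21, 6, 15, 13, 22, 20, 9, 12, 17, 16, 8, 5, 10, 19, 4, 7, 18, 23],
  [0, 1, 2, 3, 6, 14, 18, 11, 16, 20, 9, 13, 22, 7, 17, 15, 19, 5, 4, 8, 10, 12, 21, 23],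
  [0, 1, 2, 3, 22, 14, 20, 9, 19, 18, 11, 21, 6, 4, 17, 8, 16, 5, 7, 15, 12, 10, 13, 23],
  [0, 1, 2, 3, 12, 14, 19, 7, 20, 16, 4, 15, 10, 11, 17, 13, 18, 5, 9, 21, 22, 6, 8, 23],
  [0, 1, 2, 3, 10, 14, 16, 4, 18, 19, 7, 8, 12, 9, 17, 21, 20, 5, 11, 13, 6, 22, 15, 23],
  [0, 1, 2, 3, 7, 14, 8, 12, 13, 15, 10, 16, 4, 6, 17, 20, 21, 5, 22, 18, 9, 11, 19, 23],
  [0, 1, 2, 3, 19, 14, 12, 8, 22, 10, 15, 4, 16, 21, 17, 9, 6, 5, 13, 11, 20, 18, 7, 23],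
  [0, 1, 2, 3, 18, 14, 6, 21, 10, 22, 13, 9, 20, 8, 17, 4, 12, 5, 15, 7, 16, 19, 11, 23],
  [0, 1, 2, 3, 9, 17, 19, 6, 4, 8, 11, 16, 22, 20, 5, 12, 10, 14, 13, 7, 18, 21, 15, 23],
  [0, 1, 2, 3, 22, 17, 8, 11, 10, 19, 6, 15, 9, 13, 5, 7, 4, 14, 20, 12, 21, 18, 16, 23],
  [0, 1, 2, 3, 11, 17, 16, 22, 7, 15, 9, 19, 6, 18, 5, 10, 12, 14, 21, 4, 20, 13, 8, 23],
  [0, 1, 2, 3, 8, 17, 22, 16, 21, 9, 15, 6, 19, 12, 5, 20, 18, 14, 7, 13, 10, 4, 11, 23],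
  [0, 1, 2, 3, 21, 17, 10, 20, 8, 4, 13, 12, 18, 6, 5, 16, 19, 14, 11, 15, 22, 9, 7, 23],
  [0, 1, 2, 3, 18, 17, 4, 13, 19, 10, 20, 7, 21, 11, 5, 15, 8, 14, 6, 16, 9, 22, 12, 23],
  [0, 1, 2, 3, 13, 17, 12, 18, 15, 7, 21, 10, 20, 22, 5, 19, 16, 14, 9, 8, 6, 11, 4, 23],
  [0, 1, 2, 3, 4, 17, 18, 12, 9, 21, 7, 20, 10, 16, 5, 6, 22, 14, 15, 11, 19, 8, 13, 23],
  [0, 1, 2, 3, 10, 17, 21, 7, 22, 18, 12, 13, 4, 15, 5, 11, 9, 14, 16, 6, 8, 19, 20, 23],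
  [0, 1, 2, 3, 7, 17, 20, 10, 11, 13, 4, 18, 12, 19, 5, 22, 6, 14, 8, 9, 16, 15, 21, 23],
  [0, 1, 2, 3, 12, 17, 13, 4, 6, 20, 10, 21, 7, 8, 5, 9, 11, 14, 19, 22, 15, 16, 18, 23],
  [0, 1, 2, 3, 15, 17, 6, 19, 13, 11, 8, 22, 16, 10, 5, 18, 20, 14, 4, 21, 12, 7, 9, 23],
  [0, 1, 2, 3, 16, 17, 11, 8, 20, 6, 19, 9, 15, 4, 5, 21, 13, 14, 10, 18, 7, 12, 22, 23],
  [0, 1, 2, 3, 19, 17, 9, 15, 18, 22, 16, 11, 8, 7, 5, 13, 21, 14, 12, 20, 4, 10, 6, 23],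
  [0, 1, 2, 3, 6, 17, 15, 9, 12, 16, 22, 8, 11, 21, 5, 4, 7, 14, 18, 10, 13, 20, 19, 23],
  [0, 1, 2, 3, 20, 17, 7, 21, 16, 12, 18, 4, 13, 9, 5, 8, 15, 14, 22, 19, 11, 6, 10, 23]]

/-- A list of tables of elements of `H`, as long as `H` is large, enumerates `H`. -/
theorem enum_of_card {H : Subgroup (Equiv.Perm GolayPt)} {L : List (List Nat)}
    (hrep : ∀ t ∈ L, ∃ g ∈ H, Rep g t) (hnd : L.Nodup) (hc : Nat.card H = L.length) :
    Enum H L := by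
  classical
  refine ⟨hrep, ?_, hnd⟩
  let f : {t // t ∈ L} → H := fun t => ⟨(hrep t.1 t.2).choose, (hrep t.1 t.2).choose_spec.1⟩
  have hf : ∀ t : {t // t ∈ L}, Rep (f t : Equiv.Perm GolayPt) t.1 :=
    fun t => (hrep t.1 t.2).choose_spec.2
  have hinj : Function.Injective f := by
    intro t t' h
    apply Subtype.ext
    have h1 := hf t
    have h2 := hf t'
    rw [h] at h1
    exact rep_unique h1 h2
  have hcard : Nat.card H ≤ Nat.card {t // t ∈ L} := by rw [card_mem_list L hnd, hc]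
  have hsurj : Function.Surjective f := (hinj.bijective_of_nat_card_le hcard).2
  intro g hg
  obtain ⟨t, ht⟩ := hsurj ⟨g, hg⟩
  refine ⟨t.1, t.2, ?_⟩
  have := hf t
  rw [ht] at this
  exact this

theorem enum48 : Enum (M24 ⊓ FixL [3, 2, 1, 0, 23]) L48 := by
  apply enum_of_card
  · intro t ht
    have h1 : L48.all (fun t => inM24' t && fixT [3, 2, 1, 0, 23] t) = true := by decide +kernel
    have h2 := List.all_eq_true.mp h1 t ht
    rw [Bool.and_eq_true] at h2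
    obtain ⟨g, hg, hr⟩ := exists_M24' t h2.1
    refine ⟨g, ⟨hg, ?_⟩, hr⟩
    exact (fixT_iff hr (by decide)).mp h2.2
  · decide +kernel
  · rw [Cfsg.Agent.Lib.Helper7.M24Main.card5]; rfl

/-- `t` maps `23 → 0 → 1 → 2 → 3`. -/
def chainOK (t : List Nat) : Bool :=
  t.getD 23 0 == 0 && t.getD 0 0 == 1 && t.getD 1 0 == 2 && t.getD 2 0 == 3

/-- `G` is the table of an element of `M24` mapping `23, 0, 1, 2, 3` to `q, t q, …, t⁴ q`
(or `q` is fixed by `t`). -/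
def gOK (t : List Nat) (q : Nat) (G : List Nat) : Bool :=
  (t.getD q 0 == q) ||
  (inM24' G && G.getD 23 0 == q && G.getD 0 0 == t.getD q 0 &&
    G.getD 1 0 == t.getD (t.getD q 0) 0 &&
    G.getD 2 0 == t.getD (t.getD (t.getD q 0) 0) 0 &&
    G.getD 3 0 == t.getD (t.getD (t.getD (t.getD q 0) 0) 0) 0)

/-- All 24 coset representatives are as required. -/
def gsOK (t : List Nat) (Gs : List (List Nat)) : Bool :=
  (List.range 24).all (fun q => gOK t q (Gs.getD q []))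

theorem pt_ne {i j : Nat} (hi : i < 24) (hj : j < 24) (h : i ≠ j) : pt i ≠ pt j := by
  intro e
  apply h
  rw [← idx_pt hi, ← idx_pt hj, e]

theorem getD_lt {g : Equiv.Perm GolayPt} {t : List Nat} (hr : Rep g t) {i : Nat} (hi : i < 24) :
    t.getD i 0 < 24 := by
  have := hr.2 (pt i)
  rw [idx_pt hi] at this
  rw [this]
  exact idx_lt _

theorem cen_cover {r : Equiv.Perm GolayPt} {t : List Nat} (hr : Rep r t) (hch : chainOK t = true)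
    {Gs : List (List Nat)} (hG : gsOK t Gs = true) {x : Equiv.Perm GolayPt} (hx : x ∈ M24)
    (hc : x * r = r * x) :
    ∃ q < 24, ∃ f ∈ L48, t.getD q 0 ≠ q ∧ Rep x (tmul (Gs.getD q []) f) := by
  simp only [chainOK, Bool.and_eq_true, beq_iff_eq] at hch
  obtain ⟨⟨⟨c23, c0⟩, c1⟩, c2⟩ := hch
  have r23 : r (pt 23) = pt 0 := hr.apply_eq (by norm_num) c23
  have r0 : r (pt 0) = pt 1 := hr.apply_eq (by norm_num) c0
  have r1 : r (pt 1) = pt 2 := hr.apply_eq (by norm_num) c1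
  have r2 : r (pt 2) = pt 3 := hr.apply_eq (by norm_num) c2
  have hcomm : ∀ p, x (r p) = r (x p) := fun p =>
    congrArg (fun f : Equiv.Perm GolayPt => f p) hc
  obtain ⟨q, hq⟩ : ∃ q, q = idx (x (pt 23)) := ⟨_, rfl⟩
  have hq24 : q < 24 := by rw [hq]; exact idx_lt _
  have x23 : x (pt 23) = pt q := by rw [hq, pt_idx]
  have hq1 := getD_lt hr hq24
  have hq2 := getD_lt hr hq1
  have hq3 := getD_lt hr hq2
  have x0 : x (pt 0) = pt (t.getD q 0) := by rw [← r23, hcomm, x23, hr.apply hq24]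
  have x1 : x (pt 1) = pt (t.getD (t.getD q 0) 0) := by rw [← r0, hcomm, x0, hr.apply hq1]
  have x2 : x (pt 2) = pt (t.getD (t.getD (t.getD q 0) 0) 0) := by
    rw [← r1, hcomm, x1, hr.apply hq2]
  have x3 : x (pt 3) = pt (t.getD (t.getD (t.getD (t.getD q 0) 0) 0) 0) := by
    rw [← r2, hcomm, x2, hr.apply hq3]
  have hne : t.getD q 0 ≠ q := by
    intro e
    rw [e, ← x23] at x0
    exact pt_ne (by norm_num : 0 < 24) (by norm_num : 23 < 24) (by norm_num) (x.injective x0)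
  have hGq := List.all_eq_true.mp hG q (List.mem_range.mpr hq24)
  simp only [gOK, Bool.or_eq_true, Bool.and_eq_true, beq_iff_eq] at hGq
  rcases hGq with hGq | ⟨⟨⟨⟨⟨hm, g23⟩, g0⟩, g1⟩, g2⟩, g3⟩
  · exact absurd hGq hne
  obtain ⟨g, hg, hgr⟩ := exists_M24' _ hm
  have hfix : g⁻¹ * x ∈ M24 ⊓ FixL [3, 2, 1, 0, 23] := by
    refine ⟨M24.mul_mem (M24.inv_mem hg) hx, ?_⟩
    have key : ∀ b j, b < 24 → x (pt b) = pt j → (Gs.getD q []).getD b 0 = j →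
        (g⁻¹ * x) (pt b) = pt b := by
      intro b j hb hxb hgb
      rw [Equiv.Perm.mul_apply, hxb, ← hgr.apply_eq hb hgb]
      simp
    intro b hb
    simp only [List.mem_cons, List.not_mem_nil, or_false] at hb
    rcases hb with rfl | rfl | rfl | rfl | rfl
    · exact key 3 _ (by norm_num) x3 g3
    · exact key 2 _ (by norm_num) x2 g2
    · exact key 1 _ (by norm_num) x1 g1
    · exact key 0 _ (by norm_num) x0 g0
    · exact key 23 _ (by norm_num) x23 g23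
  obtain ⟨f, hf, hfr⟩ := enum48.cov _ hfix
  refine ⟨q, hq24, f, hf, hne, ?_⟩
  have := hgr.mul hfr
  rwa [mul_inv_cancel_left] at this

/-- The table check over all candidates. -/
def allOK (t : List Nat) (Gs : List (List Nat)) (good : List Nat → Bool) : Bool :=
  (List.range 24).all (fun q => (t.getD q 0 == q) ||
    L48.all (fun f => !(commT t (tmul (Gs.getD q []) f)) || good (tmul (Gs.getD q []) f)))

theorem cen_all {r : Equiv.Perm GolayPt} {t : List Nat} (hr : Rep r t) (hch : chainOK t = true)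
    {Gs : List (List Nat)} (hG : gsOK t Gs = true) {good : List Nat → Bool}
    (hgood : allOK t Gs good = true) {x : Equiv.Perm GolayPt} (hx : x ∈ M24)
    (hc : x * r = r * x) : ∃ w, Rep x w ∧ good w = true := by
  obtain ⟨q, hq, f, hf, hne, hw⟩ := cen_cover hr hch hG hx hc
  refine ⟨_, hw, ?_⟩
  have h1 := List.all_eq_true.mp hgood q (List.mem_range.mpr hq)
  simp only [Bool.or_eq_true, beq_iff_eq] at h1
  rcases h1 with h1 | h1
  · exact absurd h1 hne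
  have h2 := List.all_eq_true.mp h1 f hf
  simp only [Bool.or_eq_true, Bool.not_eq_true'] at h2
  rcases h2 with h2 | h2
  · have := (commT_iff hr hw).mp hc
    rw [h2] at this
    exact absurd this (by simp)
  · exact h2

/-- Table of a power. -/
def powT (w : List Nat) : Nat → List Nat
  | 0 => idT
  | n + 1 => tmul (powT w n) w

theorem rep_pow {x : Equiv.Perm GolayPt} {w : List Nat} (h : Rep x w) :
    ∀ n, Rep (x ^ n) (powT w n)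
  | 0 => by rw [pow_zero]; exact rep_one
  | n + 1 => by rw [pow_succ]; exact (rep_pow h n).mul h

theorem pow_eq_one_of_rep {x : Equiv.Perm GolayPt} {w : List Nat} (h : Rep x w) {n : Nat}
    (hn : (powT w n == idT) = true) : x ^ n = 1 := by
  have := rep_pow h n
  rw [beq_iff_eq.mp hn] at this
  exact this.eq_one

theorem powT_of_pow_eq_one {x : Equiv.Perm GolayPt} {w : List Nat} (h : Rep x w) {n : Nat}
    (hn : x ^ n = 1) : powT w n = idT := by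
  have := rep_pow h n
  rw [hn] at this
  exact rep_unique this rep_one

end Cfsg.Agent.Lib.Helper86.M24CenFive
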