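import Cfsg.Agent.Lib.Helper86.M24CenFive
import Cfsg.Agent.Lib.Helper35.M24MElts

set_option autoImplicit false

/-!
# S5006 piece P27 (helper86): a subgroup of order 27 and exponent 3 of `M24` all of whose
elements commute with an involution of `M24`
-/

namespace Cfsg.Agent.Lib.Helper86.M24BlkP27

open Cfsg Cfsg.Agent.Lib.Helper7.GolayBase Cfsg.Agent.Lib.Helper7.GolayPerm
  Cfsg.Agent.Lib.Helper86.TabGrp Cfsg.Agent.Lib.Helper86.ChainEnum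
  Cfsg.Agent.Lib.Helper86.CenTab Cfsg.Agent.Lib.Helper86.M24CenFive
  Cfsg.Agent.Lib.Helper35.M24MElts

/-- Involutions of `M24` commuting with the elements of the subgroup. -/
def Us : List (List Nat) :=
  [[0, 2, 1, 23, 4, 5, 6, 22, 20, 19, 16, 21, 13, 12, 14, 15, 10, 17, 18, 9, 8, 11, 7, 3],
  [0, 1, 2, 3, 22, 5, 7, 6, 18, 10, 9, 12, 11, 16, 14, 20, 13, 17, 8, 21, 15, 19, 4, 23],
  [0, 1, 14, 5, 4, 3, 6, 11, 20, 9, 22, 7, 12, 18, 2, 19, 21, 17, 13, 15, 8, 16, 10, 23],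
  [4, 3, 23, 1, 0, 15, 14, 20, 22, 16, 19, 12, 11, 21, 6, 5, 9, 18, 17, 10, 7, 13, 8, 2],
  [0, 23, 2, 3, 4, 5, 18, 8, 7, 10, 9, 19, 21, 16, 17, 15, 13, 14, 6, 11, 20, 12, 22, 1],
  [3, 4, 23, 0, 1, 21, 16, 19, 14, 17, 11, 10, 20, 18, 8, 22, 6, 9, 13, 7, 12, 5, 15, 2],
  [23, 1, 2, 3, 4, 5, 10, 15, 8, 21, 6, 11, 18, 13, 17, 7, 22, 14, 12, 20, 19, 9, 16, 0],
  [2, 3, 0, 1, 23, 12, 19, 17, 22, 16, 14, 15, 5, 21, 10, 11, 9, 7, 20, 6, 18, 13, 8, 4],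
  [3, 2, 1, 0, 23, 7, 13, 5, 19, 20, 17, 21, 14, 6, 12, 16, 15, 10, 22, 8, 9, 11, 18, 4],
  [2, 4, 0, 23, 1, 8, 19, 13, 5, 14, 16, 15, 22, 7, 9, 11, 10, 21, 20, 6, 18, 17, 12, 3],
  [4, 2, 1, 23, 0, 6, 5, 13, 19, 20, 16, 21, 22, 7, 18, 17, 10, 15, 14, 8, 9, 11, 12, 3],
  [1, 0, 2, 3, 4, 5, 21, 7, 15, 18, 12, 20, 10, 22, 17, 8, 16, 14, 9, 19, 11, 6, 13, 23],
  [0, 1, 2, 3, 20, 5, 8, 18, 6, 16, 13, 19, 21, 10, 14, 22, 9, 17, 7, 11, 4, 12, 15, 23]]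

theorem mem_iff (h : Equiv.Perm GolayPt) :
    h ∈ Subgroup.closure ({a7, b7} : Set (Equiv.Perm GolayPt)) ↔
      Cfsg.Agent.Lib.Helper35.PermTab.tab h ∈ Cfsg.Agent.Lib.Helper35.M24MData.P27L := by
  rw [P27_eq]
  refine Cfsg.Agent.Lib.Helper35.PermTab.mem_closure_iff _
    [Cfsg.Agent.Lib.Helper35.M24MData.aT,
      tmul Cfsg.Agent.Lib.Helper35.M24MData.aT Cfsg.Agent.Lib.Helper35.M24MData.aT,
      Cfsg.Agent.Lib.Helper35.M24MData.bT,
      tmul Cfsg.Agent.Lib.Helper35.M24MData.bT Cfsg.Agent.Lib.Helper35.M24MData.bT]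
    Cfsg.Agent.Lib.Helper35.M24MData.P27L ?_ ?_ (by decide +kernel)
    (by decide +kernel) (by decide +kernel) (by decide +kernel) h
  · rintro g (rfl | rfl | rfl | rfl)
    · rw [a7_spec.2]; simp
    · rw [a7inv_tab]; simp
    · rw [b7_spec.2]; simp
    · rw [b7inv_tab]; simp
  · intro t ht
    simp only [List.mem_cons, List.not_mem_nil, or_false] at ht
    rcases ht with rfl | rfl | rfl | rfl
    · exact ⟨a7, by simp, a7_spec.2⟩
    · exact ⟨a7⁻¹, by simp, a7inv_tab⟩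
    · exact ⟨b7, by simp, b7_spec.2⟩
    · exact ⟨b7⁻¹, by simp, b7inv_tab⟩

theorem main : ∃ P : Subgroup (Equiv.Perm GolayPt), P ≤ M24 ∧ Nat.card P = 27 ∧
    (∀ x ∈ P, x ^ 3 = 1) ∧ (∀ x ∈ P, ∃ u ∈ M24, orderOf u = 2 ∧ u * x = x * u) := by
  refine ⟨Subgroup.closure {a7, b7}, ?_, P27_card, ?_, ?_⟩
  · rw [Subgroup.closure_le]
    rintro g (rfl | rfl)
    · exact a7_spec.1
    · exact b7_spec.1
  · intro x hx
    have ht := (mem_iff x).mp hx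
    have hall : Cfsg.Agent.Lib.Helper35.M24MData.P27L.all (fun t => powT t 3 == idT) = true := by
      decide +kernel
    exact pow_eq_one_of_rep (Cfsg.Agent.Lib.Helper35.PermTab.rep_tab x)
      (List.all_eq_true.mp hall _ ht)
  · intro x hx
    have ht := (mem_iff x).mp hx
    have hall : Cfsg.Agent.Lib.Helper35.M24MData.P27L.all (fun t => Us.any (fun u =>
        commT t u && (tmul u u == idT) && !(u == idT) && inM24' u)) = true := by
      decide +kernel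
    have h1 := List.all_eq_true.mp hall _ ht
    obtain ⟨u, -, h2⟩ := List.any_eq_true.mp h1
    simp only [Bool.and_eq_true, Bool.not_eq_true', beq_iff_eq, beq_eq_false_iff_ne] at h2
    obtain ⟨⟨⟨hc, hsq⟩, hne⟩, hm⟩ := h2
    obtain ⟨g, hg, hr⟩ := exists_M24' u hm
    refine ⟨g, hg, ?_, (commT_iff (Cfsg.Agent.Lib.Helper35.PermTab.rep_tab x) hr).mpr hc⟩
    have h2 : g ^ 2 = 1 := by
      rw [pow_two]
      have := hr.mul hr
      rw [hsq] at this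
      exact this.eq_one
    have h1 : g ≠ 1 := by
      intro e
      rw [e] at hr
      exact hne (rep_unique hr rep_one)
    exact orderOf_eq_prime h2 h1

end Cfsg.Agent.Lib.Helper86.M24BlkP27
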