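import Mathlib
import Cfsg.Agent.Lib.Helper12.AOStmt
import Cfsg.Agent.S0494
/-!
# S4068 piece Q4 (helper86)
-/

set_option autoImplicit false

namespace Cfsg.Agent.Lib.Helper86.AOQ4

open Cfsg.Agent.Lib.Helper12.AOStmt

universe u

theorem main : Cfsg.Agent.Lib.Helper12.AOStmt.Q4 := by
  intro hCard F _ _ hF
  have hsimple : IsSimpleGroup (Matrix.ProjectiveSpecialLinearGroup (Fin 2) F) :=
    Matrix.ProjectiveSpecialLinearGroup.rank_two_simple (by
      rw [Nat.card_eq_fintype_card, hF])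
  have h := hCard F 2 (by norm_num) (by rw [hF]; norm_num)
  have e2 : 2 ^ 2 * (2 ^ 2 - 1) * (2 ^ 2 + 1) = 60 := by norm_num
  rw [e2] at h
  have hfin : Finite (Matrix.ProjectiveSpecialLinearGroup (Fin 2) F) :=
    Nat.finite_of_card_ne_zero (by omega)
  exact Cfsg.Agent.S0494.result h

end Cfsg.Agent.Lib.Helper86.AOQ4
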