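import Cfsg.Agent.Lib.Helper86.TransvStruct
import Cfsg.Agent.Lib.Helper93.Cent2A
import Cfsg.Agent.Lib.Helper86.M24Inv2

set_option autoImplicit false

/-!
# The centraliser in `M24` of an involution fixing an octad pointwise

For every involution `z` of `M24` whose fixed points form an octad, `Q = O_2(C(z))` is a large
extraspecial subgroup of order `2^7`, it contains an elementary abelian subgroup of order `2^4`,
and it has a complement in `C(z)` isomorphic to `SL(3, 2)`.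
-/

open scoped Pointwise

namespace Cfsg.Agent.Lib.Helper86.Cen2AStruct

open Cfsg Cfsg.Agent.Lib.Helper27.Bits Cfsg.Agent.Lib.Helper27.Golay Cfsg.Agent.Lib.Helper27.M24
  Cfsg.Agent.Lib.Helper27.Cert Cfsg.Agent.Lib.Helper27.Trans Cfsg.Agent.Lib.Helper27.Fast
  Cfsg.Agent.Lib.Helper27.Oct Cfsg.Agent.Lib.Helper93.Rigid Cfsg.Agent.Lib.Helper93.NForm
  Cfsg.Agent.S5615 Cfsg.Agent.Lib.Helper93.Cent2A Cfsg.Agent.Lib.Helper93.LargeExtra
  Cfsg.Agent.Lib.Helper93.TransvCent Cfsg.Agent.Lib.Helper86.TransvStruct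

/-- The centraliser of the standard involution has the structure `2^{1+6} : SL(3, 2)`. -/
theorem good_zM : Good ↥(Subgroup.centralizer ({zM} : Set ↥M24)) := by
  classical
  have hs : ((rho zC : Matrix.SpecialLinearGroup (Fin 5) (ZMod 2)) :
      Matrix (Fin 5) (Fin 5) (ZMod 2)) = Matrix.transvection 0 1 1 := rho_zC
  have hmem : ∀ c, rho c ∈ Subgroup.centralizer
      ({rho zC} : Set (Matrix.SpecialLinearGroup (Fin 5) (ZMod 2))) := by
    intro c
    rw [Subgroup.mem_centralizer_singleton_iff, ← map_mul, ← map_mul, zC_comm c]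
  have hf : Function.Injective (rho.codRestrict _ hmem) :=
    fun a b h => rho_injective (congrArg Subtype.val h)
  have h1 := card_le
  have h2 := card_cent_le hs
  have h3 := Nat.card_le_card_of_injective _ hf
  have hcard : 21504 ≤ Nat.card ↥(Subgroup.centralizer
      ({rho zC} : Set (Matrix.SpecialLinearGroup (Fin 5) (ZMod 2)))) := by omega
  have hbij : Function.Bijective (rho.codRestrict _ hmem) :=
    hf.bijective_of_nat_card_le (by omega)
  exact (good_T hs hcard).of_equiv (MulEquiv.ofBijective _ hbij).symm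

/-! ### The pointwise stabiliser of the standard octad -/

/-- The pointwise stabiliser of the standard octad. -/
def E16 : Subgroup ↥M24 where
  carrier := {g | ∀ p ∈ fsOf m0, (g : Equiv.Perm GolayPt) p = p}
  mul_mem' := by
    intro a b ha hb p hp
    show (a : Equiv.Perm GolayPt) ((b : Equiv.Perm GolayPt) p) = p
    rw [hb p hp, ha p hp]
  one_mem' := fun _ _ => rfl
  inv_mem' := by
    intro a ha p hp
    show (a : Equiv.Perm GolayPt)⁻¹ p = p
    rw [Equiv.Perm.inv_eq_iff_eq]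
    exact (ha p hp).symm

theorem E16_sq {g : ↥M24} (hg : g ∈ E16) : g * g = 1 := by
  obtain ⟨k, hk, e⟩ := exists_f g.2 hg
  apply Subtype.ext
  show (g : Equiv.Perm GolayPt) * g = 1
  rw [e]
  by_cases hk0 : k = 0
  · subst hk0
    rw [gperm_eq_one_of_idB (inM24_valid (okF_spec 0 (by norm_num)).1) d7, mul_one]
  · have h2 : gperm (tget YT 120 k) * zp * (gperm (tget YT 120 k))⁻¹ = gperm (tget GF 120 k) :=
      (yk_spec ⟨k, hk⟩ hk0).2
    rw [← h2]
    have e2 : ∀ y : Equiv.Perm GolayPt, y * zp * y⁻¹ * (y * zp * y⁻¹) = y * (zp * zp) * y⁻¹ := by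
      intro y; group
    rw [e2, zp_sq]
    group

theorem E16_comm {a b : ↥M24} (ha : a ∈ E16) (hb : b ∈ E16) : a * b = b * a := by
  have ea : a⁻¹ = a := inv_eq_of_mul_eq_one_left (E16_sq ha)
  have eb : b⁻¹ = b := inv_eq_of_mul_eq_one_left (E16_sq hb)
  have eab : (a * b)⁻¹ = a * b := inv_eq_of_mul_eq_one_left (E16_sq (E16.mul_mem ha hb))
  rw [mul_inv_rev, ea, eb] at eab
  exact eab.symm

theorem zM_mem_E16 : zM ∈ E16 := fun p hp => (zp_fix_iff p).mpr hp

theorem E16_le_O2C : E16 ≤ O2C zM := by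
  intro g hg
  have hgc : g ∈ Subgroup.centralizer ({zM} : Set ↥M24) := by
    rw [Subgroup.mem_centralizer_singleton_iff]
    exact E16_comm hg zM_mem_E16
  have hN : (E16.subgroupOf (Subgroup.centralizer ({zM} : Set ↥M24))).Normal := by
    constructor
    intro n hn c
    rw [Subgroup.mem_subgroupOf] at hn ⊢
    intro p hp
    show (c.1.1 : Equiv.Perm GolayPt) ((n.1.1 : Equiv.Perm GolayPt)
      ((c.1.1 : Equiv.Perm GolayPt)⁻¹ p)) = p
    have hcs := cent_smul c
    have h1 : (c.1.1 : Equiv.Perm GolayPt)⁻¹ p ∈ fsOf m0 := by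
      have hp' : p ∈ (c.1.1 : Equiv.Perm GolayPt) • fsOf m0 := by rw [hcs]; exact hp
      exact Finset.inv_smul_mem_iff.mpr hp'
    rw [hn _ h1]
    exact Equiv.apply_symm_apply _ p
  have hP : IsPGroup 2 ↥(E16.subgroupOf (Subgroup.centralizer ({zM} : Set ↥M24))) := by
    intro x
    refine ⟨1, ?_⟩
    rw [pow_one, pow_two]
    apply Subtype.ext
    apply Subtype.ext
    exact E16_sq (Subgroup.mem_subgroupOf.mp x.2)
  have hle := Cfsg.Agent.Lib.Helper78.Fitting.le_pCore hN hP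
  exact ⟨⟨g, hgc⟩, hle (Subgroup.mem_subgroupOf.mpr hg), rfl⟩

theorem exists_conj_in_O2C : ∃ g : ↥M24, g * zM * g⁻¹ ∈ O2C zM ∧ g * zM * g⁻¹ ≠ zM := by
  have hk : ((2 : Fin 16) : ℕ) ≠ 0 := by decide
  obtain ⟨hy, hc⟩ := yk_spec 2 hk
  have hc' : gperm (tget YT 120 2) * zp * (gperm (tget YT 120 2))⁻¹ = gperm (tget GF 120 2) := hc
  have hy' : gperm (tget YT 120 2) ∈ M24 := hy
  refine ⟨⟨_, hy'⟩, E16_le_O2C ?_, ?_⟩
  · intro p hp
    show (gperm (tget YT 120 2) * zp * (gperm (tget YT 120 2))⁻¹) p = p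
    rw [hc']
    exact f_fix 2 (by norm_num) p hp
  · intro h
    have h' : gperm (tget YT 120 2) * zp * (gperm (tget YT 120 2))⁻¹ = zp :=
      congrArg Subtype.val h
    rw [hc'] at h'
    have e1 := f_q0 2 (by norm_num)
    have e2 := f_q0 1 (by norm_num)
    have e3 : zp = gperm (tget GF 120 1) := rfl
    rw [h', e3, e2] at e1
    have e4 := congrArg idx e1
    rw [idx_pt _ (by decide), idx_pt _ (by decide)] at e4
    revert e4
    decide

/-! ### Conjugacy -/

theorem exists_conj_zM (z : ↥M24) (hz : orderOf z = 2)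
    (hfix : (Finset.univ.filter fun p : GolayPt => (z : Equiv.Perm GolayPt) p = p) ∈ octads) :
    ∃ k : ↥M24, z = k * zM * k⁻¹ := by
  have hz1 : orderOf (z : Equiv.Perm GolayPt) = 2 := by
    rw [Subgroup.orderOf_coe]; exact hz
  have hcard : (Finset.univ.filter fun p : GolayPt => (z : Equiv.Perm GolayPt) p = p).card = 8 := by
    have h : _ ∧ _ := hfix
    exact h.2
  obtain ⟨p, hp⟩ : ∃ p, (z : Equiv.Perm GolayPt) p = p := by
    have hne : (Finset.univ.filter fun p : GolayPt => (z : Equiv.Perm GolayPt) p = p).Nonempty := by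
      rw [← Finset.card_pos, hcard]; norm_num
    obtain ⟨p, hp⟩ := hne
    exact ⟨p, (Finset.mem_filter.mp hp).2⟩
  have hzp2 : orderOf zp = 2 := by
    have := orderOf_zM
    rw [← Subgroup.orderOf_coe] at this
    exact this
  have hp0 : zp (pt 0) = pt 0 := by
    rw [zp_fix_iff, mem_setOf_pt (by norm_num)]
    decide
  obtain ⟨k1, hk1, h1⟩ := Cfsg.Agent.Lib.Helper86.M24Inv2.conj_gA_of_fixed z.2 hz1 hp
  obtain ⟨k2, hk2, h2⟩ := Cfsg.Agent.Lib.Helper86.M24Inv2.conj_gA_of_fixed zp_mem hzp2 hp0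
  have h3 := Cfsg.Agent.Lib.Helper86.M24Inv2.conj_of_conj h2 h1
  refine ⟨⟨k1⁻¹ * k2, M24.mul_mem (M24.inv_mem hk1) hk2⟩, Subtype.ext ?_⟩
  exact h3.symm

/-! ### The main statement -/

theorem main (z : ↥M24) (hz : orderOf z = 2)
    (hfix : (Finset.univ.filter fun p : GolayPt => (z : Equiv.Perm GolayPt) p = p) ∈ octads) :
    Cfsg.IsExtraspecial 2 ↥(O2C z) ∧ Nat.card ↥(O2C z) = 2 ^ 7 ∧
      (∃ E : Subgroup ↥M24, E ≤ O2C z ∧ Cfsg.IsElementaryAbelian 2 E ∧ Nat.card ↥E = 2 ^ 4) ∧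
      Cfsg.IsLargeExtraspecial (O2C z) ∧
      ∃ K : Subgroup ↥M24, K ≤ Subgroup.centralizer ({z} : Set ↥M24) ∧ O2C z ⊓ K = ⊥ ∧
        O2C z ⊔ K = Subgroup.centralizer ({z} : Set ↥M24) ∧
        Nonempty (↥K ≃* Matrix.SpecialLinearGroup (Fin 3) (ZMod 2)) := by
  obtain ⟨k, hk⟩ := exists_conj_zM z hz hfix
  have hG : Good ↥(Subgroup.centralizer ({z} : Set ↥M24)) := by
    rw [hk]
    exact good_zM.of_equiv (((MulAut.conj k).subgroupMap
      (Subgroup.centralizer ({zM} : Set ↥M24))).trans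
      (MulEquiv.subgroupCongr (centralizer_conj k zM).symm))
  have hinj := Subgroup.subtype_injective (Subgroup.centralizer ({z} : Set ↥M24))
  have hO : O2C z = (Cfsg.pCore 2 ↥(Subgroup.centralizer ({z} : Set ↥M24))).map
      (Subgroup.centralizer ({z} : Set ↥M24)).subtype := rfl
  have hes : Cfsg.IsExtraspecial 2 ↥(O2C z) := by
    rw [hO]
    exact Cfsg.Agent.Lib.Helper90.FStarES.isExtraspecial_of_mulEquiv
      ((Cfsg.pCore 2 ↥(Subgroup.centralizer ({z} : Set ↥M24))).equivMapOfInjective _ hinj) hG.es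
  have hcard : Nat.card ↥(O2C z) = 2 ^ 7 := by
    rw [hO, Subgroup.card_map_of_injective hinj]
    exact hG.card
  have hzC : z ∈ Subgroup.centralizer ({z} : Set ↥M24) :=
    Subgroup.mem_centralizer_singleton_iff.mpr rfl
  have hcomm : ∀ q : ↥(Subgroup.centralizer ({z} : Set ↥M24)), (q : ↥M24) * z = z * q :=
    fun q => Subgroup.mem_centralizer_singleton_iff.mp q.2
  have hsetup : Cfsg.Agent.Lib.Helper90.FStarES.Setup z (O2C z) := by
    refine ⟨hz, ?_, ?_, hes, ?_, ?_⟩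
    · refine ⟨⟨z, hzC⟩, hG.cent ⟨z, hzC⟩ (fun q _ => Subtype.ext (hcomm q).symm), rfl⟩
    · intro q hq
      exact Subgroup.mem_centralizer_singleton_iff.mp (O2C_le_centralizer z hq)
    · intro h hh q hq
      obtain ⟨q', hq', rfl⟩ := hq
      have hhC : h ∈ Subgroup.centralizer ({z} : Set ↥M24) :=
        Subgroup.mem_centralizer_singleton_iff.mpr hh
      have hn := Cfsg.Agent.Lib.Helper78.Fitting.pCore_normal
        (G := ↥(Subgroup.centralizer ({z} : Set ↥M24))) 2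
      exact ⟨⟨h, hhC⟩ * q' * ⟨h, hhC⟩⁻¹, hn.conj_mem q' hq' _, rfl⟩
    · intro c hc hcq
      have hcC : c ∈ Subgroup.centralizer ({z} : Set ↥M24) :=
        Subgroup.mem_centralizer_singleton_iff.mpr hc
      exact ⟨⟨c, hcC⟩, hG.cent ⟨c, hcC⟩ (fun q' hq' => Subtype.ext (hcq q'.1 ⟨q', hq', rfl⟩)), rfl⟩
  refine ⟨hes, hcard, ?_, ?_, ?_⟩
  · obtain ⟨E, h1, h2, h3, h4⟩ := hG.elem
    refine ⟨E.map (Subgroup.centralizer ({z} : Set ↥M24)).subtype, ?_, elemAb_map h2 h3 _, ?_⟩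
    · rw [hO]
      exact Subgroup.map_mono h1
    · rw [Subgroup.card_map_of_injective hinj, h4]
  · obtain ⟨g0, hg1, hg2⟩ := exists_conj_in_O2C
    have e1 : (k * g0 * k⁻¹) * z * (k * g0 * k⁻¹)⁻¹ = k * (g0 * zM * g0⁻¹) * k⁻¹ := by
      rw [hk]; group
    apply Cfsg.Agent.Lib.Helper90.FStarES.Setup.large_of_conj hsetup 3 (by norm_num)
      (by rw [hcard]) (k * g0 * k⁻¹)
    · rw [e1, hk]
      exact mem_O2C_conj hg1
    · rw [e1]
      intro h
      apply hg2
      rw [hk] at h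
      have := congrArg (fun t => k⁻¹ * t * k) h
      simpa [mul_assoc] using this
  · obtain ⟨K, h1, h2, ⟨eK⟩⟩ := hG.compl
    refine ⟨K.map (Subgroup.centralizer ({z} : Set ↥M24)).subtype, Subgroup.map_subtype_le _,
      ?_, ?_, ⟨(K.equivMapOfInjective _ hinj).symm.trans eK⟩⟩
    · rw [hO, ← Subgroup.map_inf _ _ _ hinj, h1, Subgroup.map_bot]
    · rw [hO, ← Subgroup.map_sup, h2, ← MonoidHom.range_eq_map, Subgroup.range_subtype]

end Cfsg.Agent.Lib.Helper86.Cen2AStruct
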