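import Mathlib

set_option autoImplicit false

/-!
# Kernel-checkable coset-table certificates (stateless single-gap closure)

A certificate for "the cosets `H t_0, …, H t_{n-1}` are permuted by the generators" consists of
a complete coset table in which every directed edge `(i, x)` carries a time stamp and a
justification:

* type `0`: tree edge (the target coset is defined as `t_i * g_x`);
* type `1`: reverse of another edge (generators are involutions);
* type `2`: the single gap of a scan of a rotated relator through edges with smaller time stamps;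
* type `3`: the single gap of a scan of a subgroup generator from the coset `0`.

All checks are stateless lookups (`cosetOK`), so that they can be verified by the kernel in
independent blocks (`rangeOK`).  `rel_all` is the soundness theorem, `mem_cosets` and `run_mem` its
consequences.
-/

namespace Cfsg.Agent.Lib.Helper86.CosetCert

/-- force the evaluation of a natural number before it is used -/
def force {β : Type} (v : ℕ) (f : ℕ → β) : β :=
  match v with
  | 0 => f 0
  | Nat.succ v' => f (Nat.succ v')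

theorem force_eq {β : Type} (v : ℕ) (f : ℕ → β) : force v f = f v := by cases v <;> rfl

/-- eight-way selection -/
def sel8 (i a0 a1 a2 a3 a4 a5 a6 a7 : ℕ) : ℕ :=
  cond (Nat.ble 4 i) (cond (Nat.ble 6 i) (cond (Nat.ble 7 i) a7 a6) (cond (Nat.ble 5 i) a5 a4))
    (cond (Nat.ble 2 i) (cond (Nat.ble 3 i) a3 a2) (cond (Nat.ble 1 i) a1 a0))

/-- four-way selection -/
def sel4 {β : Type} (t : ℕ) (a b c d : β) : β :=
  cond (Nat.ble 2 t) (cond (Nat.ble 3 t) d c) (cond (Nat.ble 1 t) b a)

theorem sel4_eq {β : Type} (t : ℕ) (a b c d : β) :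
    sel4 t a b c d = if t = 0 then a else if t = 1 then b else if t = 2 then c else d := by
  unfold sel4
  rcases t with _ | _ | _ | t
  · rfl
  · rfl
  · rfl
  · have h2 : Nat.ble 2 (t + 3) = true := by rw [Nat.ble_eq]; omega
    have h3 : Nat.ble 3 (t + 3) = true := by rw [Nat.ble_eq]; omega
    rw [h2, h3]
    simp

/-- The data of a certificate.  `tt x c` is the packed entry of the edge `(c, x)`:
target coset, time stamp, type, argument; `cc q` is the packed entry of the coset `q`:
parent, generator, definition time; `rw r` is a packed rotated relator: first letter, length of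
the rest, letters of the rest. -/
structure Ctx where
  k : ℕ
  n : ℕ
  w : ℕ
  mw : ℕ
  tw : ℕ
  mt : ℕ
  tt : ℕ → ℕ → ℕ
  cc : ℕ → ℕ
  nrw : ℕ
  rw : ℕ → ℕ
  subs : List (List ℕ)

/-- target of the edge `(c, x)` -/
def Ctx.nx (C : Ctx) (c x : ℕ) : ℕ := C.tt x c &&& C.mw
/-- time stamp of the edge `(c, x)` -/
def Ctx.ts (C : Ctx) (c x : ℕ) : ℕ := (C.tt x c >>> C.w) &&& C.mt
/-- type of the edge `(c, x)` -/
def Ctx.ty (C : Ctx) (c x : ℕ) : ℕ := (C.tt x c >>> (C.w + C.tw)) &&& 3
/-- argument of the edge `(c, x)` -/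
def Ctx.arg (C : Ctx) (c x : ℕ) : ℕ := C.tt x c >>> (C.w + C.tw + 2)
/-- parent of the coset `q` -/
def Ctx.par (C : Ctx) (q : ℕ) : ℕ := C.cc q &&& C.mw
/-- generator leading from the parent to `q` -/
def Ctx.pg (C : Ctx) (q : ℕ) : ℕ := (C.cc q >>> C.w) &&& 15
/-- definition time of the coset `q` -/
def Ctx.dt (C : Ctx) (q : ℕ) : ℕ := C.cc q >>> (C.w + 4)

/-- walk along the letters of a packed word through edges with time stamps below `te` -/
def walkP (C : Ctx) (te : ℕ) : ℕ → ℕ → ℕ → Option ℕ
  | 0, _, c => some c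
  | cnt + 1, pk, c =>
    force (C.tt ((pk >>> (4 * cnt)) &&& 15) c) fun v =>
      cond (Nat.blt ((v >>> C.w) &&& C.mt) te) (walkP C te cnt pk (v &&& C.mw)) none

/-- walk along a word through edges with time stamps below `te` -/
def walkL (C : Ctx) (te : ℕ) : List ℕ → ℕ → Option ℕ
  | [], c => some c
  | x :: l, c => if C.ts c x < te then walkL C te l (C.nx c x) else none

/-- the letters of a packed word -/
def unpk : ℕ → ℕ → List ℕ
  | 0, _ => []
  | cnt + 1, pk => ((pk >>> (4 * cnt)) &&& 15) :: unpk cnt pk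

/-- the word of a packed rotated relator -/
def slotWord (s : ℕ) : List ℕ := (s &&& 15) :: unpk ((s >>> 4) &&& 255) (s >>> 12)

theorem walkP_eq (C : Ctx) (te : ℕ) (pk : ℕ) :
    ∀ (cnt c : ℕ), walkP C te cnt pk c = walkL C te (unpk cnt pk) c := by
  intro cnt
  induction cnt with
  | zero => intro c; rfl
  | succ cnt ih =>
    intro c
    rw [walkP, force_eq, unpk, walkL, ih]
    by_cases h : C.ts c ((pk >>> (4 * cnt)) &&& 15) < te
    · rw [if_pos h]
      have : Nat.blt ((C.tt ((pk >>> (4 * cnt)) &&& 15) c >>> C.w) &&& C.mt) te = true := by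
        rw [Nat.blt_eq]; exact h
      rw [this]
      rfl
    · rw [if_neg h]
      have : Nat.blt ((C.tt ((pk >>> (4 * cnt)) &&& 15) c >>> C.w) &&& C.mt) te = false := by
        rw [← Bool.not_eq_true, Nat.blt_eq]; exact h
      rw [this]
      rfl

/-- the scan of a subgroup generator from the coset `0` with the gap at the edge `(i, x)` -/
def subOK (C : Ctx) (i x q te arg : ℕ) : Bool :=
  match (C.subs.getD (arg &&& 63) []).drop (arg >>> 6) with
  | [] => false
  | y :: post =>
    Nat.beq y x &&
      (match walkL C te ((C.subs.getD (arg &&& 63) []).take (arg >>> 6)) 0 with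
        | some e => Nat.beq e i
        | none => false) &&
      (match walkL C te post q with
        | some e => Nat.beq e 0
        | none => false)

/-- the check of the edge `(i, x)` -/
def edgeOK (C : Ctx) (i x : ℕ) : Bool :=
  force (C.tt x i) fun v =>
    Nat.blt (v &&& C.mw) C.n &&
    sel4 ((v >>> (C.w + C.tw)) &&& 3)
      (force (C.cc (v &&& C.mw)) fun u =>
        Nat.beq (u &&& C.mw) i && Nat.beq ((u >>> C.w) &&& 15) x && Nat.blt 0 (v &&& C.mw))
      (force (C.tt x (v &&& C.mw)) fun v' =>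
        Nat.beq (v' &&& C.mw) i && !(Nat.beq ((v' >>> (C.w + C.tw)) &&& 3) 1) &&
          Nat.ble ((v' >>> C.w) &&& C.mt) ((v >>> C.w) &&& C.mt))
      (Nat.blt (v >>> (C.w + C.tw + 2)) C.nrw &&
        force (C.rw (v >>> (C.w + C.tw + 2))) fun s =>
          Nat.beq (s &&& 15) x &&
            (match walkP C ((v >>> C.w) &&& C.mt) ((s >>> 4) &&& 255) (s >>> 12) (v &&& C.mw) with
              | some e => Nat.beq e i
              | none => false))
      (subOK C i x (v &&& C.mw) ((v >>> C.w) &&& C.mt) (v >>> (C.w + C.tw + 2)))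

/-- the check of the tree at the coset `i` -/
def treeOK (C : Ctx) (i : ℕ) : Bool :=
  Nat.beq i 0 || force (C.cc i) fun u =>
    Nat.blt (u &&& C.mw) C.n && Nat.blt ((u >>> C.w) &&& 15) C.k &&
      Nat.blt (C.cc (u &&& C.mw) >>> (C.w + 4)) (u >>> (C.w + 4))

/-- the checks of the edges `(i, 0), …, (i, x - 1)` -/
def edgesOK (C : Ctx) (i : ℕ) : ℕ → Bool
  | 0 => true
  | x + 1 => edgeOK C i x && edgesOK C i x

/-- all checks at the coset `i` -/
def cosetOK (C : Ctx) (i : ℕ) : Bool := treeOK C i && edgesOK C i C.k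

/-- all checks at the cosets `lo, …, lo + cnt - 1` -/
def rangeOK (C : Ctx) (lo : ℕ) : ℕ → Bool
  | 0 => true
  | cnt + 1 => cosetOK C (lo + cnt) && rangeOK C lo cnt

theorem edgesOK_spec (C : Ctx) (i : ℕ) :
    ∀ k, edgesOK C i k = true → ∀ x, x < k → edgeOK C i x = true := by
  intro k
  induction k with
  | zero => intro _ x hx; omega
  | succ k ih =>
    intro h x hx
    rw [edgesOK, Bool.and_eq_true] at h
    rcases Nat.lt_succ_iff_lt_or_eq.1 hx with h' | rfl
    · exact ih h.2 x h'
    · exact h.1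

theorem rangeOK_spec (C : Ctx) (lo : ℕ) :
    ∀ cnt, rangeOK C lo cnt = true → ∀ i, lo ≤ i → i < lo + cnt → cosetOK C i = true := by
  intro cnt
  induction cnt with
  | zero => intro _ i h1 h2; omega
  | succ cnt ih =>
    intro h i h1 h2
    rw [rangeOK, Bool.and_eq_true] at h
    by_cases h' : i < lo + cnt
    · exact ih h.2 i h1 h'
    · have : i = lo + cnt := by omega
      rw [this]; exact h.1

theorem treeOK_spec (C : Ctx) (i : ℕ) (h : treeOK C i = true) (hi : i ≠ 0) :
    C.par i < C.n ∧ C.pg i < C.k ∧ C.dt (C.par i) < C.dt i := by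
  unfold treeOK at h
  rw [force_eq, Bool.or_eq_true, Bool.and_eq_true, Bool.and_eq_true, Nat.beq_eq,
    Nat.blt_eq, Nat.blt_eq, Nat.blt_eq] at h
  rcases h with h | ⟨⟨h1, h2⟩, h3⟩
  · exact absurd h hi
  · exact ⟨h1, h2, h3⟩

/-- the meaning of the check of an edge -/
theorem edgeOK_spec (C : Ctx) (i x : ℕ) (h : edgeOK C i x = true) :
    C.nx i x < C.n ∧
      ((C.ty i x = 0 ∧ C.par (C.nx i x) = i ∧ C.pg (C.nx i x) = x ∧ 0 < C.nx i x) ∨
       (C.ty i x = 1 ∧ C.nx (C.nx i x) x = i ∧ C.ty (C.nx i x) x ≠ 1 ∧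
          C.ts (C.nx i x) x ≤ C.ts i x) ∨
       (C.ty i x = 2 ∧ C.arg i x < C.nrw ∧ C.rw (C.arg i x) &&& 15 = x ∧
          walkL C (C.ts i x) (unpk ((C.rw (C.arg i x) >>> 4) &&& 255) (C.rw (C.arg i x) >>> 12))
            (C.nx i x) = some i) ∨
       (C.ty i x ≠ 1 ∧ subOK C i x (C.nx i x) (C.ts i x) (C.arg i x) = true)) := by
  unfold edgeOK at h
  rw [force_eq, Bool.and_eq_true, Nat.blt_eq, sel4_eq] at h
  obtain ⟨hq, h⟩ := h
  refine ⟨hq, ?_⟩
  by_cases h0 : (C.tt x i >>> (C.w + C.tw)) &&& 3 = 0
  · rw [if_pos h0, force_eq, Bool.and_eq_true, Bool.and_eq_true, Nat.beq_eq,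
      Nat.beq_eq, Nat.blt_eq] at h
    exact Or.inl ⟨h0, h.1.1, h.1.2, h.2⟩
  · rw [if_neg h0] at h
    by_cases h1 : (C.tt x i >>> (C.w + C.tw)) &&& 3 = 1
    · rw [if_pos h1, force_eq, Bool.and_eq_true, Bool.and_eq_true, Nat.beq_eq,
        Nat.ble_eq, Bool.not_eq_true', ← Bool.not_eq_true, Nat.beq_eq] at h
      exact Or.inr (Or.inl ⟨h1, h.1.1, h.1.2, h.2⟩)
    · rw [if_neg h1] at h
      by_cases h2 : (C.tt x i >>> (C.w + C.tw)) &&& 3 = 2
      · rw [if_pos h2, Bool.and_eq_true, Nat.blt_eq, force_eq, Bool.and_eq_true,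
          Nat.beq_eq, walkP_eq] at h
        refine Or.inr (Or.inr (Or.inl ⟨h2, h.1, h.2.1, ?_⟩))
        have h3 := h.2.2
        revert h3
        cases hw : walkL C ((C.tt x i >>> C.w) &&& C.mt)
            (unpk ((C.rw (C.tt x i >>> (C.w + C.tw + 2)) >>> 4) &&& 255)
              (C.rw (C.tt x i >>> (C.w + C.tw + 2)) >>> 12)) (C.tt x i &&& C.mw) with
        | none => intro h3; exact absurd h3 (by simp)
        | some e =>
          intro h3
          rw [Nat.beq_eq] at h3
          rw [h3] at hw
          exact hw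
      · rw [if_neg h2] at h
        exact Or.inr (Or.inr (Or.inr ⟨h1, h⟩))

section Sound

variable {G : Type*} [Group G] (C : Ctx) (g : ℕ → G) (H : Subgroup G)

/-- the element spelled by a word -/
def ev (l : List ℕ) : G := (l.map g).prod

theorem ev_nil : ev g [] = 1 := rfl

theorem ev_cons (x : ℕ) (l : List ℕ) : ev g (x :: l) = g x * ev g l := by
  unfold ev; rw [List.map_cons, List.prod_cons]

theorem ev_append (l l' : List ℕ) : ev g (l ++ l') = ev g l * ev g l' := by
  unfold ev; rw [List.map_append, List.prod_append]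

/-- coset representatives along the tree, with fuel -/
def tw : ℕ → ℕ → G
  | 0, _ => 1
  | f + 1, q => if q = 0 then 1 else tw f (C.par q) * g (C.pg q)

/-- the coset representatives -/
def trep (q : ℕ) : G := tw C g (C.dt q) q

/-- the edge `(i, x)` is correct -/
def Rel (i x : ℕ) : Prop :=
  C.nx i x < C.n ∧ trep C g i * g x * (trep C g (C.nx i x))⁻¹ ∈ H

theorem tw_zero (f : ℕ) : tw C g f 0 = 1 := by
  cases f with
  | zero => rfl
  | succ f => rw [tw, if_pos rfl]

theorem trep_zero : trep C g 0 = 1 := tw_zero C g _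

variable (hchk : ∀ i, i < C.n → cosetOK C i = true)

include hchk in
theorem tree_prop (q : ℕ) (hq : q < C.n) (h0 : q ≠ 0) :
    C.par q < C.n ∧ C.pg q < C.k ∧ C.dt (C.par q) < C.dt q := by
  have h := hchk q hq
  rw [cosetOK, Bool.and_eq_true] at h
  exact treeOK_spec C q h.1 h0

include hchk in
theorem edge_prop (i x : ℕ) (hi : i < C.n) (hx : x < C.k) : edgeOK C i x = true := by
  have h := hchk i hi
  rw [cosetOK, Bool.and_eq_true] at h
  exact edgesOK_spec C i C.k h.2 x hx

include hchk in
theorem tw_fuel : ∀ d q, q < C.n → C.dt q ≤ d → ∀ f, C.dt q ≤ f →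
    tw C g f q = tw C g (C.dt q) q := by
  intro d
  induction d with
  | zero =>
    intro q hq hd f _
    by_cases h0 : q = 0
    · rw [h0, tw_zero, tw_zero]
    · have := (tree_prop C hchk q hq h0).2.2
      omega
  | succ d ih =>
    intro q hq hd f hf
    by_cases h0 : q = 0
    · rw [h0, tw_zero, tw_zero]
    · obtain ⟨hp, _, hlt⟩ := tree_prop C hchk q hq h0
      obtain ⟨f', rfl⟩ : ∃ f', f = f' + 1 := ⟨f - 1, by omega⟩
      obtain ⟨e, he⟩ : ∃ e, C.dt q = e + 1 := ⟨C.dt q - 1, by omega⟩
      rw [he, tw, tw, if_neg h0, if_neg h0]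
      rw [ih (C.par q) hp (by omega) f' (by omega), ih (C.par q) hp (by omega) e (by omega)]

include hchk in
theorem trep_eq (q : ℕ) (hq : q < C.n) (h0 : q ≠ 0) :
    trep C g q = trep C g (C.par q) * g (C.pg q) := by
  obtain ⟨hp, _, hlt⟩ := tree_prop C hchk q hq h0
  obtain ⟨e, he⟩ : ∃ e, C.dt q = e + 1 := ⟨C.dt q - 1, by omega⟩
  unfold trep
  rw [he, tw, if_neg h0, tw_fuel C g hchk e (C.par q) hp (by omega) e (by omega)]

theorem walkL_spec (te : ℕ)
    (hIH : ∀ c y, c < C.n → y < C.k → C.ts c y < te → Rel C g H c y) :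
    ∀ (l : List ℕ) (c e : ℕ), (∀ y ∈ l, y < C.k) → c < C.n → walkL C te l c = some e →
      e < C.n ∧ trep C g c * ev g l * (trep C g e)⁻¹ ∈ H := by
  intro l
  induction l with
  | nil =>
    intro c e _ hc h
    rw [walkL, Option.some.injEq] at h
    subst h
    refine ⟨hc, ?_⟩
    rw [ev_nil, mul_one, mul_inv_cancel]
    exact H.one_mem
  | cons y l ih =>
    intro c e hl hc h
    rw [walkL] at h
    by_cases hts : C.ts c y < te
    · rw [if_pos hts] at h
      obtain ⟨h1, h2⟩ := hIH c y hc (hl y List.mem_cons_self) hts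
      obtain ⟨h3, h4⟩ := ih (C.nx c y) e (fun z hz => hl z (List.mem_cons_of_mem _ hz)) h1 h
      refine ⟨h3, ?_⟩
      have := H.mul_mem h2 h4
      rw [ev_cons]
      convert this using 1
      group
    · rw [if_neg hts] at h
      exact absurd h (by simp)

variable (hinv : ∀ x, x < C.k → g x * g x = 1)
  (hrw : ∀ r, r < C.nrw → (∀ y ∈ slotWord (C.rw r), y < C.k) ∧ ev g (slotWord (C.rw r)) = 1)
  (hsub : ∀ s ∈ C.subs, (∀ y ∈ s, y < C.k) ∧ ev g s ∈ H)

include hchk hinv hrw hsub in
/-- edges that are not reversed edges are correct, if all edges with smaller time stamps are -/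
theorem rel_primary (i x : ℕ) (hi : i < C.n) (hx : x < C.k) (hty : C.ty i x ≠ 1)
    (hIH : ∀ c y, c < C.n → y < C.k → C.ts c y < C.ts i x → Rel C g H c y) :
    Rel C g H i x := by
  obtain ⟨hq, h⟩ := edgeOK_spec C i x (edge_prop C hchk i x hi hx)
  refine ⟨hq, ?_⟩
  rcases h with ⟨_, h1, h2, h3⟩ | ⟨h1, _⟩ | ⟨_, h1, h2, h3⟩ | ⟨_, h⟩
  · -- tree edge
    have := trep_eq C g hchk (C.nx i x) hq (by omega)
    rw [h1, h2] at this
    rw [this, mul_inv_cancel]
    exact H.one_mem
  · exact absurd h1 hty
  · -- relator scan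
    obtain ⟨hl, hev⟩ := hrw (C.arg i x) h1
    unfold slotWord at hl hev
    rw [h2] at hl hev
    obtain ⟨_, h4⟩ := walkL_spec C g H (C.ts i x) hIH _ (C.nx i x) i
      (fun y hy => hl y (List.mem_cons_of_mem _ hy)) hq h3
    rw [ev_cons] at hev
    have h5 := H.inv_mem h4
    convert h5 using 1
    rw [eq_inv_of_mul_eq_one_right hev]
    group
  · -- subgroup generator scan
    unfold subOK at h
    set s := C.subs.getD (C.arg i x &&& 63) [] with hs
    cases hd : s.drop (C.arg i x >>> 6) with
    | nil => rw [hd] at h; exact absurd h (by simp)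
    | cons y post =>
      rw [hd] at h
      simp only [Bool.and_eq_true, Nat.beq_eq] at h
      obtain ⟨⟨hy, hpre⟩, hpost⟩ := h
      subst hy
      have hsmem : s ∈ C.subs := by
        by_cases hlt : C.arg i y &&& 63 < C.subs.length
        · rw [hs, List.getD_eq_getElem _ _ hlt]
          exact List.getElem_mem _
        · rw [hs, List.getD_eq_default _ _ (by omega)] at hd
          simp at hd
      obtain ⟨hl, hev⟩ := hsub s hsmem
      have hsplit : s = s.take (C.arg i y >>> 6) ++ y :: post := by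
        rw [← hd, List.take_append_drop]
      have hl1 : ∀ z ∈ s.take (C.arg i y >>> 6), z < C.k := fun z hz =>
        hl z (List.mem_of_mem_take hz)
      have hl2 : ∀ z ∈ post, z < C.k := fun z hz => hl z (by
        rw [hsplit]; exact List.mem_append_right _ (List.mem_cons_of_mem _ hz))
      have h0n : 0 < C.n := by omega
      cases hw1 : walkL C (C.ts i y) (s.take (C.arg i y >>> 6)) 0 with
      | none => rw [hw1] at hpre; exact absurd hpre (by simp)
      | some e1 =>
        rw [hw1] at hpre
        simp only [Nat.beq_eq] at hpre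
        subst hpre
        cases hw2 : walkL C (C.ts e1 y) post (C.nx e1 y) with
        | none => rw [hw2] at hpost; exact absurd hpost (by simp)
        | some e2 =>
          rw [hw2] at hpost
          simp only [Nat.beq_eq] at hpost
          subst hpost
          obtain ⟨_, ha⟩ := walkL_spec C g H (C.ts e1 y) hIH _ 0 e1 hl1 h0n hw1
          obtain ⟨_, hb⟩ := walkL_spec C g H (C.ts e1 y) hIH _ (C.nx e1 y) 0 hl2 hq hw2
          rw [trep_zero] at ha hb
          rw [hsplit, ev_append, ev_cons] at hev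
          have := H.mul_mem (H.mul_mem (H.inv_mem ha) hev) (H.inv_mem hb)
          convert this using 1
          group

include hchk hinv hrw hsub in
theorem rel_lt : ∀ m i x, i < C.n → x < C.k → C.ts i x < m → Rel C g H i x := by
  intro m
  induction m with
  | zero => intro i x _ _ h; omega
  | succ m ih =>
    intro i x hi hx hts
    have hprim : ∀ i x, i < C.n → x < C.k → C.ts i x ≤ m → C.ty i x ≠ 1 → Rel C g H i x := by
      intro i x hi hx hts hty
      exact rel_primary C g H hchk hinv hrw hsub i x hi hx hty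
        (fun c y hc hy h => ih c y hc hy (by omega))
    by_cases hty : C.ty i x = 1
    · obtain ⟨hq, h⟩ := edgeOK_spec C i x (edge_prop C hchk i x hi hx)
      rcases h with ⟨h1, _⟩ | ⟨_, h1, h2, h3⟩ | ⟨h1, _⟩ | ⟨h1, _⟩
      · omega
      · obtain ⟨_, h4⟩ := hprim (C.nx i x) x hq hx (by omega) h2
        refine ⟨hq, ?_⟩
        rw [h1] at h4
        have h5 := H.inv_mem h4
        convert h5 using 1
        have h6 : (g x)⁻¹ = g x := inv_eq_of_mul_eq_one_right (hinv x hx)
        rw [mul_inv_rev, mul_inv_rev, inv_inv, h6, mul_assoc]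
      · omega
      · exact absurd hty h1
    · exact hprim i x hi hx (by omega) hty

include hchk hinv hrw hsub in
/-- **Soundness**: every edge of the table is correct. -/
theorem rel_all (i x : ℕ) (hi : i < C.n) (hx : x < C.k) : Rel C g H i x :=
  rel_lt C g H hchk hinv hrw hsub (C.ts i x + 1) i x hi hx (Nat.lt_succ_self _)

/-- the path of a word in the table -/
def run : List ℕ → ℕ → ℕ
  | [], c => c
  | x :: l, c => run l (C.nx c x)

include hchk hinv hrw hsub in
theorem run_spec : ∀ (l : List ℕ) (c : ℕ), (∀ y ∈ l, y < C.k) → c < C.n →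
    run C l c < C.n ∧ trep C g c * ev g l * (trep C g (run C l c))⁻¹ ∈ H := by
  intro l
  induction l with
  | nil =>
    intro c _ hc
    refine ⟨hc, ?_⟩
    rw [run, ev_nil, mul_one, mul_inv_cancel]
    exact H.one_mem
  | cons y l ih =>
    intro c hl hc
    obtain ⟨h1, h2⟩ := rel_all C g H hchk hinv hrw hsub c y hc (hl y List.mem_cons_self)
    obtain ⟨h3, h4⟩ := ih (C.nx c y) (fun z hz => hl z (List.mem_cons_of_mem _ hz)) h1
    refine ⟨h3, ?_⟩
    have := H.mul_mem h2 h4
    rw [ev_cons, run]
    convert this using 1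
    group

include hchk hinv hrw hsub in
/-- a word whose path from the coset `0` returns to `0` spells an element of the subgroup -/
theorem run_mem (hn : 0 < C.n) (l : List ℕ) (hl : ∀ y ∈ l, y < C.k) (h : run C l 0 = 0) :
    ev g l ∈ H := by
  obtain ⟨_, h2⟩ := run_spec C g H hchk hinv hrw hsub l 0 hl hn
  rw [h, trep_zero, one_mul, inv_one, mul_one] at h2
  exact h2

include hchk hinv hrw hsub in
/-- every element of the group generated by the `g x` lies in one of the cosets `H t_i` -/
theorem mem_cosets (hn : 0 < C.n) (a : G) (ha : a ∈ Subgroup.closure (g '' {x | x < C.k})) :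
    ∃ i, i < C.n ∧ a * (trep C g i)⁻¹ ∈ H := by
  have key : ∀ a ∈ Subgroup.closure (g '' {x | x < C.k}), ∀ b i, i < C.n →
      b * (trep C g i)⁻¹ ∈ H → ∃ j, j < C.n ∧ b * a * (trep C g j)⁻¹ ∈ H := by
    intro a ha
    induction ha using Subgroup.closure_induction'' with
    | mem y hy =>
      obtain ⟨x, hx, rfl⟩ := hy
      intro b i hi hb
      obtain ⟨h1, h2⟩ := rel_all C g H hchk hinv hrw hsub i x hi hx
      refine ⟨_, h1, ?_⟩
      have := H.mul_mem hb h2
      convert this using 1
      group
    | inv_mem y hy =>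
      obtain ⟨x, hx, rfl⟩ := hy
      intro b i hi hb
      obtain ⟨h1, h2⟩ := rel_all C g H hchk hinv hrw hsub i x hi hx
      refine ⟨_, h1, ?_⟩
      have h6 : (g x)⁻¹ = g x := inv_eq_of_mul_eq_one_right (hinv x hx)
      have := H.mul_mem hb h2
      rw [h6]
      convert this using 1
      group
    | one =>
      intro b i hi hb
      exact ⟨i, hi, by rwa [mul_one]⟩
    | mul y z _ _ ihy ihz =>
      intro b i hi hb
      obtain ⟨j, hj, h1⟩ := ihy b i hi hb
      obtain ⟨j', hj', h2⟩ := ihz (b * y) j hj h1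
      exact ⟨j', hj', by rwa [← mul_assoc]⟩
  obtain ⟨j, hj, h⟩ := key a ha 1 0 hn (by rw [trep_zero, inv_one, mul_one]; exact H.one_mem)
  exact ⟨j, hj, by rwa [one_mul] at h⟩

include hchk hinv hrw hsub in
/-- the subgroup has index at most `n`, if the `g x` generate the group -/
theorem index_le (hn : 0 < C.n) (hgen : Subgroup.closure (g '' {x | x < C.k}) = ⊤) :
    H.index ≠ 0 ∧ H.index ≤ C.n := by
  have hsurj : Function.Surjective (fun i : Fin C.n => (QuotientGroup.mk (trep C g i)⁻¹ : G ⧸ H)) := by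
    intro q
    induction q using QuotientGroup.induction_on with
    | H a =>
      obtain ⟨i, hi, h⟩ := mem_cosets C g H hchk hinv hrw hsub hn a⁻¹ (by rw [hgen]; trivial)
      refine ⟨⟨i, hi⟩, ?_⟩
      change (QuotientGroup.mk (trep C g i)⁻¹ : G ⧸ H) = QuotientGroup.mk a
      rw [QuotientGroup.eq]
      have := H.inv_mem h
      convert this using 1
      group
  have hfin : Finite (G ⧸ H) := Finite.of_surjective _ hsurj
  have hle : Nat.card (G ⧸ H) ≤ Nat.card (Fin C.n) := Nat.card_le_card_of_surjective _ hsurj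
  rw [Nat.card_fin] at hle
  refine ⟨?_, hle⟩
  have : 0 < Nat.card (G ⧸ H) := Nat.card_pos
  exact Nat.pos_iff_ne_zero.1 this

include hchk hinv hrw hsub in
/-- the order of the group is at most `n * c` if the subgroup lies in a finite subgroup with at
most `c` elements -/
theorem card_le (hn : 0 < C.n) (hgen : Subgroup.closure (g '' {x | x < C.k}) = ⊤)
    (K : Subgroup G) [Finite K] (c : ℕ) (hc : Nat.card K ≤ c) (hHK : H ≤ K) :
    Finite G ∧ Nat.card G ≤ C.n * c := by
  obtain ⟨h0, hle⟩ := index_le C g H hchk hinv hrw hsub hn hgen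
  have hdvd : K.index ∣ H.index := Subgroup.index_dvd_of_le hHK
  have hK0 : K.index ≠ 0 := fun h => h0 (by rw [h] at hdvd; exact Nat.eq_zero_of_zero_dvd hdvd)
  have hKle : K.index ≤ C.n := (Nat.le_of_dvd (Nat.pos_of_ne_zero h0) hdvd).trans hle
  have hcard : Nat.card K * K.index = Nat.card G := Subgroup.card_mul_index K
  have hKpos : 0 < Nat.card K := Nat.card_pos
  have hG0 : Nat.card G ≠ 0 := by
    rw [← hcard]
    exact Nat.mul_ne_zero (Nat.pos_iff_ne_zero.1 hKpos) hK0
  refine ⟨Nat.finite_of_card_ne_zero hG0, ?_⟩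
  rw [← hcard, Nat.mul_comm]
  exact Nat.mul_le_mul hKle hc

include hchk hinv hrw hsub in
/-- the subgroup generated by the `g x` has at most `n * c` elements, if `H` lies in a finite
subgroup with at most `c` elements (no assumption that the `g x` generate the group) -/
theorem card_closure_le (hn : 0 < C.n) (K : Subgroup G) [Finite K] (c : ℕ)
    (hc : Nat.card K ≤ c) (hHK : H ≤ K) :
    Finite (Subgroup.closure (g '' {x | x < C.k})) ∧
      Nat.card (Subgroup.closure (g '' {x | x < C.k})) ≤ C.n * c := by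
  have key : ∀ a : Subgroup.closure (g '' {x | x < C.k}),
      ∃ i : Fin C.n, (a : G) * (trep C g i)⁻¹ ∈ K := by
    intro a
    obtain ⟨i, hi, h⟩ := mem_cosets C g H hchk hinv hrw hsub hn a.1 a.2
    exact ⟨⟨i, hi⟩, hHK h⟩
  let f : Subgroup.closure (g '' {x | x < C.k}) → Fin C.n × K := fun a =>
    (Classical.choose (key a), ⟨_, Classical.choose_spec (key a)⟩)
  have hf : Function.Injective f := by
    intro a b hab
    have h1 : Classical.choose (key a) = Classical.choose (key b) := congrArg Prod.fst hab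
    have h2 : (a : G) * (trep C g ((Classical.choose (key a) : Fin C.n) : ℕ))⁻¹ =
        (b : G) * (trep C g ((Classical.choose (key b) : Fin C.n) : ℕ))⁻¹ :=
      congrArg (fun p : Fin C.n × K => (p.2 : G)) hab
    rw [h1] at h2
    exact Subtype.ext (mul_right_cancel h2)
  have hfin : Finite (Subgroup.closure (g '' {x | x < C.k})) := Finite.of_injective f hf
  refine ⟨hfin, ?_⟩
  have h3 := Nat.card_le_card_of_injective f hf
  rw [Nat.card_prod, Nat.card_fin] at h3
  exact h3.trans (Nat.mul_le_mul_left _ hc)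

end Sound

/-! ### rotated relators -/

/-- the rotations of a word -/
def rots (w : List ℕ) : List (List ℕ) :=
  (List.range w.length).map fun m => w.drop m ++ w.take m

theorem ev_rots {G : Type*} [Group G] (g : ℕ → G) (w : List ℕ) (h : ev g w = 1) :
    ∀ w' ∈ rots w, ev g w' = 1 := by
  intro w' hw'
  obtain ⟨m, -, rfl⟩ := List.mem_map.1 hw'
  have h1 : ev g (w.take m) * ev g (w.drop m) = 1 := by
    rw [← ev_append, List.take_append_drop]
    exact h
  rw [ev_append, eq_inv_of_mul_eq_one_left h1, mul_inv_cancel]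

/-- the packed rotated relators are rotations of the words of the list `R`, with letters
below `k` -/
def slotsOK (C : Ctx) (R : List (List ℕ)) : Bool :=
  (List.range C.nrw).all fun r =>
    (slotWord (C.rw r)).all (fun y => decide (y < C.k)) &&
      decide (slotWord (C.rw r) ∈ R.flatMap rots)

theorem slotsOK_spec {G : Type*} [Group G] (g : ℕ → G) (C : Ctx) (R : List (List ℕ))
    (h : slotsOK C R = true) (hR : ∀ w ∈ R, ev g w = 1) :
    ∀ r, r < C.nrw → (∀ y ∈ slotWord (C.rw r), y < C.k) ∧ ev g (slotWord (C.rw r)) = 1 := by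
  intro r hr
  unfold slotsOK at h
  rw [List.all_eq_true] at h
  have h1 := h r (List.mem_range.2 hr)
  rw [Bool.and_eq_true, List.all_eq_true, decide_eq_true_eq] at h1
  refine ⟨fun y hy => of_decide_eq_true (h1.1 y hy), ?_⟩
  obtain ⟨w, hw, hw'⟩ := List.mem_flatMap.1 h1.2
  exact ev_rots g w (hR w hw) _ hw'

/-- the cosets `lo, …, lo + a + b - 1` from two ranges -/
theorem rangeOK_all (C : Ctx) (m : ℕ) (nb : ℕ) (last : ℕ)
    (hb : ∀ j, j < nb → rangeOK C (m * j) m = true)
    (hl : rangeOK C (m * nb) last = true) (hm : 0 < m) :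
    ∀ i, i < m * nb + last → cosetOK C i = true := by
  intro i hi
  rcases Nat.lt_or_ge i (m * nb) with h | h
  · have h1 : i / m < nb := Nat.div_lt_of_lt_mul h
    have h2 : m * (i / m) ≤ i := Nat.mul_div_le i m
    have h3 : i < m * (i / m) + m := Nat.lt_mul_div_succ i hm
    exact rangeOK_spec C (m * (i / m)) m (hb (i / m) h1) i h2 h3
  · exact rangeOK_spec C (m * nb) last hl i h hi

end Cfsg.Agent.Lib.Helper86.CosetCert
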