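import Mathlib
import Cfsg.Agent.Lib.Helper74.DixStmt
import Cfsg.Agent.Lib.CT.Ops

/-!
S4472 piece EXTSUB: EXT for a subgroup `T` of `L` containing the normal subgroup `K`
(transport of EXT to the group `↥T`).
-/

set_option autoImplicit false

namespace Cfsg.Agent.Lib.Helper86.DixEXTSUB

open Cfsg Cfsg.Agent.Lib.Helper74.DixStmt

universe u

theorem main (hE : ExtProp.{u}) : ExtSub.{u} := by
  intro L _ _ p _ K hK hcop hidx T hKT θ hθ hinv
  have hKn : (K.subgroupOf T).Normal := Subgroup.normal_subgroupOf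
  have hcard : Nat.card (K.subgroupOf T) = Nat.card K :=
    Nat.card_congr (Subgroup.subgroupOfEquivOfLe hKT).toEquiv
  have hidx' : ∃ m : ℕ, (K.subgroupOf T).index = p ^ m := by
    obtain ⟨m, hm⟩ := hidx
    have hdvd : (K.subgroupOf T).index ∣ p ^ m := by
      rw [← hm]
      exact Subgroup.relIndex_dvd_index_of_normal K T
    obtain ⟨j, -, hj⟩ := (Nat.dvd_prime_pow (Fact.out : p.Prime)).mp hdvd
    exact ⟨j, hj⟩
  have hθ' : IsIrrCharacter (K.subgroupOf T)
      (fun k => θ (Subgroup.subgroupOfEquivOfLe hKT k)) :=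
    Cfsg.Agent.Lib.CT.Ops.isIrrCharacter_comp_mulEquiv (Subgroup.subgroupOfEquivOfLe hKT) hθ
  have hinv' : ∀ (g : T) (k : K.subgroupOf T),
      (fun k => θ (Subgroup.subgroupOfEquivOfLe hKT k))
        ⟨g * k * g⁻¹, hKn.conj_mem k k.2 g⟩ =
      (fun k => θ (Subgroup.subgroupOfEquivOfLe hKT k)) k := by
    intro g k
    exact hinv g g.2 (Subgroup.subgroupOfEquivOfLe hKT k)
  obtain ⟨ψ, hψ, hψK, hψc⟩ := hE (T := T) p (K.subgroupOf T) (by rw [hcard]; exact hcop) hidx'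
    (fun k => θ (Subgroup.subgroupOfEquivOfLe hKT k)) hθ' hinv'
  refine ⟨ψ, hψ, fun k => ?_, fun t => ?_⟩
  · have := hψK ⟨⟨k, hKT k.2⟩, Subgroup.mem_subgroupOf.mpr k.2⟩
    exact this
  · have := hψc t
    rwa [hcard] at this

end Cfsg.Agent.Lib.Helper86.DixEXTSUB
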