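import Mathlib
import Cfsg.Agent.Lib.Helper74.DixStmt
import Cfsg.Agent.Lib.CT.Ops

/-!
S4472 piece STAB: a character of `L` with values in `ℚ(ζ_{|K|})` whose restriction to `K` is
the sum of a given `L`-stable finite set of irreducible characters of `K`.
-/

set_option autoImplicit false

namespace Cfsg.Agent.Lib.Helper86.DixSTAB

open Cfsg Cfsg.Agent.Lib.Helper74.DixStmt

universe u

theorem main (hO : OrbProp.{u}) : StabProp.{u} := by
  classical
  intro L _ _ p _ K hK hcop hidx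
  suffices H : ∀ n : ℕ, ∀ C : Finset (K → ℂ), C.card = n → (∀ φ ∈ C, IsIrrCharacter K φ) →
      (∀ φ ∈ C, ∀ g : L, (fun k : K => φ ⟨g * k * g⁻¹, hK.conj_mem k k.2 g⟩) ∈ C) →
      ∃ Ψ : L → ℂ, IsCharacter L Ψ ∧ (∀ g, Ψ g ∈ Cyc (Nat.card K)) ∧
        ∀ k : K, Ψ k = ∑ φ ∈ C, φ k by
    intro C hC hst
    exact H C.card C rfl hC hst
  intro n
  induction n using Nat.strong_induction_on with
  | _ n ih =>
    intro C hn hC hst
    by_cases hCe : C = ∅
    · subst hCe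
      refine ⟨0, Cfsg.Agent.Lib.CT.Ops.isCharacter_zero, fun g => ?_, fun k => ?_⟩
      · show (0 : ℂ) ∈ Cyc (Nat.card K)
        exact zero_mem _
      · simp
    · obtain ⟨φ, hφ⟩ := Finset.nonempty_iff_ne_empty.mpr hCe
      obtain ⟨Ψs, hΨs, hΨsc, s, hs, hΨsK⟩ := hO p K hcop hidx φ (hC φ hφ)
      have hsC : s ⊆ C := by
        intro φ' hφ'
        obtain ⟨g, rfl⟩ := (hs φ').mp hφ'
        exact hst φ hφ g
      have hφs : φ ∈ s := by
        refine (hs φ).mpr ⟨1, ?_⟩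
        funext k
        congr 1
        ext
        simp
      have hcard : (C \ s).card < n := by
        rw [← hn]
        exact Finset.card_lt_card (Finset.sdiff_ssubset hsC ⟨φ, hφs⟩)
      have hst' : ∀ φ' ∈ C \ s, ∀ g : L,
          (fun k : K => φ' ⟨g * k * g⁻¹, hK.conj_mem k k.2 g⟩) ∈ C \ s := by
        intro φ' hφ' g
        rw [Finset.mem_sdiff] at hφ' ⊢
        refine ⟨hst φ' hφ'.1 g, fun hmem => hφ'.2 ?_⟩
        obtain ⟨h, hh⟩ := (hs _).mp hmem
        refine (hs φ').mpr ⟨h * g⁻¹, ?_⟩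
        funext k
        have hk' : g⁻¹ * (k : L) * g ∈ K := by simpa using hK.conj_mem k k.2 g⁻¹
        have h1 := congrFun hh ⟨g⁻¹ * k * g, hk'⟩
        have e1 : φ' k = φ' ⟨g * (g⁻¹ * (k : L) * g) * g⁻¹, hK.conj_mem _ hk' g⟩ := by
          congr 1
          ext
          simp [mul_assoc]
        have e2 : φ ⟨h * (g⁻¹ * (k : L) * g) * h⁻¹, hK.conj_mem _ hk' h⟩ =
            φ ⟨h * g⁻¹ * k * (h * g⁻¹)⁻¹, hK.conj_mem k k.2 (h * g⁻¹)⟩ := by
          congr 1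
          ext
          simp [mul_assoc]
        exact (e1.trans h1).trans e2
      obtain ⟨Ψ', hΨ', hΨ'c, hΨ'K⟩ := ih _ hcard (C \ s) rfl
        (fun φ' hφ' => hC φ' (Finset.mem_sdiff.mp hφ').1) hst'
      refine ⟨Ψ' + Ψs, Cfsg.Agent.Lib.CT.Ops.isCharacter_add hΨ' hΨs,
        fun g => add_mem (hΨ'c g) (hΨsc g), fun k => ?_⟩
      rw [Pi.add_apply, hΨ'K k, hΨsK k, Finset.sum_sdiff hsC]

end Cfsg.Agent.Lib.Helper86.DixSTAB
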