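import Mathlib
import Cfsg.Agent.Lib.Helper96.HallAltStmt

/-!
# S2538 piece AIDX (helper86)
-/

set_option autoImplicit false

namespace Cfsg.Agent.Lib.Helper86.HAAIDX

open Equiv Cfsg.Agent.Lib.Helper96.HallSymStmt Cfsg.Agent.Lib.Helper96.HallAltStmt

theorem main : Cfsg.Agent.Lib.Helper96.HallAltStmt.AIDX := by
  intro Ω _ _
  constructor
  · intro h
    have : Nontrivial Ω := Fintype.one_lt_card_iff_nontrivial.mp (by omega)
    exact alternatingGroup.index_eq_two
  · intro h
    have : Subsingleton Ω := Fintype.card_le_one_iff_subsingleton.mp (by omega)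
    rw [Subgroup.index_eq_one]
    exact Subsingleton.elim _ _

end Cfsg.Agent.Lib.Helper86.HAAIDX
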