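import Mathlib
import Cfsg.Agent.Lib.Helper96.HallAltStmt

/-!
# S2538 piece HODD (helper86)
-/

set_option autoImplicit false

namespace Cfsg.Agent.Lib.Helper86.HAHODD

open Equiv Cfsg.Agent.Lib.Helper96.HallSymStmt Cfsg.Agent.Lib.Helper96.HallAltStmt

theorem main : Cfsg.Agent.Lib.Helper96.HallAltStmt.HODD := by
  intro Ω _ _ hcard π M h2 hM
  obtain ⟨hle, -, hidx⟩ := hM
  have : Nontrivial Ω := Fintype.one_lt_card_iff_nontrivial.mp (by omega)
  refine ⟨M.relIndex (alternatingGroup Ω), ?_, ?_⟩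
  · rw [← Nat.not_even_iff_odd]
    intro he
    exact hidx 2 Nat.prime_two h2 he.two_dvd
  · have h1 : Nat.card ↥M * M.relIndex (alternatingGroup Ω) = Nat.card (alternatingGroup Ω) := by
      have h3 := Subgroup.card_mul_index (M.subgroupOf (alternatingGroup Ω))
      rw [Nat.card_congr (Subgroup.subgroupOfEquivOfLe hle).toEquiv] at h3
      exact h3
    rw [h1, two_mul_nat_card_alternatingGroup, Nat.card_eq_fintype_card, Fintype.card_perm]

end Cfsg.Agent.Lib.Helper86.HAHODD
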