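import Mathlib
import Cfsg.Agent.Lib.Helper96.HallAltStmt

/-!
# S2538 piece INV2 (helper86)
-/

set_option autoImplicit false

namespace Cfsg.Agent.Lib.Helper86.HAINV2

open Equiv Cfsg.Agent.Lib.Helper96.HallSymStmt Cfsg.Agent.Lib.Helper96.HallAltStmt

theorem main : Cfsg.Agent.Lib.Helper96.HallAltStmt.INV2 := by
  intro G _ c w p hp hc hw ⟨k, hk⟩
  have : Fact p.Prime := ⟨hp⟩
  have hd : w * (w * c * w⁻¹) * w⁻¹ = c := by
    calc w * (w * c * w⁻¹) * w⁻¹ = (w * w) * c * (w * w)⁻¹ := by group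
      _ = c := by rw [hw]; simp
  have h1 : c ^ (k * k) = c := by
    calc c ^ (k * k) = (c ^ k) ^ k := pow_mul c k k
      _ = (w * c * w⁻¹) ^ k := by rw [hk]
      _ = w * c ^ k * w⁻¹ := conj_pow
      _ = w * (w * c * w⁻¹) * w⁻¹ := by rw [hk]
      _ = c := hd
  have h2 : k * k ≡ 1 [MOD p] := by
    rw [← hc]
    exact pow_eq_pow_iff_modEq.mp (by rw [h1, pow_one])
  have h3 : ((k : ZMod p)) ^ 2 = 1 := by
    have h4 := (ZMod.natCast_eq_natCast_iff (k * k) 1 p).mpr h2
    push_cast at h4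
    rw [sq]
    exact h4
  rcases sq_eq_one_iff.mp h3 with h | h
  · left
    rw [hk]
    have h5 : k ≡ 1 [MOD p] := by
      apply (ZMod.natCast_eq_natCast_iff k 1 p).mp
      push_cast
      exact h
    have h6 : c ^ k = c ^ 1 := by
      apply pow_eq_pow_iff_modEq.mpr
      rw [hc]
      exact h5
    rw [h6, pow_one]
  · right
    rw [hk]
    have h5 : ((k + 1 : ℕ) : ZMod p) = 0 := by
      push_cast
      rw [h]
      ring
    have h6 : p ∣ k + 1 := (ZMod.natCast_eq_zero_iff _ _).mp h5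
    have h7 : c ^ (k + 1) = 1 := by
      apply orderOf_dvd_iff_pow_eq_one.mp
      rw [hc]
      exact h6
    rw [pow_succ] at h7
    exact eq_inv_of_mul_eq_one_left h7

end Cfsg.Agent.Lib.Helper86.HAINV2
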