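import Mathlib
import Cfsg.Agent.Lib.Helper96.HallAltStmt

/-!
# S2538 piece MULTI (helper86)
-/

set_option autoImplicit false

namespace Cfsg.Agent.Lib.Helper86.HAMULTI

open Equiv Cfsg.Agent.Lib.Helper96.HallSymStmt Cfsg.Agent.Lib.Helper96.HallAltStmt

theorem main : Cfsg.Agent.Lib.Helper96.HallAltStmt.MULTI := by
  intro Ω _ ι _ f
  classical
  have hn : ∀ i : ι, (f ⁻¹' {i}).ncard = (Finset.univ.filter (fun x => f x = i)).card := by
    intro i
    rw [← Set.ncard_coe_finset]
    congr 1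
    ext x
    simp
  have hsum : ∑ i : ι, (f ⁻¹' {i}).ncard = Fintype.card Ω := by
    simp_rw [hn]
    rw [← Finset.card_univ (α := Ω)]
    exact (Finset.card_eq_sum_card_fiberwise (fun x _ => Finset.mem_univ (f x))).symm
  rw [← hsum]
  exact Dvd.intro _ (Nat.multinomial_spec Finset.univ (fun i => (f ⁻¹' {i}).ncard))

end Cfsg.Agent.Lib.Helper86.HAMULTI
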