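import Mathlib
import Cfsg.Agent.Lib.Helper96.HallAltStmt

/-!
# S2538 piece NPI (helper86)
-/

set_option autoImplicit false

namespace Cfsg.Agent.Lib.Helper86.HANPI

open Equiv Cfsg.Agent.Lib.Helper96.HallSymStmt Cfsg.Agent.Lib.Helper96.HallAltStmt

theorem main : Cfsg.Agent.Lib.Helper96.HallAltStmt.NPI := by
  intro G _ _ π L M hnorm hL hM p hp hdvd
  have hLE : M ≤ Subgroup.normalizer (L : Set G) := by
    intro m hm
    rw [Subgroup.mem_normalizer_iff]
    intro l
    constructor
    · exact hnorm m hm l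
    · intro h
      have h1 := hnorm m⁻¹ (M.inv_mem hm) _ h
      simpa [mul_assoc] using h1
  have := Subgroup.normal_subgroupOf_of_le_normalizer hLE
  have := Subgroup.normal_subgroupOf_sup_of_le_normalizer hLE
  have e := QuotientGroup.quotientInfEquivProdNormalizerQuotient M L hLE
  have h1 : Nat.card (M ⊔ L : Subgroup G) = Nat.card (L.subgroupOf (M ⊔ L)) *
      Nat.card ((M ⊔ L : Subgroup G) ⧸ L.subgroupOf (M ⊔ L)) := by
    rw [mul_comm]
    exact Subgroup.card_eq_card_quotient_mul_card_subgroup _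
  have h2 : Nat.card (L.subgroupOf (M ⊔ L)) = Nat.card L :=
    Nat.card_congr (Subgroup.subgroupOfEquivOfLe le_sup_right).toEquiv
  have h3 : Nat.card ((M ⊔ L : Subgroup G) ⧸ L.subgroupOf (M ⊔ L)) ∣ Nat.card M := by
    rw [← Nat.card_congr e.toEquiv]
    exact Subgroup.card_quotient_dvd_card _
  have h4 : Nat.card (L ⊔ M : Subgroup G) ∣ Nat.card L * Nat.card M := by
    rw [sup_comm, h1, h2]
    exact mul_dvd_mul_left _ h3
  rcases (Nat.Prime.dvd_mul hp).mp (hdvd.trans h4) with h | h
  · exact hL p hp h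
  · exact hM p hp h

end Cfsg.Agent.Lib.Helper86.HANPI
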