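import Mathlib
import Cfsg.Agent.Lib.Helper96.HallAltStmt

/-!
# S2538 piece PD3 (helper86)
-/

set_option autoImplicit false

namespace Cfsg.Agent.Lib.Helper86.HAPD3

open Equiv Cfsg.Agent.Lib.Helper96.HallSymStmt Cfsg.Agent.Lib.Helper96.HallAltStmt

theorem main : Cfsg.Agent.Lib.Helper96.HallAltStmt.PD3 := by
  intro Ω _ _ N htrans hpos hab
  obtain ⟨x0⟩ : Nonempty Ω := Fintype.card_pos_iff.mp hpos
  have hbij : Function.Bijective (fun n : N => (n : Perm Ω) x0) := by
    constructor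
    · intro n n' h
      apply Subtype.ext
      ext y
      obtain ⟨g, hg, rfl⟩ := htrans x0 y
      have e1 : (n : Perm Ω) (g x0) = g ((n : Perm Ω) x0) := by
        rw [← Perm.mul_apply, ← Perm.mul_apply, hab _ n.2 _ hg]
      have e2 : (n' : Perm Ω) (g x0) = g ((n' : Perm Ω) x0) := by
        rw [← Perm.mul_apply, ← Perm.mul_apply, hab _ n'.2 _ hg]
      rw [e1, e2]
      exact congrArg g h
    · intro y
      obtain ⟨g, hg, rfl⟩ := htrans x0 y
      exact ⟨⟨g, hg⟩, rfl⟩
  rw [Nat.card_congr (Equiv.ofBijective _ hbij), Nat.card_eq_fintype_card]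

end Cfsg.Agent.Lib.Helper86.HAPD3
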