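import Mathlib
import Cfsg.Agent.Lib.Helper96.HallAltStmt

/-!
# S2538 piece PQ (helper86)
-/

set_option autoImplicit false

namespace Cfsg.Agent.Lib.Helper86.HAPQ

open Equiv Cfsg.Agent.Lib.Helper96.HallSymStmt Cfsg.Agent.Lib.Helper96.HallAltStmt

theorem main : Cfsg.Agent.Lib.Helper96.HallAltStmt.PQ := by
  intro m p hm hp h
  obtain ⟨a, m', hodd, rfl⟩ := Nat.exists_eq_two_pow_mul_odd hm.ne'
  have hm' : m' ≠ 0 := by
    rintro rfl
    simp at hm
  have h1 := Nat.eq_prime_pow_of_unique_prime_dvd hm' (p := p) (fun {d} hd hdvd => by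
    rcases h d hd (Dvd.dvd.mul_left hdvd _) with h2 | hp'
    · subst h2
      exact absurd (even_iff_two_dvd.mpr hdvd) (Nat.not_even_iff_odd.mpr hodd)
    · exact hp')
  exact ⟨a, _, by rw [← h1]⟩

end Cfsg.Agent.Lib.Helper86.HAPQ
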