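import Mathlib
import Cfsg.Agent.Lib.Helper40.HPStmt

/-!
# S5974 / HYPFIBJ (helper86, call by helper40)

Port of `Helper91.HypHYPFIB` to the plus form, for ALL `q` (no division by 2): the number of
hyperbolic `2h`-spaces of the plus form divides the number of ordered hyperbolic systems of `h`
pairs: the map `(e, f) ↦ span (e, f)` is onto the hyperbolic `2h`-spaces and all its fibres
have the same size.
-/

set_option autoImplicit false

universe u

open scoped Matrix

namespace Cfsg.Agent.Lib.Helper86.HPHYPFIBJ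

open Cfsg.Agent.Lib.Helper40.HPStmt
open Cfsg.Agent.Lib.Helper94.OPStmt (P)

section gen

variable {F : Type*} [Field F] {V : Type*} [AddCommGroup V] [Module F V]
variable (B : LinearMap.BilinForm F V)

/-- hyperbolic system relations for a bilinear form -/
structure Sys {h : ℕ} (e f : Fin h → V) : Prop where
  ee : ∀ a b, B (e a) (e b) = 0
  ff : ∀ a b, B (f a) (f b) = 0
  ef : ∀ a b, B (e a) (f b) = if a = b then 1 else 0
  fe : ∀ a b, B (f a) (e b) = if a = b then 1 else 0

/-- the transport map from the system `(e, f)` to the system `(e', f')` -/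
def T {h : ℕ} (e f e' f' : Fin h → V) : V →ₗ[F] V :=
  ∑ b, ((B.flip (f b)).smulRight (e' b) + (B.flip (e b)).smulRight (f' b))

variable {B} {h : ℕ} {e f e' f' : Fin h → V}

theorem T_apply (e f e' f' : Fin h → V) (v : V) :
    T B e f e' f' v = ∑ b, (B v (f b) • e' b + B v (e b) • f' b) := by
  simp [T, LinearMap.sum_apply]

theorem B_T_f (S' : Sys B e' f') (v : V) (a : Fin h) :
    B (T B e f e' f' v) (f' a) = B v (f a) := by
  rw [T_apply, map_sum, LinearMap.sum_apply]
  simp [S'.ef, S'.ff]

theorem B_T_e (S' : Sys B e' f') (v : V) (a : Fin h) :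
    B (T B e f e' f' v) (e' a) = B v (e a) := by
  rw [T_apply, map_sum, LinearMap.sum_apply]
  simp [S'.ee, S'.fe]

theorem B_f_T (S' : Sys B e' f') (v : V) (a : Fin h) :
    B (f' a) (T B e f e' f' v) = B v (f a) := by
  rw [T_apply, map_sum]
  simp [S'.fe, S'.ff]

theorem B_e_T (S' : Sys B e' f') (v : V) (a : Fin h) :
    B (e' a) (T B e f e' f' v) = B v (e a) := by
  rw [T_apply, map_sum]
  simp [S'.ee, S'.ef]

theorem B_T_T (S' : Sys B e' f') (u v : V) :
    B (T B e f e' f' u) (T B e f e' f' v) =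
      ∑ b, (B u (f b) * B v (e b) + B u (e b) * B v (f b)) := by
  rw [T_apply e f e' f' u, map_sum, LinearMap.sum_apply]
  refine Finset.sum_congr rfl fun b _ => ?_
  rw [map_add, LinearMap.add_apply, map_smul, map_smul, LinearMap.smul_apply,
    LinearMap.smul_apply, B_e_T S', B_f_T S', smul_eq_mul, smul_eq_mul]

theorem T_e (S : Sys B e f) (a : Fin h) : T B e f e' f' (e a) = e' a := by
  rw [T_apply]
  simp [S.ef, S.ee]

theorem T_f (S : Sys B e f) (a : Fin h) : T B e f e' f' (f a) = f' a := by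
  rw [T_apply]
  simp [S.ff, S.fe]

theorem T_self (S : Sys B e f) {u : V}
    (hu : u ∈ Submodule.span F (Set.range (Sum.elim e f))) : T B e f e f u = u := by
  have : Set.EqOn (T B e f e f) (LinearMap.id : V →ₗ[F] V) (Set.range (Sum.elim e f)) := by
    rintro _ ⟨a | a, rfl⟩
    · simpa using T_e S a
    · simpa using T_f S a
  simpa using LinearMap.eqOn_span this hu

theorem T_T (S' : Sys B e' f') (u : V) :
    T B e' f' e f (T B e f e' f' u) = T B e f e f u := by
  rw [T_apply e' f' e f, T_apply e f e f]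
  refine Finset.sum_congr rfl fun b _ => ?_
  rw [B_T_f S', B_T_e S']

theorem B_pres (S : Sys B e f) (S' : Sys B e' f') {u v : V}
    (hu : u ∈ Submodule.span F (Set.range (Sum.elim e f)))
    (hv : v ∈ Submodule.span F (Set.range (Sum.elim e f))) :
    B (T B e f e' f' u) (T B e f e' f' v) = B u v := by
  rw [B_T_T S']
  have := B_T_T (e := e) (f := f) S u v
  rw [T_self S hu, T_self S hv] at this
  exact this.symm

theorem map_span (S : Sys B e f) :
    (Submodule.span F (Set.range (Sum.elim e f))).map (T B e f e' f') =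
      Submodule.span F (Set.range (Sum.elim e' f')) := by
  rw [Submodule.map_span, ← Set.range_comp]
  congr 2
  funext c
  rcases c with a | a
  · simpa using T_e S a
  · simpa using T_f S a

theorem linInd (S : Sys B e f) : LinearIndependent F (Sum.elim e f) := by
  rw [Fintype.linearIndependent_iff]
  intro g hg
  rw [Fintype.sum_sum_type] at hg
  simp only [Sum.elim_inl, Sum.elim_inr] at hg
  have h1 : ∀ a, B (∑ x, g (Sum.inl x) • e x + ∑ x, g (Sum.inr x) • f x) (f a) = g (Sum.inl a) := by
    intro a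
    rw [map_add, LinearMap.add_apply, map_sum, map_sum, LinearMap.sum_apply, LinearMap.sum_apply]
    simp [S.ef, S.ff]
  have h2 : ∀ a, B (∑ x, g (Sum.inl x) • e x + ∑ x, g (Sum.inr x) • f x) (e a) = g (Sum.inr a) := by
    intro a
    rw [map_add, LinearMap.add_apply, map_sum, map_sum, LinearMap.sum_apply, LinearMap.sum_apply]
    simp [S.ee, S.fe]
  rintro (a | a)
  · rw [← h1 a, hg]; simp
  · rw [← h2 a, hg]; simp

theorem finrank_span (S : Sys B e f) :
    Module.finrank F (Submodule.span F (Set.range (Sum.elim e f))) = 2 * h := by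
  rw [finrank_span_eq_card (linInd S)]
  simp [two_mul]

theorem finrank_span_e (S : Sys B e f) :
    Module.finrank F (Submodule.span F (Set.range e)) = h := by
  have := (linInd S).comp Sum.inl Sum.inl_injective
  have h2 : Sum.elim e f ∘ Sum.inl = e := by funext a; simp
  rw [h2] at this
  rw [finrank_span_eq_card this]
  simp

theorem nondeg (S : Sys B e f) {w : V}
    (hw : w ∈ Submodule.span F (Set.range (Sum.elim e f))) (hw0 : w ≠ 0) :
    ∃ x ∈ Submodule.span F (Set.range (Sum.elim e f)), B w x ≠ 0 := by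
  by_contra hcon
  push Not at hcon
  apply hw0
  rw [← T_self S hw, T_apply]
  refine Finset.sum_eq_zero fun b _ => ?_
  rw [hcon (f b) (Submodule.subset_span ⟨Sum.inr b, rfl⟩),
    hcon (e b) (Submodule.subset_span ⟨Sum.inl b, rfl⟩)]
  simp

theorem isotropic_e (S : Sys B e f) {w : V} (hw : w ∈ Submodule.span F (Set.range e)) :
    B w w = 0 := by
  have h1 : ∀ b, B w (e b) = 0 := by
    intro b
    have : Set.EqOn (B.flip (e b)) (0 : V →ₗ[F] F) (Set.range e) := by
      rintro _ ⟨a, rfl⟩
      simpa using S.ee a b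
    simpa using LinearMap.eqOn_span this hw
  have hw' : w ∈ Submodule.span F (Set.range (Sum.elim e f)) := by
    refine Submodule.span_mono ?_ hw
    rintro _ ⟨a, rfl⟩
    exact ⟨Sum.inl a, rfl⟩
  have := B_T_T (e := e) (f := f) S w w
  rw [T_self S hw'] at this
  rw [this]
  refine Finset.sum_eq_zero fun b _ => ?_
  rw [h1 b]; simp

theorem transport (S : Sys B e f) (S' : Sys B e' f') {e1 f1 : Fin h → V} (S1 : Sys B e1 f1)
    (h1 : Submodule.span F (Set.range (Sum.elim e1 f1)) =
      Submodule.span F (Set.range (Sum.elim e f))) :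
    Sys B (T B e f e' f' ∘ e1) (T B e f e' f' ∘ f1) ∧
      Submodule.span F (Set.range (Sum.elim (T B e f e' f' ∘ e1) (T B e f e' f' ∘ f1))) =
        Submodule.span F (Set.range (Sum.elim e' f')) := by
  have he : ∀ a, e1 a ∈ Submodule.span F (Set.range (Sum.elim e f)) := fun a => by
    rw [← h1]; exact Submodule.subset_span ⟨Sum.inl a, rfl⟩
  have hf : ∀ a, f1 a ∈ Submodule.span F (Set.range (Sum.elim e f)) := fun a => by
    rw [← h1]; exact Submodule.subset_span ⟨Sum.inr a, rfl⟩
  refine ⟨⟨fun a b => ?_, fun a b => ?_, fun a b => ?_, fun a b => ?_⟩, ?_⟩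
  · simp only [Function.comp_apply]; rw [B_pres S S' (he a) (he b)]; exact S1.ee a b
  · simp only [Function.comp_apply]; rw [B_pres S S' (hf a) (hf b)]; exact S1.ff a b
  · simp only [Function.comp_apply]; rw [B_pres S S' (he a) (hf b)]; exact S1.ef a b
  · simp only [Function.comp_apply]; rw [B_pres S S' (hf a) (he b)]; exact S1.fe a b
  · rw [← Sum.comp_elim, Set.range_comp, ← Submodule.map_span, h1, map_span S]

end gen

section quad

variable {F : Type*} [Field F] {V : Type*} [AddCommGroup V] [Module F V]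
variable (Q : QuadraticForm F V) {h : ℕ} {e f e' f' : Fin h → V}

/-- value of `Q` on a combination of a singular hyperbolic system -/
theorem Q_comb (S : Sys (QuadraticMap.polarBilin Q) e f) (qe : ∀ a, Q (e a) = 0)
    (qf : ∀ a, Q (f a) = 0) (x y : Fin h → F) :
    Q (∑ b, (x b • e b + y b • f b)) = ∑ b, x b * y b := by
  classical
  suffices H : ∀ s : Finset (Fin h),
      Q (∑ b ∈ s, (x b • e b + y b • f b)) = ∑ b ∈ s, x b * y b from H Finset.univ
  intro s
  induction s using Finset.induction_on with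
  | empty => simp
  | insert a s ha ih =>
    rw [Finset.sum_insert ha, Finset.sum_insert ha,
      QuadraticMap.map_add Q (x a • e a + y a • f a) (∑ b ∈ s, (x b • e b + y b • f b)), ih]
    have h1 : Q (x a • e a + y a • f a) = x a * y a := by
      rw [QuadraticMap.map_add Q (x a • e a) (y a • f a), QuadraticMap.map_smul,
        QuadraticMap.map_smul, qe, qf]
      have h0 := S.ef a a
      rw [QuadraticMap.polarBilin_apply_apply] at h0
      rw [QuadraticMap.polar_smul_left, QuadraticMap.polar_smul_right, h0]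
      simp
    have h2 : QuadraticMap.polar Q (x a • e a + y a • f a)
        (∑ b ∈ s, (x b • e b + y b • f b)) = 0 := by
      rw [← QuadraticMap.polarBilin_apply_apply, map_sum]
      refine Finset.sum_eq_zero fun b hb => ?_
      have hab : a ≠ b := fun hh => ha (hh ▸ hb)
      simp only [map_add, map_smul, LinearMap.add_apply, LinearMap.smul_apply, S.ee, S.ff,
        S.ef, S.fe, hab, if_false]
      simp
    rw [h1, h2, add_zero]

theorem Q_span_e (S : Sys (QuadraticMap.polarBilin Q) e f) (qe : ∀ a, Q (e a) = 0)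
    (qf : ∀ a, Q (f a) = 0) {w : V} (hw : w ∈ Submodule.span F (Set.range e)) : Q w = 0 := by
  obtain ⟨c, rfl⟩ := (Submodule.mem_span_range_iff_exists_fun F).mp hw
  have h0 := Q_comb Q S qe qf c 0
  simpa using h0

theorem Q_T (S' : Sys (QuadraticMap.polarBilin Q) e' f') (qe' : ∀ a, Q (e' a) = 0)
    (qf' : ∀ a, Q (f' a) = 0) (e f : Fin h → V) (u : V) :
    Q (T (QuadraticMap.polarBilin Q) e f e' f' u) =
      ∑ b, QuadraticMap.polarBilin Q u (f b) * QuadraticMap.polarBilin Q u (e b) := by
  rw [T_apply]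
  exact Q_comb Q S' qe' qf' _ _

theorem Q_pres (S : Sys (QuadraticMap.polarBilin Q) e f) (qe : ∀ a, Q (e a) = 0)
    (qf : ∀ a, Q (f a) = 0) (S' : Sys (QuadraticMap.polarBilin Q) e' f')
    (qe' : ∀ a, Q (e' a) = 0) (qf' : ∀ a, Q (f' a) = 0) {u : V}
    (hu : u ∈ Submodule.span F (Set.range (Sum.elim e f))) :
    Q (T (QuadraticMap.polarBilin Q) e f e' f' u) = Q u := by
  rw [Q_T Q S' qe' qf' e f u]
  have h0 := Q_T Q S qe qf e f u
  rw [T_self S hu] at h0
  exact h0.symm

theorem exists_sysQ [FiniteDimensional F V]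
    {W U : Submodule F V} (hW : Module.finrank F W = 2 * h)
    (hnd : ∀ w ∈ W, w ≠ 0 → ∃ x ∈ W, QuadraticMap.polarBilin Q w x ≠ 0) (hUW : U ≤ W)
    (hUq : ∀ u ∈ U, Q u = 0) (hUr : Module.finrank F U = h) :
    ∃ e f : Fin h → V, Sys (QuadraticMap.polarBilin Q) e f ∧ (∀ a, Q (e a) = 0) ∧
      (∀ a, Q (f a) = 0) ∧ Submodule.span F (Set.range (Sum.elim e f)) = W := by
  classical
  obtain ⟨B, hB⟩ : ∃ B : LinearMap.BilinForm F V, B = QuadraticMap.polarBilin Q := ⟨_, rfl⟩
  have hBp : ∀ u v, B u v = QuadraticMap.polar Q u v := fun u v => by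
    rw [hB, QuadraticMap.polarBilin_apply_apply]
  rw [← hB] at hnd ⊢
  have hsymm : ∀ u v, B u v = B v u := fun u v => by
    rw [hBp, hBp, QuadraticMap.polar_comm]
  have hU : ∀ u ∈ U, ∀ u' ∈ U, B u u' = 0 := by
    intro u hu u' hu'
    rw [hBp]
    unfold QuadraticMap.polar
    rw [hUq _ (U.add_mem hu hu'), hUq _ hu, hUq _ hu']
    simp
  let bU : Module.Basis (Fin h) F U := Module.finBasisOfFinrankEq F U hUr
  set e : Fin h → V := fun a => (bU a : V) with he
  have heU : ∀ a, e a ∈ U := fun a => (bU a).2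
  let φ : W →ₗ[F] (Fin h → F) := LinearMap.pi (fun a => (B (e a)).comp W.subtype)
  have hφ : ∀ w a, φ w a = B (e a) (w : V) := fun w a => rfl
  have hsurj : Function.Surjective φ := by
    rw [← LinearMap.range_eq_top]
    by_contra hne
    obtain ⟨ψ, hψ0, hψ⟩ := Submodule.exists_le_ker_of_lt_top (LinearMap.range φ)
      (lt_top_iff_ne_top.mpr hne)
    set c : Fin h → F := fun a => ψ (fun j => if a = j then 1 else 0) with hc
    have hψx : ∀ x : Fin h → F, ψ x = ∑ a, x a * c a := by
      intro x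
      rw [LinearMap.pi_apply_eq_sum_univ ψ x]
      simp [hc]
    set u0 : V := ∑ a, c a • e a with hu0
    have hu0U : u0 ∈ U := Submodule.sum_mem _ (fun a _ => Submodule.smul_mem _ _ (heU a))
    have hB0 : ∀ w ∈ W, B u0 w = 0 := by
      intro w hw
      have h1 : ψ (φ ⟨w, hw⟩) = 0 := LinearMap.mem_ker.mp (hψ ⟨⟨w, hw⟩, rfl⟩)
      rw [hψx] at h1
      rw [hu0, map_sum, LinearMap.sum_apply]
      simp only [map_smul, LinearMap.smul_apply, smul_eq_mul]
      rw [← h1]
      refine Finset.sum_congr rfl fun a _ => ?_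
      rw [hφ]; ring
    have hu00 : u0 ≠ 0 := by
      intro h0
      apply hψ0
      have hc0 : ∀ a, c a = 0 := by
        have hli := bU.linearIndependent
        rw [Fintype.linearIndependent_iff] at hli
        apply hli c
        apply Subtype.ext
        simpa [hu0, he] using h0
      apply LinearMap.ext
      intro x
      rw [hψx]; simp [hc0]
    obtain ⟨x, hx, hxne⟩ := hnd u0 (hUW hu0U) hu00
    exact hxne (hB0 x hx)
  choose g hg using fun b => hsurj (Pi.single b 1)
  have hg' : ∀ a b, B (e a) (g b : V) = if a = b then 1 else 0 := by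
    intro a b
    have := congrFun (hg b) a
    rw [hφ] at this
    rw [this, Pi.single_apply]
  obtain ⟨lam, hlam⟩ : ∃ lam : Fin h → Fin h → F, ∀ a c, lam a c =
      if a < c then B (g a : V) (g c : V) else if a = c then Q (g a : V) else 0 := ⟨_, fun _ _ => rfl⟩
  set E : Fin h → V := fun a => ∑ c, lam a c • e c with hE
  have hEU : ∀ a, E a ∈ U := fun a =>
    Submodule.sum_mem _ (fun c _ => Submodule.smul_mem _ _ (heU c))
  have hgE : ∀ a b, B (g a : V) (E b) = lam b a := by
    intro a b
    have h1 : ∀ c, B (g a : V) (e c) = if c = a then 1 else 0 := fun c => by rw [hsymm, hg']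
    simp only [hE, map_sum, map_smul, smul_eq_mul, h1]
    simp
  have hEg : ∀ a b, B (E a) (g b : V) = lam a b := by
    intro a b
    rw [hsymm, hgE]
  set f : Fin h → V := fun a => (g a : V) - E a with hf
  have hff : ∀ a b, B (f a) (f b) = 0 := by
    intro a b
    simp only [hf, map_sub, LinearMap.sub_apply]
    rw [hgE, hEg, hU _ (hEU a) _ (hEU b)]
    rcases lt_trichotomy a b with hab | hab | hab
    · have h1 : lam a b = B (g a : V) (g b : V) := by rw [hlam, if_pos hab]
      have h2 : lam b a = 0 := by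
        rw [hlam, if_neg (not_lt.mpr hab.le), if_neg hab.ne']
      rw [h1, h2]; ring
    · subst hab
      have h1 : lam a a = Q (g a : V) := by rw [hlam, if_neg (lt_irrefl a), if_pos rfl]
      have h3 : B (g a : V) (g a : V) = 2 * Q (g a : V) := by
        rw [hBp, QuadraticMap.polar_self]
        simp [two_mul]
      rw [h1, h3]; ring
    · have h1 : lam b a = B (g b : V) (g a : V) := by rw [hlam, if_pos hab]
      have h2 : lam a b = 0 := by
        rw [hlam, if_neg (not_lt.mpr hab.le), if_neg hab.ne']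
      rw [h1, h2, hsymm (g b : V) (g a : V)]; ring
  have hqf : ∀ a, Q (f a) = 0 := by
    intro a
    have h1 : f a = (g a : V) + -(E a) := by simp [hf, sub_eq_add_neg]
    have h2 : QuadraticMap.polar Q (g a : V) (E a) = lam a a := by rw [← hBp]; exact hgE a a
    have h3 : lam a a = Q (g a : V) := by rw [hlam, if_neg (lt_irrefl a), if_pos rfl]
    rw [h1, QuadraticMap.map_add Q (g a : V) (-(E a)), QuadraticMap.map_neg, hUq _ (hEU a),
      QuadraticMap.polar_neg_right, h2, h3]
    simp
  have hS : Sys B e f := by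
    refine ⟨fun a b => hU _ (heU a) _ (heU b), hff, ?_, ?_⟩
    · intro a b
      simp only [hf, map_sub]
      rw [hg', hU _ (heU a) _ (hEU b), sub_zero]
    · intro a b
      rw [hsymm]
      simp only [hf, map_sub]
      rw [hg', hU _ (heU b) _ (hEU a), sub_zero]
      simp [eq_comm]
  refine ⟨e, f, hS, fun a => hUq _ (heU a), hqf, ?_⟩
  apply Submodule.eq_of_le_of_finrank_eq
  · rw [Submodule.span_le]
    rintro _ ⟨a | a, rfl⟩
    · exact hUW (heU a)
    · exact Submodule.sub_mem _ (g a).2 (hUW (hEU a))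
  · rw [finrank_span hS, hW]

end quad

section conc

variable (F : Type u) [Field F] (d : ℕ)

/-- `Cfsg.quadFormPlus` as a quadratic form -/
def plusQ : QuadraticForm F (P d → F) :=
  (∑ i : Fin d, QuadraticMap.proj (R := F) (Sum.inl i) (Sum.inr i)).copy
    (Cfsg.quadFormPlus d F)
    (by funext v; simp [Cfsg.quadFormPlus])

theorem plusQ_apply (v : P d → F) : plusQ F d v = Cfsg.quadFormPlus d F v := rfl

/-- the polar form as a bilinear form -/
abbrev BB : LinearMap.BilinForm F (P d → F) := QuadraticMap.polarBilin (plusQ F d)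

theorem BB_apply (u v : P d → F) :
    BB F d u v = QuadraticMap.polar (Cfsg.quadFormPlus d F) u v := rfl

theorem BB_symm (u v : P d → F) : BB F d u v = BB F d v u := by
  rw [BB_apply, BB_apply, QuadraticMap.polar_comm]

variable {F d} {h : ℕ}

theorem sys_of (t : HSysJ d F h) : Sys (BB F d) t.1.1 t.1.2 :=
  ⟨fun a b => t.2.2.2.1 a b, fun a b => t.2.2.2.2.1 a b, fun a b => t.2.2.2.2.2 a b,
    fun a b => by
      rw [BB_symm, BB_apply, t.2.2.2.2.2 b a]
      simp [eq_comm]⟩

theorem qe_of (t : HSysJ d F h) : ∀ a, plusQ F d (t.1.1 a) = 0 := fun a => t.2.1 a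

theorem qf_of (t : HSysJ d F h) : ∀ a, plusQ F d (t.1.2 a) = 0 := fun a => t.2.2.1 a

/-- build an element of `HSysJ` -/
def mk (e f : Fin h → P d → F) (S : Sys (BB F d) e f) (qe : ∀ a, plusQ F d (e a) = 0)
    (qf : ∀ a, plusQ F d (f a) = 0) : HSysJ d F h :=
  ⟨(e, f), ⟨fun a => qe a, fun a => qf a, fun a b => S.ee a b,
    fun a b => S.ff a b, fun a b => S.ef a b⟩⟩

/-- the span of a system -/
def sp (t : HSysJ d F h) : Submodule F (P d → F) :=
  Submodule.span F (Set.range (Sum.elim t.1.1 t.1.2))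

theorem hyp_sp (t : HSysJ d F h) : HypJ d F (2 * h) (sp t) := by
  have S := sys_of t
  refine ⟨finrank_span S, ?_, ?_⟩
  · intro w hw hw0
    obtain ⟨x, hx, hne⟩ := nondeg S hw hw0
    exact ⟨x, hx, hne⟩
  · refine ⟨Submodule.span F (Set.range t.1.1), ?_, ?_, ?_⟩
    · apply Submodule.span_mono
      rintro _ ⟨a, rfl⟩
      exact ⟨Sum.inl a, rfl⟩
    · rw [finrank_span_e S]
    · intro w hw
      exact Q_span_e (plusQ F d) S (qe_of t) (qf_of t) hw

theorem exists_sp {W : Submodule F (P d → F)} (hW : HypJ d F (2 * h) W) :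
    ∃ t : HSysJ d F h, sp t = W := by
  obtain ⟨hr, hnd, U, hUW, hUr, hUs⟩ := hW
  obtain ⟨e, f, S, qe, qf, hsp⟩ := exists_sysQ (plusQ F d) hr
    (fun w hw hw0 => hnd w hw hw0) hUW hUs (Nat.eq_of_mul_eq_mul_left two_pos hUr)
  exact ⟨mk e f S qe qf, hsp⟩

theorem q_transport (t t' s : HSysJ d F h) (hs : sp s = sp t) :
    (∀ a, plusQ F d ((T (BB F d) t.1.1 t.1.2 t'.1.1 t'.1.2 ∘ s.1.1) a) = 0) ∧
    (∀ a, plusQ F d ((T (BB F d) t.1.1 t.1.2 t'.1.1 t'.1.2 ∘ s.1.2) a) = 0) := by
  have he : ∀ a, s.1.1 a ∈ Submodule.span F (Set.range (Sum.elim t.1.1 t.1.2)) := fun a => by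
    have h0 := hs
    unfold sp at h0
    rw [← h0]
    exact Submodule.subset_span ⟨Sum.inl a, rfl⟩
  have hf : ∀ a, s.1.2 a ∈ Submodule.span F (Set.range (Sum.elim t.1.1 t.1.2)) := fun a => by
    have h0 := hs
    unfold sp at h0
    rw [← h0]
    exact Submodule.subset_span ⟨Sum.inr a, rfl⟩
  constructor
  · intro a
    simp only [Function.comp_apply]
    rw [Q_pres (plusQ F d) (sys_of t) (qe_of t) (qf_of t) (sys_of t') (qe_of t') (qf_of t')
      (he a)]
    exact qe_of s a
  · intro a
    simp only [Function.comp_apply]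
    rw [Q_pres (plusQ F d) (sys_of t) (qe_of t) (qf_of t) (sys_of t') (qe_of t') (qf_of t')
      (hf a)]
    exact qf_of s a

theorem fib_le [Finite F] (t t' : HSysJ d F h) :
    Nat.card {s : HSysJ d F h // sp s = sp t} ≤ Nat.card {s : HSysJ d F h // sp s = sp t'} := by
  have : Finite (HSysJ d F h) := by unfold HSysJ; infer_instance
  have S := sys_of t
  have S' := sys_of t'
  let φ : {s : HSysJ d F h // sp s = sp t} → {s : HSysJ d F h // sp s = sp t'} := fun s =>
    ⟨mk (T (BB F d) t.1.1 t.1.2 t'.1.1 t'.1.2 ∘ s.1.1.1)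
        (T (BB F d) t.1.1 t.1.2 t'.1.1 t'.1.2 ∘ s.1.1.2) (transport S S' (sys_of s.1) s.2).1
        (q_transport t t' s.1 s.2).1 (q_transport t t' s.1 s.2).2,
      (transport S S' (sys_of s.1) s.2).2⟩
  apply Nat.card_le_card_of_injective φ
  intro s1 s2 h12
  have h12' : (T (BB F d) t.1.1 t.1.2 t'.1.1 t'.1.2 ∘ s1.1.1.1,
      T (BB F d) t.1.1 t.1.2 t'.1.1 t'.1.2 ∘ s1.1.1.2) =
      (T (BB F d) t.1.1 t.1.2 t'.1.1 t'.1.2 ∘ s2.1.1.1,
      T (BB F d) t.1.1 t.1.2 t'.1.1 t'.1.2 ∘ s2.1.1.2) :=
    congrArg (fun x => x.1.1) h12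
  have key1 : ∀ (s : {s : HSysJ d F h // sp s = sp t}) (a : Fin h),
      T (BB F d) t'.1.1 t'.1.2 t.1.1 t.1.2 (T (BB F d) t.1.1 t.1.2 t'.1.1 t'.1.2 (s.1.1.1 a)) =
        s.1.1.1 a := by
    intro s a
    rw [T_T S', T_self S]
    have := s.2
    unfold sp at this
    rw [← this]
    exact Submodule.subset_span ⟨Sum.inl a, rfl⟩
  have key2 : ∀ (s : {s : HSysJ d F h // sp s = sp t}) (a : Fin h),
      T (BB F d) t'.1.1 t'.1.2 t.1.1 t.1.2 (T (BB F d) t.1.1 t.1.2 t'.1.1 t'.1.2 (s.1.1.2 a)) =
        s.1.1.2 a := by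
    intro s a
    rw [T_T S', T_self S]
    have := s.2
    unfold sp at this
    rw [← this]
    exact Submodule.subset_span ⟨Sum.inr a, rfl⟩
  apply Subtype.ext
  apply Subtype.ext
  apply Prod.ext
  · funext a
    rw [← key1 s1 a, ← key1 s2 a]
    exact congrArg _ (congrFun (congrArg Prod.fst h12') a)
  · funext a
    rw [← key2 s1 a, ← key2 s2 a]
    exact congrArg _ (congrFun (congrArg Prod.snd h12') a)

end conc

theorem main : HypFibJ.{u} := by
  intro F _ _ d h _
  classical
  have : Finite (HSysJ d F h) := by unfold HSysJ; infer_instance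
  have : Finite (Submodule F (P d → F)) :=
    Finite.of_injective (fun W : Submodule F (P d → F) => (W : Set (P d → F)))
      SetLike.coe_injective
  by_cases hemp : IsEmpty (HSysJ d F h)
  · have : Nat.card (HSysJ d F h) = 0 := Nat.card_of_isEmpty
    rw [this]
    exact dvd_zero _
  · rw [not_isEmpty_iff] at hemp
    obtain ⟨t0⟩ := hemp
    let σ' : HSysJ d F h → {W : Submodule F (P d → F) // HypJ d F (2 * h) W} :=
      fun t => ⟨sp t, hyp_sp t⟩
    have hconst : ∀ W : {W : Submodule F (P d → F) // HypJ d F (2 * h) W},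
        Nat.card {s : HSysJ d F h // σ' s = W} =
          Nat.card {s : HSysJ d F h // sp s = sp t0} := by
      intro W
      obtain ⟨t, ht⟩ := exists_sp W.2
      have e1 : {s : HSysJ d F h // σ' s = W} ≃ {s : HSysJ d F h // sp s = sp t} :=
        Equiv.subtypeEquivRight (fun s => by rw [ht]; exact Subtype.ext_iff)
      rw [Nat.card_congr e1]
      exact le_antisymm (fib_le t t0) (fib_le t0 t)
    have e2 : Nat.card (HSysJ d F h) =
        Nat.card (Σ W : {W : Submodule F (P d → F) // HypJ d F (2 * h) W},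
          {s : HSysJ d F h // σ' s = W}) :=
      Nat.card_congr (Equiv.sigmaFiberEquiv σ').symm
    haveI : Fintype {W : Submodule F (P d → F) // HypJ d F (2 * h) W} := Fintype.ofFinite _
    have hcard : Nat.card (HSysJ d F h) =
        Nat.card {W : Submodule F (P d → F) // HypJ d F (2 * h) W} *
          Nat.card {s : HSysJ d F h // sp s = sp t0} := by
      rw [e2, Nat.card_sigma, Finset.sum_congr rfl (fun W _ => hconst W), Finset.sum_const,
        Finset.card_univ, smul_eq_mul, Fintype.card_eq_nat_card]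
    rw [hcard]
    exact dvd_mul_right _ _

end Cfsg.Agent.Lib.Helper86.HPHYPFIBJ
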