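import Cfsg.Agent.Lib.Helper86.M24CenFive
import Cfsg.Agent.Lib.Helper35.M24BlkElts

set_option autoImplicit false

/-!
# S5006 piece CD5 (helper86): the centraliser of `r15 ^ 3` in `M24`
-/

namespace Cfsg.Agent.Lib.Helper86.M24BlkCD5

open Cfsg Cfsg.Agent.Lib.Helper7.GolayBase Cfsg.Agent.Lib.Helper7.GolayPerm
  Cfsg.Agent.Lib.Helper86.TabGrp Cfsg.Agent.Lib.Helper86.ChainEnum
  Cfsg.Agent.Lib.Helper86.CenTab Cfsg.Agent.Lib.Helper86.M24CenFive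
  Cfsg.Agent.Lib.Helper35.M24BlkElts

/-- Elements of `M24` mapping `23, 0, 1, 2, 3` to `q, r q, r² q, r³ q, r⁴ q`. -/
def Gs : List (List Nat) :=
  [[1, 2, 3, 23, 16, 5, 6, 11, 7, 18, 21, 4, 10, 19, 14, 20, 8, 17, 12, 22, 13, 9, 15, 0],
  [2, 3, 23, 0, 18, 17, 9, 19, 11, 8, 22, 21, 10, 6, 5, 7, 15, 14, 16, 13, 20, 12, 4, 1],
  [3, 23, 0, 1, 19, 5, 21, 4, 16, 15, 11, 12, 20, 10, 14, 7, 18, 17, 6, 9, 13, 8, 22, 2],
  [23, 0, 1, 2, 13, 17, 21, 22, 9, 19, 4, 7, 16, 8, 5, 20, 10, 14, 18, 15, 11, 12, 6, 3],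
  [20, 15, 16, 21, 1, 17, 9, 22, 14, 11, 2, 3, 6, 18, 7, 23, 12, 5, 19, 10, 8, 13, 0, 4],
  [0, 1, 2, 3, 4, 5, 6, 7, 8, 9, 10, 11, 12, 13, 14, 15, 16, 17, 18, 19, 20, 21, 22, 23],
  [12, 22, 13, 18, 9, 7, 21, 10, 4, 19, 0, 3, 1, 2, 14, 11, 16, 5, 20, 8, 23, 15, 17, 6],
  [0, 1, 2, 3, 4, 5, 6, 7, 8, 9, 10, 11, 12, 13, 14, 15, 16, 17, 18, 19, 20, 21, 22, 23],
  [11, 9, 19, 10, 15, 14, 1, 2, 0, 23, 4, 18, 3, 16, 7, 5, 22, 17, 13, 20, 12, 21, 6, 8],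
  [19, 10, 8, 11, 21, 17, 6, 0, 1, 20, 23, 13, 15, 18, 14, 3, 22, 7, 5, 12, 16, 2, 4, 9],
  [8, 11, 9, 19, 16, 7, 13, 22, 20, 3, 6, 18, 15, 4, 17, 21, 1, 14, 12, 2, 5, 23, 0, 10],
  [9, 19, 10, 8, 3, 17, 22, 20, 6, 21, 16, 18, 23, 15, 14, 12, 2, 7, 1, 0, 13, 5, 4, 11],
  [22, 13, 18, 6, 23, 14, 16, 4, 9, 3, 17, 0, 10, 2, 5, 21, 20, 7, 1, 11, 19, 8, 15, 12],
  [18, 6, 12, 22, 23, 14, 19, 9, 2, 20, 8, 10, 3, 1, 5, 0, 21, 7, 11, 4, 17, 15, 16, 13],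
  [0, 1, 2, 3, 4, 5, 6, 7, 8, 9, 10, 11, 12, 13, 14, 15, 16, 17, 18, 19, 20, 21, 22, 23],
  [16, 21, 4, 20, 18, 7, 14, 22, 12, 1, 23, 13, 3, 10, 5, 9, 6, 17, 2, 8, 19, 0, 11, 15],
  [21, 4, 20, 15, 13, 5, 22, 23, 8, 19, 0, 12, 6, 14, 17, 10, 1, 7, 9, 3, 2, 18, 11, 16],
  [0, 1, 2, 3, 4, 5, 6, 7, 8, 9, 10, 11, 12, 13, 14, 15, 16, 17, 18, 19, 20, 21, 22, 23],
  [6, 12, 22, 13, 0, 7, 9, 23, 15, 16, 19, 17, 11, 4, 14, 10, 21, 5, 1, 8, 20, 3, 2, 18],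
  [10, 8, 11, 9, 15, 7, 22, 12, 4, 2, 18, 13, 20, 21, 17, 16, 0, 14, 6, 1, 5, 3, 23, 19],
  [15, 16, 21, 4, 3, 7, 22, 2, 10, 8, 13, 14, 12, 9, 5, 18, 11, 17, 23, 6, 19, 1, 0, 20],
  [4, 20, 15, 16, 1, 5, 22, 12, 23, 9, 18, 13, 0, 3, 17, 2, 8, 7, 6, 11, 14, 19, 10, 21],
  [13, 18, 6, 12, 19, 7, 16, 15, 11, 23, 4, 21, 9, 8, 14, 10, 2, 5, 20, 3, 17, 0, 1, 22],
  [0, 1, 2, 3, 4, 5, 6, 7, 8, 9, 10, 11, 12, 13, 14, 15, 16, 17, 18, 19, 20, 21, 22, 23]]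

/-- The table of `r15 ^ 3`. -/
def tr : List Nat := [1, 2, 3, 23, 20, 5, 12, 7, 11, 19, 8, 9, 22, 18, 14, 16, 21, 17, 6, 10, 15, 4, 13, 0]
/-- The table of `r15 ^ 5`. -/
def u5 : List Nat := [8, 11, 9, 19, 23, 14, 6, 5, 20, 16, 4, 15, 12, 13, 7, 1, 2, 17, 18, 21, 0, 3, 22, 10]
/-- The table of `(r15 ^ 5)⁻¹`. -/
def u10 : List Nat := [20, 15, 16, 21, 10, 7, 6, 14, 0, 2, 23, 1, 12, 13, 5, 11, 9, 17, 18, 3, 8, 19, 22, 4]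
/-- Conjugating elements. -/
def Cw : List (List Nat) :=
  [[1, 2, 3, 23, 20, 5, 12, 7, 11, 19, 8, 9, 22, 18, 14, 16, 21, 17, 6, 10, 15, 4, 13, 0],
  [1, 2, 3, 23, 8, 17, 4, 7, 13, 6, 22, 18, 20, 16, 5, 9, 19, 14, 21, 12, 11, 10, 15, 0],
  [1, 2, 3, 23, 22, 14, 10, 7, 15, 21, 20, 16, 8, 9, 17, 18, 6, 5, 19, 4, 13, 12, 11, 0],
  [12, 22, 13, 18, 21, 7, 9, 17, 23, 1, 3, 0, 19, 8, 14, 20, 15, 5, 11, 2, 4, 16, 10, 6]]

theorem rep_r : Rep (r15 ^ 3) tr := by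
  have := rep_pow rep_r15 3
  rwa [show powT t15 3 = tr from by decide +kernel] at this

theorem rep_u5 : Rep (r15 ^ 5) u5 := by
  have := rep_pow rep_r15 5
  rwa [show powT t15 5 = u5 from by decide +kernel] at this

theorem rep_u10 : Rep (r15 ^ 5)⁻¹ u10 := by
  have := rep_pow rep_r15_inv 5
  rwa [inv_pow, show powT t15' 5 = u10 from by decide +kernel] at this

/-- The table test. -/
def good (w : List Nat) : Bool :=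
  (powT w 30 == idT) && (!(powT w 3 == idT) || w == idT ||
    Cw.any (fun cw => (tmul cw w == tmul u5 cw || tmul cw w == tmul u10 cw) &&
      commT tr cw && inM24' cw))

theorem key {x : Equiv.Perm GolayPt} (hx : x ∈ M24) (hc : x * r15 ^ 3 = r15 ^ 3 * x) :
    ∃ w, Rep x w ∧ good w = true :=
  cen_all rep_r (by decide) (Gs := Gs) (by decide +kernel) (good := good) (by decide +kernel) hx hc

theorem main : (∀ x ∈ M24, x * r15 ^ 3 = r15 ^ 3 * x → x ^ 30 = 1) ∧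
    (∀ b ∈ M24, b * r15 ^ 3 = r15 ^ 3 * b → orderOf b = 3 →
      ∃ c ∈ M24, c * r15 ^ 3 = r15 ^ 3 * c ∧
        (c * b * c⁻¹ = r15 ^ 5 ∨ c * b * c⁻¹ = (r15 ^ 5)⁻¹)) := by
  constructor
  · intro x hx hc
    obtain ⟨w, hw, hg⟩ := key hx hc
    rw [good, Bool.and_eq_true] at hg
    exact pow_eq_one_of_rep hw hg.1
  · intro b hb hc ho
    obtain ⟨w, hw, hg⟩ := key hb hc
    rw [good, Bool.and_eq_true] at hg
    have h3 : powT w 3 = idT := powT_of_pow_eq_one hw (by rw [← ho]; exact pow_orderOf_eq_one b)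
    have hne : w ≠ idT := by
      intro e
      rw [e] at hw
      rw [hw.eq_one, orderOf_one] at ho
      norm_num at ho
    have h2 := hg.2
    simp only [Bool.or_eq_true, Bool.and_eq_true, Bool.not_eq_true', beq_iff_eq,
      beq_eq_false_iff_ne, List.any_eq_true] at h2
    rcases h2 with (h | h) | ⟨cw, -, ⟨hconj, hcomm⟩, hm⟩
    · exact absurd h3 h
    · exact absurd h hne
    · obtain ⟨c, hcM, hcr⟩ := exists_M24' cw hm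
      refine ⟨c, hcM, (commT_iff rep_r hcr).mpr hcomm, ?_⟩
      rcases hconj with h | h
      · left
        have e : c * b = r15 ^ 5 * c := by
          have h1 := hcr.mul hw
          rw [h] at h1
          exact h1.ext (rep_u5.mul hcr)
        rw [e, mul_inv_cancel_right]
      · right
        have e : c * b = (r15 ^ 5)⁻¹ * c := by
          have h1 := hcr.mul hw
          rw [h] at h1
          exact h1.ext (rep_u10.mul hcr)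
        rw [e, mul_inv_cancel_right]

end Cfsg.Agent.Lib.Helper86.M24BlkCD5
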