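import Cfsg.Agent.Lib.Helper86.M24CenFive
import Cfsg.Agent.Lib.Helper35.M24BlkElts

set_option autoImplicit false

/-!
# S5006 piece CD7 (helper86): the centraliser of `r21 ^ 3` in `M24`
-/

namespace Cfsg.Agent.Lib.Helper86.M24BlkCD7

open Cfsg Cfsg.Agent.Lib.Helper7.GolayBase Cfsg.Agent.Lib.Helper7.GolayPerm
  Cfsg.Agent.Lib.Helper86.TabGrp Cfsg.Agent.Lib.Helper86.ChainEnum
  Cfsg.Agent.Lib.Helper86.CenTab Cfsg.Agent.Lib.Helper86.M24CenFive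
  Cfsg.Agent.Lib.Helper35.M24BlkElts

/-- Elements of `M24` mapping `23, 0, 1, 2, 3` to `q, r q, r² q, r³ q, r⁴ q`. -/
def Gs : List (List Nat) :=
  [[1, 2, 3, 14, 22, 23, 12, 4, 16, 20, 21, 15, 19, 9, 5, 13, 6, 17, 8, 7, 18, 10, 11, 0],
  [2, 3, 14, 5, 9, 17, 19, 4, 20, 13, 6, 15, 12, 10, 0, 16, 8, 23, 11, 21, 7, 22, 18, 1],
  [3, 14, 5, 23, 19, 0, 21, 20, 7, 4, 12, 11, 22, 18, 17, 9, 13, 1, 10, 8, 6, 16, 15, 2],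
  [14, 5, 23, 0, 10, 1, 7, 13, 12, 11, 15, 19, 22, 16, 17, 21, 6, 2, 20, 8, 4, 9, 18, 3],
  [6, 10, 13, 11, 7, 19, 16, 14, 18, 1, 21, 22, 23, 15, 8, 2, 3, 20, 17, 12, 9, 0, 5, 4],
  [23, 0, 1, 2, 11, 3, 7, 8, 22, 19, 12, 6, 18, 9, 17, 16, 13, 14, 20, 4, 10, 15, 21, 5],
  [10, 13, 11, 8, 2, 20, 16, 22, 7, 15, 9, 14, 23, 18, 4, 0, 12, 19, 21, 5, 17, 1, 3, 6],
  [0, 1, 2, 3, 4, 5, 6, 7, 8, 9, 10, 11, 12, 13, 14, 15, 16, 17, 18, 19, 20, 21, 22, 23],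
  [19, 4, 6, 10, 22, 20, 3, 1, 5, 23, 0, 21, 15, 14, 11, 16, 17, 13, 2, 9, 18, 7, 12, 8],
  [18, 15, 21, 12, 23, 7, 6, 8, 19, 20, 4, 5, 17, 13, 22, 2, 10, 16, 11, 1, 14, 0, 3, 9],
  [13, 11, 8, 19, 16, 4, 5, 7, 17, 22, 23, 21, 1, 3, 20, 2, 15, 6, 18, 12, 9, 0, 14, 10],
  [8, 19, 4, 6, 7, 20, 17, 3, 5, 14, 1, 12, 9, 0, 13, 15, 2, 10, 23, 21, 18, 16, 22, 11],
  [16, 22, 9, 18, 8, 21, 6, 2, 19, 1, 20, 4, 0, 10, 15, 23, 5, 7, 3, 13, 11, 17, 14, 12],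
  [11, 8, 19, 4, 22, 20, 3, 0, 1, 17, 2, 16, 7, 5, 10, 15, 14, 6, 23, 18, 12, 9, 21, 13],
  [5, 23, 0, 1, 22, 3, 9, 20, 12, 11, 18, 21, 6, 15, 2, 19, 10, 17, 8, 16, 7, 4, 13, 14],
  [21, 12, 16, 22, 4, 18, 6, 17, 8, 14, 10, 11, 1, 13, 9, 23, 2, 7, 5, 19, 20, 0, 3, 15],
  [22, 9, 18, 15, 3, 21, 4, 1, 13, 0, 20, 23, 19, 10, 7, 8, 17, 12, 5, 14, 2, 6, 11, 16],
  [0, 1, 2, 3, 4, 5, 6, 7, 8, 9, 10, 11, 12, 13, 14, 15, 16, 17, 18, 19, 20, 21, 22, 23],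
  [15, 21, 12, 16, 1, 7, 13, 11, 20, 4, 8, 3, 5, 19, 9, 23, 10, 22, 6, 14, 17, 0, 2, 18],
  [4, 6, 10, 13, 17, 20, 7, 18, 21, 15, 22, 3, 23, 16, 8, 1, 9, 11, 12, 2, 0, 14, 5, 19],
  [0, 1, 2, 3, 4, 5, 6, 7, 8, 9, 10, 11, 12, 13, 14, 15, 16, 17, 18, 19, 20, 21, 22, 23],
  [12, 16, 22, 9, 10, 18, 23, 8, 3, 20, 5, 11, 14, 17, 7, 0, 4, 15, 6, 19, 13, 2, 1, 21],
  [9, 18, 15, 21, 13, 7, 1, 3, 2, 0, 23, 6, 10, 17, 16, 4, 14, 12, 5, 20, 11, 19, 8, 22],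
  [0, 1, 2, 3, 4, 5, 6, 7, 8, 9, 10, 11, 12, 13, 14, 15, 16, 17, 18, 19, 20, 21, 22, 23]]

/-- The table of `r21 ^ 3`. -/
def tr : List Nat := [1, 2, 3, 14, 6, 23, 10, 7, 19, 18, 13, 8, 16, 11, 5, 21, 22, 17, 15, 4, 20, 12, 9, 0]
/-- The table of `r21 ^ 7`. -/
def u7 : List Nat := [21, 12, 16, 22, 5, 18, 23, 20, 3, 19, 0, 2, 13, 1, 9, 6, 11, 7, 4, 14, 17, 10, 8, 15]
/-- The table of `(r21 ^ 7)⁻¹`. -/
def u14 : List Nat := [10, 13, 11, 8, 18, 4, 15, 17, 22, 14, 21, 16, 1, 12, 19, 23, 2, 20, 5, 9, 7, 0, 3, 6]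

theorem rep_r : Rep (r21 ^ 3) tr := by
  have := rep_pow rep_r21 3
  rwa [show powT t21 3 = tr from by decide +kernel] at this

theorem rep_u7 : Rep (r21 ^ 7) u7 := by
  have := rep_pow rep_r21 7
  rwa [show powT t21 7 = u7 from by decide +kernel] at this

theorem rep_u14 : Rep (r21 ^ 7)⁻¹ u14 := by
  have := rep_pow rep_r21_inv 7
  rwa [inv_pow, show powT t21' 7 = u14 from by decide +kernel] at this

/-- The table test. -/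
def good (w : List Nat) : Bool :=
  (powT w 42 == idT) && (!(powT w 3 == idT) || w == idT || w == u7 || w == u14)

theorem key {x : Equiv.Perm GolayPt} (hx : x ∈ M24) (hc : x * r21 ^ 3 = r21 ^ 3 * x) :
    ∃ w, Rep x w ∧ good w = true :=
  cen_all rep_r (by decide) (Gs := Gs) (by decide +kernel) (good := good) (by decide +kernel) hx hc

theorem main : (∀ x ∈ M24, x * r21 ^ 3 = r21 ^ 3 * x → x ^ 42 = 1) ∧
    (∀ b ∈ M24, b * r21 ^ 3 = r21 ^ 3 * b → orderOf b = 3 → b = r21 ^ 7 ∨ b = (r21 ^ 7)⁻¹) := by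
  constructor
  · intro x hx hc
    obtain ⟨w, hw, hg⟩ := key hx hc
    rw [good, Bool.and_eq_true] at hg
    exact pow_eq_one_of_rep hw hg.1
  · intro b hb hc ho
    obtain ⟨w, hw, hg⟩ := key hb hc
    rw [good, Bool.and_eq_true] at hg
    have h3 : powT w 3 = idT := powT_of_pow_eq_one hw (by rw [← ho]; exact pow_orderOf_eq_one b)
    have hne : w ≠ idT := by
      intro e
      rw [e] at hw
      rw [hw.eq_one, orderOf_one] at ho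
      norm_num at ho
    have h2 := hg.2
    simp only [Bool.or_eq_true, Bool.not_eq_true', beq_iff_eq, beq_eq_false_iff_ne] at h2
    rcases h2 with ((h | h) | h) | h
    · exact absurd h3 h
    · exact absurd h hne
    · left; rw [h] at hw; exact hw.ext rep_u7
    · right; rw [h] at hw; exact hw.ext rep_u14

end Cfsg.Agent.Lib.Helper86.M24BlkCD7
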