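import Cfsg.Agent.Lib.Helper3.M24BlkStmt
import Cfsg.Agent.Lib.Helper86.CenB
import Cfsg.Agent.Lib.Helper93.Cent2A
import Cfsg.Agent.Lib.Helper7.M24Main

set_option autoImplicit false

/-!
# S5006 piece LCOMPLETE (helper86): the list `LL` contains every element of square one of `M24`

Counting: an element of square one is `1`, or conjugate to the involution `zM` (centraliser of
order at least 21504, so at most 11385 conjugates), or conjugate to `gB` (centraliser of order
7680, so at most 31878 conjugates); `LL` lists `43264 = 1 + 11385 + 31878` distinct such elements.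
-/

namespace Cfsg.Agent.Lib.Helper86.M24BlkLCOMPLETE

open Cfsg Cfsg.Agent.Lib.Helper7.GolayBase Cfsg.Agent.Lib.Helper7.GolayPerm
  Cfsg.Agent.Lib.Helper86.TabGrp Cfsg.Agent.Lib.Helper86.CenTab Cfsg.Agent.Lib.Helper86.M24Inv2
  Cfsg.Agent.Lib.Helper3.M24Blk Cfsg.Agent.Lib.Helper3.M24InvD Cfsg.Agent.Lib.Helper3.M24BlkStmt

/-- `gB` as an element of the group. -/
noncomputable def gBM : G24 := ⟨gB, gB_mem⟩

theorem zp_fix0 : Cfsg.Agent.Lib.Helper93.Cent2A.zp (pt 0) = pt 0 := by
  rw [Cfsg.Agent.Lib.Helper93.Cent2A.zp_fix_iff, Cfsg.Agent.Lib.Helper27.Bits.mem_setOf]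
  decide

/-- The number of conjugates is the order of the group divided by that of the centraliser. -/
theorem orbit_card_le (x : G24) (c : ℕ) (hc : 0 < c)
    (h : c ≤ Nat.card (Subgroup.centralizer ({x} : Set G24))) :
    (MulAction.orbit (ConjAct G24) x).ncard ≤ 244823040 / c := by
  have h1 := Subgroup.index_mul_card (MulAction.stabilizer (ConjAct G24) x)
  rw [MulAction.index_stabilizer, ← Subgroup.nat_card_centralizer_nat_card_stabilizer] at h1
  have h2 : Nat.card (ConjAct G24) = 244823040 := Cfsg.Agent.Lib.Helper7.M24Main.card_M24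
  rw [h2] at h1
  rw [Nat.le_div_iff_mul_le hc]
  calc (MulAction.orbit (ConjAct G24) x).ncard * c
      ≤ (MulAction.orbit (ConjAct G24) x).ncard *
          Nat.card (Subgroup.centralizer ({x} : Set G24)) := Nat.mul_le_mul_left _ h
    _ = 244823040 := h1

theorem card_cen_zM :
    21504 ≤ Nat.card (Subgroup.centralizer ({Cfsg.Agent.Lib.Helper93.Cent2A.zM} : Set G24)) := by
  have h := Cfsg.Agent.Lib.Helper93.Cent2A.card_le
  have h' : 15 * 21504 ≤
      15 * Nat.card (Subgroup.centralizer ({Cfsg.Agent.Lib.Helper93.Cent2A.zM} : Set G24)) := h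
  exact Nat.le_of_mul_le_mul_left h' (by norm_num)

theorem card_cen_gBM : 7680 ≤ Nat.card (Subgroup.centralizer ({gBM} : Set G24)) := by
  rw [← Cfsg.Agent.Lib.Helper86.CenB.card_CenB]
  apply Nat.card_le_card_of_injective
    (fun x : ↥(Cen gB) => (⟨⟨x.1, (mem_Cen.mp x.2).1⟩, by
      rw [Subgroup.mem_centralizer_singleton_iff]
      exact Subtype.ext (mem_Cen.mp x.2).2⟩ : ↥(Subgroup.centralizer ({gBM} : Set G24))))
  intro x y hxy
  apply Subtype.ext
  exact congrArg (fun z : ↥(Subgroup.centralizer ({gBM} : Set G24)) =>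
    ((z : G24) : Equiv.Perm GolayPt)) hxy

/-- Every element of square one is trivial or conjugate to `zM` or to `gBM`. -/
theorem sq_cases (u : G24) (hu : u * u = 1) :
    u ∈ (({1} ∪ MulAction.orbit (ConjAct G24) Cfsg.Agent.Lib.Helper93.Cent2A.zM) ∪
      MulAction.orbit (ConjAct G24) gBM : Set G24) := by
  by_cases h1 : u = 1
  · left; left; exact h1
  have hu' : (u : Equiv.Perm GolayPt) * u = 1 := congrArg Subtype.val hu
  have h1' : (u : Equiv.Perm GolayPt) ≠ 1 := fun h => h1 (Subtype.ext h)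
  obtain ⟨k, hk, h | h⟩ := inv_cases u.2 (orderOf_two hu' h1')
  · obtain ⟨k', hk', h' | h'⟩ := inv_cases Cfsg.Agent.Lib.Helper93.Cent2A.zp_mem
      (orderOf_two Cfsg.Agent.Lib.Helper93.Cent2A.zp_sq Cfsg.Agent.Lib.Helper93.Cent2A.zp_ne_one)
    · left; right
      rw [ConjAct.mem_orbit_conjAct, isConj_iff]
      exact ⟨⟨k'⁻¹ * k, M24.mul_mem (M24.inv_mem hk') hk⟩, Subtype.ext (conj_of_conj h h')⟩
    · exact absurd zp_fix0 (fpf_of_conj_gB h' (pt 0))
  · right
    rw [ConjAct.mem_orbit_conjAct, isConj_iff]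
    exact ⟨⟨k, hk⟩, Subtype.ext h⟩

theorem main : LSoundStmt → (LL.Nodup ∧ LL.length = 43264) → LCompleteStmt := by
  intro hS hN u hu
  classical
  obtain ⟨A, hAdef⟩ : ∃ A : Set G24, A = {u | u * u = 1} := ⟨_, rfl⟩
  obtain ⟨I, hIdef⟩ : ∃ I : Set G24,
      I = {u : G24 | u * u = 1 ∧ pkP (u : Equiv.Perm GolayPt) ∈ LL} := ⟨_, rfl⟩
  have hIA : I ⊆ A := by
    intro v hv
    rw [hIdef] at hv
    rw [hAdef]
    exact hv.1
  have hA : A.ncard ≤ 43264 := by
    have hsub : A ⊆ (({1} ∪ MulAction.orbit (ConjAct G24) Cfsg.Agent.Lib.Helper93.Cent2A.zM) ∪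
        MulAction.orbit (ConjAct G24) gBM : Set G24) := by
      intro v hv
      rw [hAdef] at hv
      exact sq_cases v hv
    have b1 := orbit_card_le Cfsg.Agent.Lib.Helper93.Cent2A.zM 21504 (by norm_num) card_cen_zM
    have b2 := orbit_card_le gBM 7680 (by norm_num) card_cen_gBM
    have c1 := Set.ncard_le_ncard hsub (Set.toFinite _)
    have c2 := Set.ncard_union_le
      ({1} ∪ MulAction.orbit (ConjAct G24) Cfsg.Agent.Lib.Helper93.Cent2A.zM : Set G24)
      (MulAction.orbit (ConjAct G24) gBM)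
    have c3 := Set.ncard_union_le ({1} : Set G24)
      (MulAction.orbit (ConjAct G24) Cfsg.Agent.Lib.Helper93.Cent2A.zM)
    rw [Set.ncard_singleton] at c3
    omega
  have hI : 43264 ≤ I.ncard := by
    choose f hf using (fun U : {U // U ∈ LL} => hS U.1 U.2)
    have hfI : ∀ U, f U ∈ I := by
      intro U
      rw [hIdef]
      exact ⟨(hf U).1, by rw [(hf U).2]; exact U.2⟩
    have hinj : Function.Injective (fun U => (⟨f U, hfI U⟩ : I)) := by
      intro U V h
      have h' : f U = f V := congrArg Subtype.val h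
      apply Subtype.ext
      rw [← (hf U).2, ← (hf V).2, h']
    have h3 := Nat.card_le_card_of_injective _ hinj
    rw [card_mem_list LL hN.1, hN.2, Nat.card_coe_set_eq] at h3
    exact h3
  have hEq : I = A := Set.eq_of_subset_of_ncard_le hIA (hA.trans hI) (Set.toFinite _)
  have hu' : u ∈ I := by
    rw [hEq, hAdef]
    exact hu
  rw [hIdef] at hu'
  exact hu'.2

end Cfsg.Agent.Lib.Helper86.M24BlkLCOMPLETE
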