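import Cfsg.Agent.Lib.Helper86.Nor7Data
import Cfsg.Prelude.Def_SporadicCombinatorics

set_option autoImplicit false

/-!
# The normaliser in `M24` of a subgroup of order 7

For the element `sg` of order 7: its normaliser in `M24` has order 126, its centraliser has
order 42 and is not abelian, and the normaliser preserves the trio `T0` of the three octads
invariant under `sg`.
-/

namespace Cfsg.Agent.Lib.Helper86.Nor7

open Cfsg Cfsg.Agent.Lib.Helper7.GolayBase Cfsg.Agent.Lib.Helper7.GolayCode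
  Cfsg.Agent.Lib.Helper7.GolayRigid Cfsg.Agent.Lib.Helper7.GolayPerm
  Cfsg.Agent.Lib.Helper7.ChainGen Cfsg.Agent.Lib.Helper86.TabGrp
  Cfsg.Agent.Lib.Helper86.TabMathieu Cfsg.Agent.Lib.Helper86.ChainEnum
  Cfsg.Agent.Lib.Helper86.CenTab Cfsg.Agent.Lib.Helper86.NormTab
  Cfsg.Agent.Lib.Helper86.M24Inv2 Cfsg.Agent.Lib.Helper86.Nor7Data
open scoped Pointwise

theorem Cen_le_Nor : Cen sg ≤ Nor sg := by
  intro g hg
  have h := mem_Cen.mp hg
  refine ⟨h.1, mem_normalizer_zpowers.mpr ?_⟩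
  have : g * sg * g⁻¹ = sg := by rw [h.2]; group
  rw [this]
  exact Subgroup.mem_zpowers sg

theorem card_zpowers : Nat.card (Subgroup.zpowers sg) = 7 := by rw [hEs.card]; rfl

/-! ### Preserved sets -/

theorem hP0 : ∀ g ∈ Nor sg ⊓ FixL [], ∀ c ∈ [786464], Pres g c := by
  intro g hg c hc
  rw [List.mem_singleton] at hc
  subst hc
  rw [← fixMask_sT]
  exact pres_fix_norm rep_sg hg.1.2

theorem hP1 : ∀ g ∈ Nor sg ⊓ FixL [5], ∀ c ∈ [786464, 32], Pres g c := by
  intro g hg c hc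
  simp only [List.mem_cons, List.not_mem_nil, or_false] at hc
  rcases hc with rfl | rfl
  · rw [← fixMask_sT]; exact pres_fix_norm rep_sg hg.1.2
  · exact pres_single (i := 5) (by decide) (hg.2 5 (by simp))

theorem hP2 : ∀ g ∈ Nor sg ⊓ FixL [18, 5], ∀ c ∈ [786464, 32, 262144], Pres g c := by
  intro g hg c hc
  simp only [List.mem_cons, List.not_mem_nil, or_false] at hc
  rcases hc with rfl | rfl | rfl
  · rw [← fixMask_sT]; exact pres_fix_norm rep_sg hg.1.2
  · exact pres_single (i := 5) (by decide) (hg.2 5 (by simp))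
  · exact pres_single (i := 18) (by decide) (hg.2 18 (by simp))

theorem hP3 : ∀ g ∈ Nor sg ⊓ FixL [19, 18, 5], ∀ c ∈ [786464, 32, 262144, atom Om 5],
    Pres g c := by
  intro g hg c hc
  simp only [List.mem_cons, List.not_mem_nil, or_false] at hc
  rcases hc with rfl | rfl | rfl | rfl
  · rw [← fixMask_sT]; exact pres_fix_norm rep_sg hg.1.2
  · exact pres_single (i := 5) (by decide) (hg.2 5 (by simp))
  · exact pres_single (i := 18) (by decide) (hg.2 18 (by simp))
  · obtain ⟨h1, h2⟩ := closed_Nor rep_sg_inv Om_ok hg.1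
    exact pres_atom h1 h2 (by decide) (hg.2 5 (by simp))

theorem hPc {F : List Nat} {P : List Nat} (h : ∀ g ∈ Nor sg ⊓ FixL F, ∀ c ∈ P, Pres g c) :
    ∀ g ∈ Cen sg ⊓ FixL F, ∀ c ∈ P, Pres g c :=
  fun g hg => h g ⟨Cen_le_Nor hg.1, hg.2⟩

/-! ### Orders -/

theorem stabN : Nat.card ↥(Nor sg ⊓ FixL [4, 19, 18, 5]) = 3 := by
  have e : Nor sg ⊓ FixL [4, 19, 18, 5] =
      Subgroup.normalizer (Subgroup.zpowers sg : Set (Equiv.Perm GolayPt)) ⊓ (M24 ⊓ FixL F4) := by
    unfold Nor F4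
    rw [inf_comm M24, inf_assoc]
  rw [e, card_filter_inf hE4 (normT sT L7), count4n]
  intro g _
  exact normT_iff rep_sg hEs (rep_tabOf g)

theorem stabC : Nat.card ↥(Cen sg ⊓ FixL [4, 19, 18, 5]) = 1 := by
  have e : Cen sg ⊓ FixL [4, 19, 18, 5] =
      Subgroup.centralizer {sg} ⊓ (M24 ⊓ FixL F4) := by
    unfold Cen F4
    rw [inf_comm M24, inf_assoc]
  rw [e, card_filter_inf hE4 (commT sT), count4c]
  intro g _
  rw [Subgroup.mem_centralizer_iff]
  simp only [Set.mem_singleton_iff, forall_eq]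
  rw [← commT_iff rep_sg (rep_tabOf g)]
  exact eq_comm

/-- The normaliser has order 126. -/
theorem card_Nor : Nat.card ↥(Nor sg) = 126 := by
  have e0 := card_level hW0n hP0 lvl0n
  have e1 := card_level hW1n hP1 lvl1n
  have e2 := card_level hWin hP2 lvl2
  have e3 := card_level hW2n hP3 lvl3
  rw [stabN] at e3
  rw [e3] at e2
  rw [e2] at e1
  rw [e1] at e0
  have h2 : Nor sg ⊓ FixL [] = Nor sg := by rw [FixL_nil, inf_top_eq]
  rw [h2] at e0
  rw [e0]
  rfl

/-- The centraliser has order 42. -/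
theorem card_Cen : Nat.card ↥(Cen sg) = 42 := by
  have e0 := card_level hW0c (hPc hP0) lvl0c
  have e1 := card_level hW1c (hPc hP1) lvl1c
  have e2 := card_level hWic (hPc hP2) lvl2
  have e3 := card_level hW2c (hPc hP3) lvl3
  rw [stabC] at e3
  rw [e3] at e2
  rw [e2] at e1
  rw [e1] at e0
  have h2 : Cen sg ⊓ FixL [] = Cen sg := by rw [FixL_nil, inf_top_eq]
  rw [h2] at e0
  rw [e0]
  rfl

/-- The centraliser is not abelian. -/
theorem noncomm : ∃ x ∈ Cen sg, ∃ y ∈ Cen sg, x * y ≠ y * x := by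
  obtain ⟨x, hx, hrx⟩ := xy_mem xT (by simp)
  obtain ⟨y, hy, hry⟩ := xy_mem yT (by simp)
  refine ⟨x, hx, y, hy, ?_⟩
  intro h
  have h1 := hrx.mul hry
  have h2 := hry.mul hrx
  rw [h] at h1
  exact xy_ne (rep_unique h1 h2)

/-! ### The trio -/

/-- The trio of the three invariant octads. -/
def T0 : Finset (Finset GolayPt) := (Om.map mk).toFinset

theorem mem_T0 {s : Finset GolayPt} : s ∈ T0 ↔ ∃ m ∈ Om, mk m = s := by
  simp [T0]

theorem Om_spec {o : Nat} (ho : o ∈ Om) : o ∈ octadList ∧ o < 2 ^ 24 ∧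
    ∀ o' ∈ Om, o = o' ∨ o &&& o' = 0 := by
  have h1 := Om_ok
  simp only [invOctsOK, Bool.and_eq_true, List.all_eq_true, beq_iff_eq] at h1
  have h2 := List.all_eq_true.mp trio_ok o ho
  simp only [Bool.and_eq_true, decide_eq_true_eq, List.all_eq_true, Bool.or_eq_true,
    beq_iff_eq] at h2
  exact ⟨mem_octadList.mpr ⟨inCode_sound (h1.1 o ho).1.1, (h1.1 o ho).1.2⟩, h2.1, h2.2⟩

theorem card_T0 : T0.card = 3 := by
  unfold T0
  rw [List.toFinset_card_of_nodup]
  · rfl
  · apply List.Nodup.map_on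
    · intro x hx y hy hxy
      exact mk_injOn (Om_spec hx).2.1 (Om_spec hy).2.1 hxy
    · decide

theorem T0_mem : T0 ∈ trios := by
  refine ⟨card_T0, ?_, ?_⟩
  · intro o ho
    obtain ⟨m, hm, rfl⟩ := mem_T0.mp ho
    exact (mem_octads_iff _).mpr ⟨m, (Om_spec hm).1, rfl⟩
  · intro o ho o' ho' hne
    obtain ⟨m, hm, rfl⟩ := mem_T0.mp ho
    obtain ⟨m', hm', rfl⟩ := mem_T0.mp ho'
    rcases (Om_spec hm).2.2 m' hm' with h | h
    · exact absurd (by rw [h]) hne
    · rw [Finset.disjoint_iff_inter_eq_empty, ← mk_and, h]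
      ext p
      rw [mem_mk]
      simp

theorem smul_T0 {n : Equiv.Perm GolayPt} (hn : n ∈ Nor sg) : n • T0 = T0 := by
  obtain ⟨h1, -⟩ := closed_Nor rep_sg_inv Om_ok hn
  apply Finset.eq_of_subset_of_card_le
  · intro s hs
    obtain ⟨s', hs', rfl⟩ := Finset.mem_smul_finset.mp hs
    obtain ⟨m, hm, rfl⟩ := mem_T0.mp hs'
    obtain ⟨o', ho', he⟩ := h1 m hm
    rw [he]
    exact mem_T0.mpr ⟨o', ho', rfl⟩
  · rw [Finset.card_smul_finset]

theorem smul_mem_trios {g : Equiv.Perm GolayPt} (hg : g ∈ M24) {T : Finset (Finset GolayPt)}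
    (hT : T ∈ trios) : g • T ∈ trios := by
  obtain ⟨h1, h2, h3⟩ := hT
  refine ⟨by rw [Finset.card_smul_finset]; exact h1, ?_, ?_⟩
  · intro o ho
    obtain ⟨o', ho', rfl⟩ := Finset.mem_smul_finset.mp ho
    exact Cfsg.Agent.Lib.Helper7.M24Octad.smul_mem_octads hg (h2 o' ho')
  · intro o ho u hu hne
    obtain ⟨o', ho', rfl⟩ := Finset.mem_smul_finset.mp ho
    obtain ⟨u', hu', rfl⟩ := Finset.mem_smul_finset.mp hu
    have hne' : o' ≠ u' := fun h => hne (by rw [h])
    have hd := h3 o' ho' u' hu' hne'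
    rw [Finset.disjoint_iff_inter_eq_empty] at hd ⊢
    rw [← Finset.smul_finset_inter, hd, Finset.smul_finset_empty]

end Cfsg.Agent.Lib.Helper86.Nor7
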