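import Cfsg.Agent.Lib.Helper86.CenTab
import Cfsg.Agent.Lib.Helper86.SmallEnum
import Cfsg.Agent.Lib.Helper86.M24Inv2

set_option autoImplicit false

/-!
# Normalisers of cyclic subgroups of `M24` by tables

`Nor σ` is the normaliser in `M24` of the cyclic group generated by `σ`.  Table test for
membership, the fixed points of `σ` and the `σ`-invariant octads are preserved by `Nor σ`.
-/

namespace Cfsg.Agent.Lib.Helper86.NormTab

open Cfsg Cfsg.Agent.Lib.Helper7.GolayBase Cfsg.Agent.Lib.Helper7.GolayCode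
  Cfsg.Agent.Lib.Helper7.M24Mem Cfsg.Agent.Lib.Helper7.GolayRigid
  Cfsg.Agent.Lib.Helper7.GolayPerm Cfsg.Agent.Lib.Helper7.ChainGen
  Cfsg.Agent.Lib.Helper86.TabGrp Cfsg.Agent.Lib.Helper86.ChainEnum
  Cfsg.Agent.Lib.Helper86.CenTab Cfsg.Agent.Lib.Helper86.M24Inv2
open scoped Pointwise

/-- Table test: `w ∘ s = u ∘ w`. -/
def intertw (s u w : List Nat) : Bool :=
  (List.range 24).all (fun i => w.getD (s.getD i 0) 0 == u.getD (w.getD i 0) 0)

theorem intertw_iff {x y g : Equiv.Perm GolayPt} {s u w : List Nat} (hx : Rep x s)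
    (hy : Rep y u) (hg : Rep g w) : g * x = y * g ↔ intertw s u w = true := by
  have key : ∀ i, i < 24 → w.getD (s.getD i 0) 0 = idx (g (x (pt i))) ∧
      u.getD (w.getD i 0) 0 = idx (y (g (pt i))) := by
    intro i hi
    have a1 := hx.2 (pt i)
    have a2 := hg.2 (pt i)
    rw [idx_pt hi] at a1 a2
    rw [a1, a2, hg.2, hy.2]
    exact ⟨rfl, rfl⟩
  simp only [intertw, List.all_eq_true, List.mem_range, beq_iff_eq]
  constructor
  · intro h i hi
    rw [(key i hi).1, (key i hi).2]
    have := congrArg (fun f : Equiv.Perm GolayPt => f (pt i)) h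
    exact congrArg idx this
  · intro h
    apply Equiv.ext
    intro p
    have := h (idx p) (idx_lt p)
    rw [(key _ (idx_lt p)).1, (key _ (idx_lt p)).2, pt_idx] at this
    exact idx_injective this

/-- The normaliser in `M24` of the cyclic group generated by `σ`. -/
def Nor (σ : Equiv.Perm GolayPt) : Subgroup (Equiv.Perm GolayPt) :=
  M24 ⊓ Subgroup.normalizer (Subgroup.zpowers σ : Set (Equiv.Perm GolayPt))

theorem mem_normalizer_zpowers {σ g : Equiv.Perm GolayPt} :
    g ∈ Subgroup.normalizer (Subgroup.zpowers σ : Set (Equiv.Perm GolayPt)) ↔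
      g * σ * g⁻¹ ∈ Subgroup.zpowers σ := by
  constructor
  · intro hg
    exact (Subgroup.mem_normalizer_iff.mp hg σ).mp (Subgroup.mem_zpowers σ)
  · intro h
    apply Subgroup.mem_normalizer_fintype
    intro n hn
    obtain ⟨k, rfl⟩ := Subgroup.mem_zpowers_iff.mp hn
    have : g * σ ^ k * g⁻¹ = (g * σ * g⁻¹) ^ k := (conj_zpow).symm
    rw [SetLike.mem_coe, this]
    exact Subgroup.zpow_mem _ h k

theorem inv_conj_mem {σ g : Equiv.Perm GolayPt}
    (hg : g ∈ Subgroup.normalizer (Subgroup.zpowers σ : Set (Equiv.Perm GolayPt))) :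
    g⁻¹ * σ * g ∈ Subgroup.zpowers σ := by
  have := mem_normalizer_zpowers.mp (Subgroup.inv_mem _ hg)
  rwa [inv_inv] at this

/-- Table test for the normaliser, given the tables of the cyclic group. -/
def normT (s : List Nat) (L : List (List Nat)) (w : List Nat) : Bool :=
  L.any (fun u => intertw s u w)

theorem normT_iff {σ g : Equiv.Perm GolayPt} {s w : List Nat} {L : List (List Nat)}
    (hσ : Rep σ s) (hE : Enum (Subgroup.zpowers σ) L) (hg : Rep g w) :
    g ∈ Subgroup.normalizer (Subgroup.zpowers σ : Set (Equiv.Perm GolayPt)) ↔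
      normT s L w = true := by
  rw [mem_normalizer_zpowers, normT, List.any_eq_true]
  constructor
  · intro h
    obtain ⟨u, hu, hru⟩ := hE.cov _ h
    refine ⟨u, hu, (intertw_iff hσ hru hg).mp ?_⟩
    group
  · rintro ⟨u, hu, hi⟩
    obtain ⟨y, hy, hry⟩ := hE.rep u hu
    have h1 := (intertw_iff hσ hry hg).mpr hi
    have : g * σ * g⁻¹ = y := by rw [h1]; group
    rw [this]
    exact hy

theorem exists_Nor {σ : Equiv.Perm GolayPt} {s : List Nat} {L : List (List Nat)}
    (hσ : Rep σ s) (hE : Enum (Subgroup.zpowers σ) L) (w : List Nat)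
    (h : (inM24' w && normT s L w) = true) : ∃ g ∈ Nor σ, Rep g w := by
  rw [Bool.and_eq_true] at h
  obtain ⟨g, hg, hr⟩ := exists_M24' w h.1
  exact ⟨g, ⟨hg, (normT_iff hσ hE hr).mpr h.2⟩, hr⟩

theorem all_Nor {σ : Equiv.Perm GolayPt} {s : List Nat} {L : List (List Nat)}
    (hσ : Rep σ s) (hE : Enum (Subgroup.zpowers σ) L) (W : List (List Nat))
    (h : W.all (fun w => inM24' w && normT s L w) = true) : ∀ w ∈ W, ∃ g ∈ Nor σ, Rep g w :=
  fun w hw => exists_Nor hσ hE w (List.all_eq_true.mp h w hw)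

/-- The group generated by the tables of `σ` and of its inverse is the cyclic group. -/
theorem grp_pair_eq {σ : Equiv.Perm GolayPt} {s s' : List Nat} (hs : Rep σ s)
    (hs' : Rep σ⁻¹ s') : grp [s, s'] = Subgroup.zpowers σ := by
  unfold grp
  apply le_antisymm
  · rw [Subgroup.closure_le]
    rintro g ⟨t, ht, hr⟩
    simp only [List.mem_cons, List.not_mem_nil, or_false] at ht
    rcases ht with rfl | rfl
    · rw [hr.ext hs]; exact Subgroup.mem_zpowers σ
    · rw [hr.ext hs']; exact Subgroup.inv_mem _ (Subgroup.mem_zpowers σ)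
  · rw [Subgroup.zpowers_le]
    exact Subgroup.subset_closure ⟨s, by simp, hs⟩

/-! ### Preserved sets -/

theorem fix_of_norm {σ g : Equiv.Perm GolayPt}
    (hg : g ∈ Subgroup.normalizer (Subgroup.zpowers σ : Set (Equiv.Perm GolayPt)))
    {p : GolayPt} (hp : σ p = p) : σ (g p) = g p := by
  obtain ⟨k, hk⟩ := Subgroup.mem_zpowers_iff.mp (inv_conj_mem hg)
  have h1 : (σ ^ k) p = p := Equiv.Perm.zpow_apply_eq_self_of_apply_eq_self hp k
  rw [hk] at h1
  have h2 : g⁻¹ (σ (g p)) = p := h1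
  have h3 := congrArg (fun q => g q) h2
  simpa using h3

/-- The set of fixed points of `σ` is preserved by the normaliser. -/
theorem pres_fix_norm {σ g : Equiv.Perm GolayPt} {s : List Nat} (hσ : Rep σ s)
    (hg : g ∈ Subgroup.normalizer (Subgroup.zpowers σ : Set (Equiv.Perm GolayPt))) :
    Pres g (fixMask s) := by
  intro p
  rw [Bool.eq_iff_iff, ← mem_mk, ← mem_mk, ← fixedPts_eq_mk hσ, mem_fixedPts, mem_fixedPts]
  constructor
  · intro h
    have := fix_of_norm (Subgroup.inv_mem _ hg) h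
    simpa using this
  · exact fix_of_norm hg

theorem closed_of_norm {σ g : Equiv.Perm GolayPt} {s' : List Nat} {Ω : List Nat}
    (hσ' : Rep σ⁻¹ s') (h : invOctsOK s' Ω = true) (hg : g ∈ M24)
    (hn : g ∈ Subgroup.normalizer (Subgroup.zpowers σ : Set (Equiv.Perm GolayPt))) :
    Closed g Ω := by
  simp only [invOctsOK, Bool.and_eq_true, List.all_eq_true, beq_iff_eq, Bool.or_eq_true,
    bne_iff_ne, ne_eq, List.contains_iff_mem] at h
  obtain ⟨h1, h2⟩ := h
  intro o ho
  obtain ⟨⟨hcode, hpop⟩, hinv⟩ := h1 o ho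
  have hoL : o ∈ octadList := mem_octadList.mpr ⟨inCode_sound hcode, hpop⟩
  have hoct : g • mk o ∈ octads :=
    Cfsg.Agent.Lib.Helper7.M24Octad.smul_mem_octads hg ((mem_octads_iff _).mpr ⟨o, hoL, rfl⟩)
  obtain ⟨o', ho', he⟩ := (mem_octads_iff _).mp hoct
  refine ⟨o', ?_, he.symm⟩
  have hσo : σ • mk o = mk o := by rw [← mk_permMask hσ', hinv]
  have hstab : Subgroup.zpowers σ ≤ MulAction.stabilizer (Equiv.Perm GolayPt) (mk o) := by
    rw [Subgroup.zpowers_le]
    exact MulAction.mem_stabilizer_iff.mpr hσo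
  have h3 : (g⁻¹ * σ * g) • mk o = mk o :=
    MulAction.mem_stabilizer_iff.mp (hstab (inv_conj_mem hn))
  have hσo' : σ • mk o' = mk o' := by
    rw [he, smul_smul]
    have e : σ * g = g * (g⁻¹ * σ * g) := by group
    rw [e, ← smul_smul, h3]
  have hpm : permMask s' o' = o' := by
    apply mk_injOn (permMask_lt _ _) (codeList_lt o' (mem_octadList.mp ho').1)
    rw [mk_permMask hσ', hσo']
  rcases h2 o' ho' with h4 | h4
  · exact absurd hpm h4
  · exact h4

theorem closed_Nor {σ g : Equiv.Perm GolayPt} {s' : List Nat} {Ω : List Nat}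
    (hσ' : Rep σ⁻¹ s') (h : invOctsOK s' Ω = true) (hg : g ∈ Nor σ) :
    Closed g Ω ∧ Closed g⁻¹ Ω := by
  have h2 := (Nor σ).inv_mem hg
  exact ⟨closed_of_norm hσ' h hg.1 hg.2, closed_of_norm hσ' h h2.1 h2.2⟩

end Cfsg.Agent.Lib.Helper86.NormTab
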