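import Cfsg.Agent.Lib.Helper46.PsuStmt

/-!
# Piece DB of S5172: a diagonal matrix of `SL_n(K)` normalizes the unitriangular group and has
order dividing `|K| - 1`
-/

set_option autoImplicit false

namespace Cfsg.Agent.Lib.Helper86.PsuDB

open Matrix Cfsg.Agent.H84.PslDefs Cfsg.Agent.Lib.Helper46.PsuDefs

universe u

theorem main : Cfsg.Agent.Lib.Helper46.PsuStmt.DiagBasic.{u} := by
  intro n K _ _ t ht
  classical
  -- the matrix of `t` is diagonal
  have htd : (t : Matrix (Fin n) (Fin n) K) = Matrix.diagonal (fun i => t i i) := by
    ext i j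
    by_cases h : i = j
    · subst h
      rw [Matrix.diagonal_apply_eq]
    · rw [Matrix.diagonal_apply_ne _ h]
      exact ht i j h
  have hdet : ∏ i, t i i = 1 := by
    have h := t.2
    rw [htd, Matrix.det_diagonal] at h
    exact h
  have hne : ∀ i, t i i ≠ 0 := by
    intro i h
    have h0 : ∏ j, t j j = 0 := Finset.prod_eq_zero (Finset.mem_univ i) h
    rw [hdet] at h0
    exact one_ne_zero h0
  constructor
  · intro u hu
    rw [mem_Uni] at hu ⊢
    have hmul := congrArg (fun g : Matrix.SpecialLinearGroup (Fin n) K =>
      (g : Matrix (Fin n) (Fin n) K)) (inv_mul_cancel_right (t * u) t)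
    simp only [Matrix.SpecialLinearGroup.coe_mul] at hmul
    have hr : ∀ (W : Matrix (Fin n) (Fin n) K) (i j : Fin n),
        (W * (t : Matrix (Fin n) (Fin n) K)) i j = W i j * t j j := by
      intro W i j
      rw [Matrix.mul_apply]
      exact Finset.sum_eq_single j (fun k _ hk => by rw [ht k j hk, mul_zero])
        (fun h => absurd (Finset.mem_univ j) h)
    have hl : ∀ (W : Matrix (Fin n) (Fin n) K) (i j : Fin n),
        ((t : Matrix (Fin n) (Fin n) K) * W) i j = t i i * W i j := by
      intro W i j
      rw [Matrix.mul_apply]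
      exact Finset.sum_eq_single i (fun k _ hk => by rw [ht i k (Ne.symm hk), zero_mul])
        (fun h => absurd (Finset.mem_univ i) h)
    have hent : ∀ i j : Fin n, (t * u * t⁻¹ : Matrix.SpecialLinearGroup (Fin n) K) i j * t j j =
        t i i * u i j := by
      intro i j
      have h := congrFun (congrFun hmul i) j
      rw [hr, hl] at h
      exact h
    constructor
    · intro i j hji
      have h := hent i j
      rw [hu.1 i j hji, mul_zero] at h
      exact (mul_eq_zero.1 h).resolve_right (hne j)
    · intro i
      have h := hent i i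
      rw [hu.2 i, mul_one] at h
      exact mul_right_cancel₀ (hne i) (by rw [h, one_mul])
  · have hpow := Matrix.SpecialLinearGroup.coe_pow t (Fintype.card K - 1)
    rw [htd, Matrix.diagonal_pow] at hpow
    have h1 : (fun i => t i i) ^ (Fintype.card K - 1) = (1 : Fin n → K) := by
      funext i
      exact FiniteField.pow_card_sub_one_eq_one _ (hne i)
    rw [h1] at hpow
    have h2 : Matrix.diagonal (1 : Fin n → K) = 1 := Matrix.diagonal_one
    rw [h2] at hpow
    exact Subtype.ext hpow

end Cfsg.Agent.Lib.Helper86.PsuDB
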