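import Mathlib
import Cfsg.Agent.Lib.Helper46.PsuStmt

set_option autoImplicit false

/-!
# Piece LIT of S5172: long root elements lie in `T`
-/

namespace Cfsg.Agent.Lib.Helper86.PsuLIT

open Matrix Cfsg.Agent.Lib.Helper43.SUBase Cfsg.Agent.H84.PslDefs
  Cfsg.Agent.Lib.Helper46.PsuDefs Cfsg.Agent.Lib.Helper46.PsuStmt

universe u

variable {K : Type u} [Field K] {q : ℕ} (D : QD K q) {n : ℕ}

/-- permutation matrix -/
def PM (K : Type u) [Field K] {n : ℕ} (σ : Equiv.Perm (Fin n)) : Matrix (Fin n) (Fin n) K :=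
  Matrix.of fun k l => if σ k = l then 1 else 0

theorem PM_apply (σ : Equiv.Perm (Fin n)) (k l : Fin n) :
    PM K σ k l = if σ k = l then 1 else 0 := rfl

theorem PM_mul_apply (σ : Equiv.Perm (Fin n)) (M : Matrix (Fin n) (Fin n) K) (k l : Fin n) :
    (PM K σ * M) k l = M (σ k) l := by
  rw [Matrix.mul_apply]
  simp only [PM_apply, ite_mul, one_mul, zero_mul]
  rw [Finset.sum_ite_eq]
  simp

theorem mul_PM_apply (σ : Equiv.Perm (Fin n)) (M : Matrix (Fin n) (Fin n) K) (k l : Fin n) :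
    (M * PM K σ) k l = M k (σ.symm l) := by
  rw [Matrix.mul_apply]
  simp only [PM_apply, mul_ite, mul_one, mul_zero]
  have h : ∀ p, (σ p = l) ↔ (σ.symm l = p) := fun p => by
    constructor
    · intro h; rw [← h]; simp
    · intro h; rw [← h]; simp
  simp only [h]
  rw [Finset.sum_ite_eq]
  simp

theorem det_PM (σ : Equiv.Perm (Fin n)) (hσ : Equiv.Perm.sign σ = 1) : (PM K σ).det = 1 := by
  have h : PM K σ = σ.permMatrix K := by
    ext k l
    rw [PM_apply, Equiv.Perm.permMatrix, PEquiv.toMatrix_apply]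
    simp
  rw [h, Matrix.det_permutation, hσ]
  simp

theorem adjJ_PM (σ : Equiv.Perm (Fin n)) (hσ : ∀ k, σ (Fin.rev k) = Fin.rev (σ k)) :
    adjJ D n (PM K σ) = PM K σ.symm := by
  ext k l
  rw [adjJ_apply, PM_apply, PM_apply, hσ]
  simp only [Fin.rev_inj]
  by_cases h : σ l = k
  · rw [if_pos h, if_pos (by rw [← h]; simp), map_one]
  · rw [if_neg h, if_neg (fun h' => h (by rw [← h']; simp)), map_zero]

theorem PM_symm_mul_PM (σ : Equiv.Perm (Fin n)) : PM K σ.symm * PM K σ = 1 := by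
  ext k l
  rw [PM_mul_apply, PM_apply, Matrix.one_apply]
  simp

/-- the permutation matrix of an even permutation commuting with `rev` lies in `GJ` -/
theorem exists_w (σ : Equiv.Perm (Fin n)) (hs : Equiv.Perm.sign σ = 1)
    (hσ : ∀ k, σ (Fin.rev k) = Fin.rev (σ k)) :
    ∃ w ∈ GJ D n, (w : Matrix (Fin n) (Fin n) K) = PM K σ := by
  have hJ : adjJ D n (PM K σ) * PM K σ = 1 := by
    rw [adjJ_PM D σ hσ, PM_symm_mul_PM]
  exact ⟨⟨PM K σ, det_PM σ hs⟩, (mem_GJ D n ⟨PM K σ, det_PM σ hs⟩).2 hJ, rfl⟩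

theorem sig_rev (z0 i : Fin n) (h1 : z0 ≠ i) (h2 : z0 ≠ Fin.rev z0) (h3 : z0 ≠ Fin.rev i)
    (h4 : i ≠ Fin.rev z0) (h5 : i ≠ Fin.rev i) (k : Fin n) :
    (Equiv.swap z0 i * Equiv.swap (Fin.rev z0) (Fin.rev i)) (Fin.rev k) =
      Fin.rev ((Equiv.swap z0 i * Equiv.swap (Fin.rev z0) (Fin.rev i)) k) := by
  simp only [Equiv.Perm.mul_apply, Equiv.swap_apply_def, Fin.rev_inj]
  grind

theorem conj_apply (σ : Equiv.Perm (Fin n)) (a b : Fin n) (c : K) (k l : Fin n) :
    (PM K σ * (1 + Matrix.single (σ a) (σ b) c) * PM K σ.symm) k l =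
      (if k = l then 1 else 0) + (if a = k ∧ b = l then c else 0) := by
  rw [mul_PM_apply, PM_mul_apply, Equiv.symm_symm, Matrix.add_apply, Matrix.one_apply,
    Matrix.single_apply]
  simp

theorem main : LongInT.{u} := by
  intro n K _ _ q D hn T hTU hcl hCorner g hg hlong
  obtain ⟨i, c, hi, hgm⟩ := hlong
  have hiv : i.val < n - (i.val + 1) := by
    have h := hi
    rw [Fin.lt_def, Fin.val_rev] at h
    exact h
  by_cases hi0 : i.val = 0
  · apply hCorner g hg
    intro k l hkl hnot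
    rw [hgm, longM, Matrix.add_apply, Matrix.one_apply_ne hkl, zero_add, Matrix.single_apply,
      if_neg]
    rintro ⟨rfl, rfl⟩
    apply hnot
    refine ⟨hi0, ?_⟩
    rw [Fin.val_rev]
    omega
  · have hz0 : ∃ z0 : Fin n, z0.val = 0 := ⟨⟨0, by omega⟩, rfl⟩
    obtain ⟨z0, hz0⟩ := hz0
    have hrz : (Fin.rev z0).val = n - 1 := by rw [Fin.val_rev, hz0]
    have hri : (Fin.rev i).val = n - (i.val + 1) := Fin.val_rev i
    have h1 : z0 ≠ i := fun h => hi0 (by rw [← h]; exact hz0)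
    have h2 : z0 ≠ Fin.rev z0 := by
      intro h
      have h' := congrArg Fin.val h
      omega
    have h3 : z0 ≠ Fin.rev i := by
      intro h
      have h' := congrArg Fin.val h
      omega
    have h4 : i ≠ Fin.rev z0 := by
      intro h
      have h' := congrArg Fin.val h
      omega
    have h5 : i ≠ Fin.rev i := ne_of_lt hi
    obtain ⟨σ, hσdef⟩ : ∃ σ : Equiv.Perm (Fin n),
        σ = Equiv.swap z0 i * Equiv.swap (Fin.rev z0) (Fin.rev i) := ⟨_, rfl⟩
    have hσr : ∀ k, σ (Fin.rev k) = Fin.rev (σ k) := by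
      rw [hσdef]
      exact sig_rev z0 i h1 h2 h3 h4 h5
    have hs : Equiv.Perm.sign σ = 1 := by
      rw [hσdef, Equiv.Perm.sign_mul, Equiv.Perm.sign_swap h1,
        Equiv.Perm.sign_swap (fun h => h1 (Fin.rev_injective h))]
      rfl
    have hσ0 : σ z0 = i := by
      rw [hσdef, Equiv.Perm.mul_apply, Equiv.swap_apply_of_ne_of_ne h2 h3, Equiv.swap_apply_left]
    have hσ1 : σ (Fin.rev z0) = Fin.rev i := by rw [hσr, hσ0]
    have hG : (g : Matrix (Fin n) (Fin n) K) = 1 + Matrix.single (σ z0) (σ (Fin.rev z0)) c := by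
      rw [hgm, longM, hσ0, hσ1]
    obtain ⟨w, hw, hwm⟩ := exists_w D σ hs hσr
    have hzm : ∀ k l : Fin n, (w * g * w⁻¹) k l =
        (if k = l then 1 else 0) + (if z0 = k ∧ Fin.rev z0 = l then c else 0) := by
      intro k l
      rw [Matrix.SpecialLinearGroup.coe_mul, Matrix.SpecialLinearGroup.coe_mul,
        coe_inv_of_mem D n hw, hwm, adjJ_PM D σ hσr, hG, conj_apply]
    have hzG : w * g * w⁻¹ ∈ GJ D n :=
      (GJ D n).mul_mem ((GJ D n).mul_mem hw (UJ_le_GJ D n hg)) ((GJ D n).inv_mem hw)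
    have hzU : w * g * w⁻¹ ∈ UJ D n := by
      rw [mem_UJ]
      refine ⟨hzG, ?_, ?_⟩
      · intro k l hlk
        rw [hzm, if_neg (ne_of_gt hlk), if_neg, add_zero]
        rintro ⟨rfl, rfl⟩
        rw [Fin.lt_def] at hlk
        omega
      · intro k
        rw [hzm, if_pos rfl, if_neg, add_zero]
        rintro ⟨rfl, h⟩
        exact h2 h.symm
    have hzC : Corner n (w * g * w⁻¹) := by
      intro k l hkl hnot
      rw [hzm, if_neg hkl, if_neg, add_zero]
      rintro ⟨rfl, rfl⟩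
      apply hnot
      refine ⟨hz0, ?_⟩
      omega
    have hzT := hCorner _ hzU hzC
    have hfin := hcl _ hzT w⁻¹ ((GJ D n).inv_mem hw) (by simpa [mul_assoc] using hg)
    simpa [mul_assoc] using hfin

end Cfsg.Agent.Lib.Helper86.PsuLIT

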