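import Mathlib
import Cfsg.Agent.Lib.Helper46.PsuStmt
import Cfsg.Agent.Lib.Helper46.PsuROOTS

set_option autoImplicit false

/-!
# Piece STT of S5172: short root elements of the top right block lie in `T`
-/

namespace Cfsg.Agent.Lib.Helper86.PsuSTT

open Matrix Cfsg.Agent.Lib.Helper43.SUBase Cfsg.Agent.H84.PslDefs
  Cfsg.Agent.Lib.Helper46.PsuDefs Cfsg.Agent.Lib.Helper46.PsuStmt

universe u

variable {K : Type u} [Field K] {q : ℕ} (D : QD K q) {n : ℕ}

/-- the matrix identity `G * P2 * L' * U = U * L'` -/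
theorem key (i j : Fin n) (b c : K) (hc : D.φ c = -c)
    (h1 : j ≠ i) (h2 : j ≠ Fin.rev j) (h3 : Fin.rev i ≠ i) (h4 : Fin.rev i ≠ Fin.rev j)
    (h5 : Fin.rev i ≠ j) (h6 : Fin.rev j ≠ i) (h7 : Fin.rev j ≠ j) :
    shortM D n i j (b * c) * longM n i (b * c * D.φ b) * longM n (Fin.rev j) c *
      shortM D n i (Fin.rev j) b = shortM D n i (Fin.rev j) b * longM n (Fin.rev j) c := by
  simp only [shortM, longM, Fin.rev_rev, map_mul, hc]
  simp only [Matrix.add_mul, Matrix.sub_mul, Matrix.mul_add, Matrix.mul_sub, Matrix.one_mul,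
    Matrix.mul_one, Matrix.single_mul_single_same,
    Matrix.single_mul_single_of_ne _ _ _ _ h1, Matrix.single_mul_single_of_ne _ _ _ _ h2,
    Matrix.single_mul_single_of_ne _ _ _ _ h3, Matrix.single_mul_single_of_ne _ _ _ _ h4,
    Matrix.single_mul_single_of_ne _ _ _ _ h5, Matrix.single_mul_single_of_ne _ _ _ _ h6,
    Matrix.single_mul_single_of_ne _ _ _ _ h7, Matrix.zero_mul, Matrix.mul_zero, add_zero,
    sub_zero, zero_add]
  have e : D.φ b * -c = -(c * D.φ b) := by ring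
  rw [e, ← Matrix.single_neg]
  abel

theorem main : ShortTopInT.{u} := by
  intro n K _ _ q D hn T hTU hcl hLong g hg hex
  obtain ⟨i, j, a, hij, hj, hjn, hga⟩ := hex
  obtain ⟨c, hc0, hc⟩ := D.exists_skew
  have hi' : i < Fin.rev j := by
    have h := Fin.rev_lt_rev.2 hj
    rwa [Fin.rev_rev] at h
  have hrr : Fin.rev j < Fin.rev i := Fin.rev_lt_rev.2 hij
  have hjr : Fin.rev j < j := by
    rw [Fin.lt_def, Fin.val_rev]
    have := j.isLt
    omega
  have hab : a = a / c * c := by field_simp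
  obtain ⟨u, hu, hum⟩ := Cfsg.Agent.Lib.Helper46.PsuROOTS.short_exists D i (Fin.rev j) (a / c)
    hi' hrr (by rw [Fin.rev_rev]; exact ne_of_lt hjr)
  obtain ⟨l, hl, hlm⟩ := Cfsg.Agent.Lib.Helper46.PsuROOTS.long_exists D (Fin.rev j) c
    (by rw [Fin.rev_rev]; exact hjr) hc
  obtain ⟨p, hp, hpm⟩ := Cfsg.Agent.Lib.Helper46.PsuROOTS.long_exists D i
    (a / c * c * D.φ (a / c)) (lt_trans hij hj)
    (by rw [map_mul, map_mul, hc, D.inv]; ring)
  have hlT : l ∈ T := hLong l hl ⟨Fin.rev j, c, by rw [Fin.rev_rev]; exact hjr, hlm⟩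
  have hpT : p ∈ T := hLong p hp ⟨i, _, lt_trans hij hj, hpm⟩
  have hkey : g * p * l * u = u * l := by
    apply Subtype.ext
    simp only [Matrix.SpecialLinearGroup.coe_mul]
    rw [hga, hpm, hlm, hum]
    have hk := key D i j (a / c) c hc (ne_of_gt hij) (ne_of_gt hjr) (ne_of_gt (lt_trans hij hj))
      (ne_of_gt hrr) (ne_of_gt hj) (ne_of_gt hi') (ne_of_lt hjr)
    rw [← hab] at hk
    rw [← hab]
    exact hk
  have hg' : g = u * l * u⁻¹ * l⁻¹ * p⁻¹ := by
    rw [← hkey]; group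
  have h1 : u * l * u⁻¹ ∈ T :=
    hcl l hlT u (UJ_le_GJ D n hu)
      ((UJ D n).mul_mem ((UJ D n).mul_mem hu hl) ((UJ D n).inv_mem hu))
  rw [hg']
  exact T.mul_mem (T.mul_mem h1 (T.inv_mem hlT)) (T.inv_mem hpT)

end Cfsg.Agent.Lib.Helper86.PsuSTT

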