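import Cfsg.Agent.Lib.Helper46.PsuStmt

/-!
# Piece SYL of S5172: a `p`-subgroup whose normalizer has `p'`-exponent modulo it is a Sylow
`p`-subgroup
-/

set_option autoImplicit false

namespace Cfsg.Agent.Lib.Helper86.PsuSYL

universe u

theorem main : Cfsg.Agent.Lib.Helper46.PsuStmt.SylowOfNormPow.{u} := by
  intro G _ _ p hp H m hH hpm hN
  obtain ⟨P, hHP⟩ := hH.exists_le_sylow
  refine ⟨P, ?_⟩
  by_contra hne
  have hnil : Group.IsNilpotent ↥(P : Subgroup G) := P.isPGroup'.isNilpotent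
  have hnc := Group.normalizerCondition_of_isNilpotent (G := ↥(P : Subgroup G))
  have hsub : H.subgroupOf (P : Subgroup G) < ⊤ := by
    rw [lt_top_iff_ne_top]
    intro h
    rw [Subgroup.subgroupOf_eq_top] at h
    exact hne (le_antisymm h hHP)
  obtain ⟨x, hxN, hxH⟩ := SetLike.exists_of_lt (hnc _ hsub)
  rw [Subgroup.mem_normalizer_iff] at hxN
  have hxG : (x : G) ∈ Subgroup.normalizer (H : Set G) := by
    rw [Subgroup.mem_normalizer_iff]
    intro y
    constructor
    · intro hy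
      exact (hxN ⟨y, hHP hy⟩).1 hy
    · intro hy
      have hyP : y ∈ (P : Subgroup G) := by
        have h1 : y = (x : G)⁻¹ * ((x : G) * y * (x : G)⁻¹) * (x : G) := by group
        rw [h1]
        exact Subgroup.mul_mem _ (Subgroup.mul_mem _ (Subgroup.inv_mem _ x.2) (hHP hy)) x.2
      exact (hxN ⟨y, hyP⟩).2 hy
  have hxm : (x : G) ^ m ∈ H := hN _ hxG
  obtain ⟨k, hk⟩ := P.isPGroup' x
  have hk' : (x : G) ^ p ^ k = 1 := by
    have := congrArg Subtype.val hk
    simpa using this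
  have hcop : m.Coprime (orderOf (x : G)) := by
    obtain ⟨j, -, hj⟩ := (Nat.dvd_prime_pow hp.out).1 (orderOf_dvd_of_pow_eq_one hk')
    rw [hj]
    exact (Nat.Coprime.pow_left j ((Nat.Prime.coprime_iff_not_dvd hp.out).2 hpm)).symm
  obtain ⟨j, hj⟩ := exists_pow_eq_self_of_coprime hcop
  apply hxH
  rw [Subgroup.mem_subgroupOf, ← hj]
  exact Subgroup.pow_mem _ hxm j

end Cfsg.Agent.Lib.Helper86.PsuSYL
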