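import Cfsg.Agent.Lib.Helper46.PsuStmt

/-!
# Piece Z1 of S5172: a conjugate of a unitriangular matrix which is a scalar multiple of a
unitriangular matrix
-/

set_option autoImplicit false

namespace Cfsg.Agent.Lib.Helper86.PsuZ1

open Matrix Cfsg.Agent.H84.PslDefs Cfsg.Agent.Lib.Helper46.PsuDefs

universe u

theorem main : Cfsg.Agent.Lib.Helper46.PsuStmt.ScalarOne.{u} := by
  intro n K _ hn g u u' hu hu' c hc
  classical
  rw [mem_Uni] at hu hu'
  obtain ⟨W, hW⟩ : ∃ W : Matrix (Fin n) (Fin n) K,
      W = ((g * u * g⁻¹ : Matrix.SpecialLinearGroup (Fin n) K) : Matrix (Fin n) (Fin n) K) :=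
    ⟨_, rfl⟩
  have hWc : ∀ i j : Fin n, W i j = c * u' i j := by
    intro i j
    rw [hW]
    exact hc i j
  have hmul : W * (g : Matrix (Fin n) (Fin n) K) = (g : Matrix (Fin n) (Fin n) K) * u := by
    have h := congrArg (fun x : Matrix.SpecialLinearGroup (Fin n) K =>
      (x : Matrix (Fin n) (Fin n) K)) (inv_mul_cancel_right (g * u) g)
    simp only [Matrix.SpecialLinearGroup.coe_mul] at h
    rw [hW]
    simp only [Matrix.SpecialLinearGroup.coe_mul]
    exact h
  have hmul' : (W - 1) * (g : Matrix (Fin n) (Fin n) K) =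
      (g : Matrix (Fin n) (Fin n) K) * ((u : Matrix (Fin n) (Fin n) K) - 1) := by
    rw [Matrix.sub_mul, Matrix.mul_sub, hmul, Matrix.one_mul, Matrix.mul_one]
  have hdet := congrArg Matrix.det hmul'
  rw [Matrix.det_mul, Matrix.det_mul, g.2, mul_one, one_mul] at hdet
  -- the determinant of `u - 1`
  have hd1 : ((u : Matrix (Fin n) (Fin n) K) - 1).det = 0 := by
    rw [Matrix.det_of_isUpperTriangular]
    · apply Finset.prod_eq_zero (Finset.mem_univ (⟨0, hn⟩ : Fin n))
      rw [Matrix.sub_apply, hu.2, Matrix.one_apply_eq, sub_self]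
    · intro i j hji
      have hji' : j < i := hji
      rw [Matrix.sub_apply, hu.1 i j hji', Matrix.one_apply_ne (ne_of_gt hji'), sub_zero]
  -- the determinant of `W - 1`
  have hd2 : (W - 1).det = (c - 1) ^ n := by
    rw [Matrix.det_of_isUpperTriangular]
    · have : ∀ i : Fin n, (W - 1) i i = c - 1 := by
        intro i
        rw [Matrix.sub_apply, hWc, hu'.2, mul_one, Matrix.one_apply_eq]
      rw [Finset.prod_congr rfl (fun i _ => this i), Finset.prod_const, Finset.card_univ,
        Fintype.card_fin]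
    · intro i j hji
      have hji' : j < i := hji
      rw [Matrix.sub_apply, hWc, hu'.1 i j hji', mul_zero, Matrix.one_apply_ne (ne_of_gt hji'),
        sub_zero]
  rw [hd1, hd2] at hdet
  have h0 : c - 1 = 0 := by
    have hn0 : n ≠ 0 := by omega
    exact (pow_eq_zero_iff hn0).1 hdet
  exact sub_eq_zero.1 h0

end Cfsg.Agent.Lib.Helper86.PsuZ1
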