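import Cfsg.Agent.Lib.Helper7.M24Main
import Cfsg.Agent.Lib.Helper7.M24Octad

set_option autoImplicit false

/-!
# Six points in `M24`

Ordered normal form of five points and a sixth one under `M24`, elements of `M24` inducing a
transposition on a set of six points, and the pointwise stabilisers of six points.
-/

namespace Cfsg.Agent.Lib.Helper86.SixSet

open Cfsg Cfsg.Agent.Lib.Helper7.GolayBase Cfsg.Agent.Lib.Helper7.GolayCode
  Cfsg.Agent.Lib.Helper7.GolayRigid Cfsg.Agent.Lib.Helper7.GolayPerm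
  Cfsg.Agent.Lib.Helper7.ChainGen Cfsg.Agent.Lib.Helper7.M24Core
  Cfsg.Agent.Lib.Helper7.M24Main Cfsg.Agent.Lib.Helper7.M24Octad
open scoped Pointwise

theorem base_cases : ∀ i, i < 24 → i ∉ [3, 2, 1, 0, 23] →
    (O.testBit i = true ∧ i ∈ T6) ∨ (O.testBit i = false ∧ i ∈ T7) := by decide +kernel

theorem base_in_O : ∀ f ∈ base5, O.testBit f = true := by decide +kernel

theorem base_mem : ∀ f ∈ base5, f ∈ [3, 2, 1, 0, 23] := by decide

theorem mem_base : ∀ f ∈ [3, 2, 1, 0, 23], f ∈ base5 := by decide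

theorem base_lt : ∀ f ∈ base5, f < 24 := by decide

theorem mkO_mem : mk O ∈ octads := (mem_octads_iff _).mpr ⟨O, O_mem, rfl⟩

/-- A point outside the five base points is moved to `pt 5` or to `pt 4` by an element fixing
the base points, according to whether it lies in the base octad. -/
theorem to_base (q : GolayPt) (hq : idx q ∉ [3, 2, 1, 0, 23]) :
    ∃ h ∈ M24 ⊓ FixL [3, 2, 1, 0, 23], (O.testBit (idx q) = true → h q = pt 5) ∧
      (O.testBit (idx q) = false → h q = pt 4) := by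
  rcases base_cases (idx q) (idx_lt q) hq with ⟨h1, h2⟩ | ⟨h1, h2⟩
  · obtain ⟨h₀, hh₀, hq₀⟩ := wit6 _ h2
    rw [pt_idx] at hq₀
    refine ⟨h₀⁻¹, ⟨M24.inv_mem (H_le_M24 hh₀.1), (FixL _).inv_mem hh₀.2⟩, fun _ => ?_,
      fun h => ?_⟩
    · rw [← hq₀]; simp
    · rw [h1] at h; exact absurd h (by simp)
  · obtain ⟨h₀, hh₀, hq₀⟩ := wit7 _ h2
    rw [pt_idx] at hq₀
    refine ⟨h₀⁻¹, ⟨M24.inv_mem (H_le_M24 hh₀.1), (FixL _).inv_mem
      (fun f hf => hh₀.2 f (List.mem_cons_of_mem _ hf))⟩, fun h => ?_, fun _ => ?_⟩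
    · rw [h1] at h; exact absurd h (by simp)
    · rw [← hq₀]; simp

/-- The condition that five points and a sixth one lie in a common octad. -/
def InOct (xs : List GolayPt) (y : GolayPt) : Prop :=
  ∃ o ∈ octads, (∀ x ∈ xs, x ∈ o) ∧ y ∈ o

theorem base_nodup : (base5.map pt).Nodup := by decide

/-- Ordered normal form: five points go to the base points, and a sixth point to `pt 5` or
to `pt 4` according to whether the six points lie in an octad. -/
theorem normal_form (xs : List GolayPt) (hnd : xs.Nodup) (hlen : xs.length = 5) (y : GolayPt)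
    (hy : y ∉ xs) : ∃ k ∈ M24, xs.map k = base5.map pt ∧
      ((InOct xs y ∧ k y = pt 5) ∨ (¬ InOct xs y ∧ k y = pt 4)) := by
  obtain ⟨g₁, hg₁, hmap⟩ := exists_map_base5 xs hnd (by omega)
  rw [hlen] at hmap
  have htake : base5.take 5 = base5 := rfl
  rw [htake] at hmap
  have hbase : ∀ x ∈ xs, ∃ f ∈ base5, g₁ x = pt f := by
    intro x hx
    have : g₁ x ∈ xs.map g₁ := List.mem_map_of_mem hx
    rw [hmap] at this
    obtain ⟨f, hf, hfe⟩ := List.mem_map.mp this
    exact ⟨f, hf, hfe.symm⟩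
  have hq : idx (g₁ y) ∉ [3, 2, 1, 0, 23] := by
    intro hmem
    have h1 : pt (idx (g₁ y)) ∈ base5.map pt := List.mem_map.mpr ⟨_, mem_base _ hmem, rfl⟩
    rw [pt_idx, ← hmap] at h1
    obtain ⟨x, hx, hxe⟩ := List.mem_map.mp h1
    exact hy (g₁.injective hxe ▸ hx)
  obtain ⟨h, hh, h5, h4⟩ := to_base (g₁ y) hq
  have hfixb : ∀ f ∈ base5, h (pt f) = pt f := fun f hf => hh.2 f (base_mem f hf)
  have hcond : InOct xs y ↔ O.testBit (idx (g₁ y)) = true := by
    constructor
    · rintro ⟨o, ho, hxs, hyo⟩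
      have ho' : g₁ • o ∈ octads := smul_mem_octads hg₁ ho
      have hsub : (base5.map pt).toFinset ⊆ (g₁ • o) ∩ mk O := by
        intro p hp
        rw [List.mem_toFinset, ← hmap] at hp
        obtain ⟨x, hx, rfl⟩ := List.mem_map.mp hp
        obtain ⟨f, hf, hfe⟩ := hbase x hx
        refine Finset.mem_inter.mpr ⟨Finset.smul_mem_smul_finset (hxs x hx), ?_⟩
        rw [hfe, mem_mk, idx_pt (base_lt f hf)]
        exact base_in_O f hf
      have hcard : 5 ≤ ((g₁ • o) ∩ mk O).card := by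
        have := Finset.card_le_card hsub
        rw [List.toFinset_card_of_nodup base_nodup] at this
        exact this
      have heq := octad_unique ho' mkO_mem hcard
      have : g₁ y ∈ g₁ • o := Finset.smul_mem_smul_finset hyo
      rw [heq, mem_mk] at this
      exact this
    · intro hO
      refine ⟨g₁⁻¹ • mk O, smul_mem_octads (M24.inv_mem hg₁) mkO_mem, ?_, ?_⟩
      · intro x hx
        rw [Finset.mem_inv_smul_finset_iff]
        obtain ⟨f, hf, hfe⟩ := hbase x hx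
        show g₁ x ∈ mk O
        rw [hfe, mem_mk, idx_pt (base_lt f hf)]
        exact base_in_O f hf
      · rw [Finset.mem_inv_smul_finset_iff]
        exact mem_mk.mpr hO
  refine ⟨h * g₁, M24.mul_mem hh.1 hg₁, ?_, ?_⟩
  · have : xs.map (⇑(h * g₁)) = (xs.map g₁).map h := by
      rw [List.map_map]; rfl
    rw [this, hmap, List.map_map]
    apply List.map_congr_left
    intro f hf
    exact hfixb f hf
  · by_cases hO : O.testBit (idx (g₁ y)) = true
    · exact Or.inl ⟨hcond.mpr hO, h5 hO⟩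
    · rw [Bool.not_eq_true] at hO
      refine Or.inr ⟨fun hc => ?_, h4 hO⟩
      rw [hcond.mp hc] at hO
      exact Bool.noConfusion hO

/-- An element of `M24` exchanging two points of a set of six points and fixing the four
others. -/
theorem exists_swap (E : Finset GolayPt) (hE : E.card = 6) {x y : GolayPt} (hx : x ∈ E)
    (hy : y ∈ E) (hxy : x ≠ y) :
    ∃ g ∈ M24, g x = y ∧ g y = x ∧ ∀ p ∈ E, p ≠ x → p ≠ y → g p = p := by
  set rs := ((E.erase x).erase y).toList with hrs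
  have hmem : ∀ p, p ∈ rs ↔ p ≠ y ∧ p ≠ x ∧ p ∈ E := by
    intro p
    rw [hrs, Finset.mem_toList, Finset.mem_erase, Finset.mem_erase]
  have hlen : rs.length = 4 := by
    rw [hrs, Finset.length_toList, Finset.card_erase_of_mem (Finset.mem_erase.mpr ⟨hxy.symm, hy⟩),
      Finset.card_erase_of_mem hx, hE]
  have hnd : rs.Nodup := Finset.nodup_toList _
  have hxr : x ∉ rs := fun h => ((hmem x).mp h).2.1 rfl
  have hyr : y ∉ rs := fun h => ((hmem y).mp h).1 rfl
  have hnd1 : (rs ++ [x]).Nodup := by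
    rw [List.nodup_append]
    refine ⟨hnd, List.nodup_singleton x, ?_⟩
    intro a ha b hb
    rw [List.mem_singleton] at hb
    subst hb
    exact fun h => hxr (h ▸ ha)
  have hnd2 : (rs ++ [y]).Nodup := by
    rw [List.nodup_append]
    refine ⟨hnd, List.nodup_singleton y, ?_⟩
    intro a ha b hb
    rw [List.mem_singleton] at hb
    subst hb
    exact fun h => hyr (h ▸ ha)
  have hy1 : y ∉ rs ++ [x] := by
    rw [List.mem_append, List.mem_singleton]
    rintro (h | h)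
    · exact hyr h
    · exact hxy h.symm
  have hx2 : x ∉ rs ++ [y] := by
    rw [List.mem_append, List.mem_singleton]
    rintro (h | h)
    · exact hxr h
    · exact hxy h
  obtain ⟨k₁, hk₁, hmap₁, hc₁⟩ := normal_form (rs ++ [x]) hnd1 (by simp [hlen]) y hy1
  obtain ⟨k₂, hk₂, hmap₂, hc₂⟩ := normal_form (rs ++ [y]) hnd2 (by simp [hlen]) x hx2
  have hiff : InOct (rs ++ [x]) y ↔ InOct (rs ++ [y]) x := by
    unfold InOct
    constructor
    · rintro ⟨o, ho, h1, h2⟩
      refine ⟨o, ho, ?_, h1 x (by simp)⟩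
      intro z hz
      rcases List.mem_append.mp hz with h | h
      · exact h1 z (List.mem_append_left _ h)
      · rw [List.mem_singleton] at h; rw [h]; exact h2
    · rintro ⟨o, ho, h1, h2⟩
      refine ⟨o, ho, ?_, h1 y (by simp)⟩
      intro z hz
      rcases List.mem_append.mp hz with h | h
      · exact h1 z (List.mem_append_left _ h)
      · rw [List.mem_singleton] at h; rw [h]; exact h2
  have hsame : k₁ y = k₂ x := by
    rcases hc₁ with ⟨a1, b1⟩ | ⟨a1, b1⟩ <;> rcases hc₂ with ⟨a2, b2⟩ | ⟨a2, b2⟩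
    · rw [b1, b2]
    · exact absurd (hiff.mp a1) a2
    · exact absurd (hiff.mpr a2) a1
    · rw [b1, b2]
  have hmaps : rs.map k₁ ++ [k₁ x] = rs.map k₂ ++ [k₂ y] := by
    have e1 : (rs ++ [x]).map k₁ = rs.map k₁ ++ [k₁ x] := by simp
    have e2 : (rs ++ [y]).map k₂ = rs.map k₂ ++ [k₂ y] := by simp
    rw [← e1, ← e2, hmap₁, hmap₂]
  obtain ⟨hm1, hm2⟩ := List.append_inj hmaps (by simp)
  have hkx : k₁ x = k₂ y := by simpa using hm2
  have hkr : ∀ r ∈ rs, k₁ r = k₂ r := List.map_inj_left.mp hm1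
  refine ⟨k₂⁻¹ * k₁, M24.mul_mem (M24.inv_mem hk₂) hk₁, ?_, ?_, ?_⟩
  · show k₂⁻¹ (k₁ x) = y
    rw [hkx]; simp
  · show k₂⁻¹ (k₁ y) = x
    rw [hsame]; simp
  · intro p hp hpx hpy
    show k₂⁻¹ (k₁ p) = p
    rw [hkr p ((hmem p).mpr ⟨hpy, hpx, hp⟩)]
    simp

/-! ### Inducing every permutation of a set of six points -/

theorem induce_perm (E : Finset GolayPt) (hE : E.card = 6) (σ : Equiv.Perm ↥E) :
    ∃ g ∈ M24, ∀ p : ↥E, g (p : GolayPt) = ((σ p : ↥E) : GolayPt) := by
  let A : Subgroup (Equiv.Perm ↥E) :=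
    { carrier := {σ | ∃ g ∈ M24, ∀ p : ↥E, g (p : GolayPt) = ((σ p : ↥E) : GolayPt)}
      mul_mem' := by
        rintro a b ⟨g, hg, hga⟩ ⟨h, hh, hhb⟩
        refine ⟨g * h, M24.mul_mem hg hh, fun p => ?_⟩
        show g (h p) = ((a (b p) : ↥E) : GolayPt)
        rw [hhb p, hga (b p)]
      one_mem' := ⟨1, M24.one_mem, fun p => rfl⟩
      inv_mem' := by
        rintro a ⟨g, hg, hga⟩
        refine ⟨g⁻¹, M24.inv_mem hg, fun p => ?_⟩
        have h1 := hga (a⁻¹ p)
        have h2 : a (a⁻¹ p) = p := by simp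
        rw [h2] at h1
        rw [← h1]
        simp }
  have hswap : ∀ τ : Equiv.Perm ↥E, τ.IsSwap → τ ∈ A := by
    rintro τ ⟨a, b, hab, rfl⟩
    obtain ⟨g, hg, hgx, hgy, hgf⟩ := exists_swap E hE a.2 b.2 (fun h => hab (Subtype.ext h))
    refine ⟨g, hg, fun p => ?_⟩
    by_cases hpa : p = a
    · subst hpa; rw [Equiv.swap_apply_left]; exact hgx
    · by_cases hpb : p = b
      · subst hpb; rw [Equiv.swap_apply_right]; exact hgy
      · rw [Equiv.swap_apply_of_ne_of_ne hpa hpb]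
        exact hgf p p.2 (fun h => hpa (Subtype.ext h)) (fun h => hpb (Subtype.ext h))
  have htop : A = ⊤ := by
    rw [eq_top_iff, ← Equiv.Perm.closure_isSwap, Subgroup.closure_le]
    exact hswap
  have : σ ∈ A := by rw [htop]; exact Subgroup.mem_top σ
  exact this

/-! ### Pointwise stabilisers -/

theorem hub4 : ∀ g ∈ M24 ⊓ FixL [3, 2, 1, 0, 23], ∃ q ∈ T7, g (pt 4) = pt q := by
  intro g hg
  exact hub_of_pres (pres_O hg.1 hg.2) hg.2 (by decide) (by decide) (by decide +kernel)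

theorem wit4' : ∀ q ∈ T7, ∃ h ∈ M24 ⊓ FixL [3, 2, 1, 0, 23], h (pt 4) = pt q := by
  intro q hq
  obtain ⟨h, hh, hq'⟩ := wit7 q hq
  exact ⟨h, ⟨H_le_M24 hh.1, fun f hf => hh.2 f (List.mem_cons_of_mem _ hf)⟩, hq'⟩

theorem card64 : Nat.card ↥(M24 ⊓ FixL [4, 3, 2, 1, 0, 23]) = 3 := by
  have h := card_step (K := M24) (L := [3, 2, 1, 0, 23]) (b := 4) (T := T7) (by decide)
    (by decide) hub4 wit4'
  rw [card5] at h
  have h16 : T7.length = 16 := rfl
  rw [h16] at h
  omega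

theorem card_fix_conj (E : Finset GolayPt) (F : List Nat) {k : Equiv.Perm GolayPt}
    (hk : k ∈ M24) (h1 : ∀ p ∈ E, ∃ f ∈ F, k p = pt f) (h2 : ∀ f ∈ F, ∃ p ∈ E, k p = pt f) :
    Nat.card {g : Equiv.Perm GolayPt // g ∈ M24 ∧ ∀ p ∈ E, g p = p} =
      Nat.card ↥(M24 ⊓ FixL F) := by
  apply Nat.card_congr
  refine ⟨fun g => ⟨k * g.1 * k⁻¹, M24.mul_mem (M24.mul_mem hk g.2.1) (M24.inv_mem hk), ?_⟩,
    fun g => ⟨k⁻¹ * g.1 * k, M24.mul_mem (M24.mul_mem (M24.inv_mem hk) g.2.1) hk, ?_⟩, ?_, ?_⟩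
  · intro f hf
    obtain ⟨p, hp, hkp⟩ := h2 f hf
    show k (g.1 (k⁻¹ (pt f))) = pt f
    rw [← hkp]
    simp [g.2.2 p hp]
  · intro p hp
    obtain ⟨f, hf, hkp⟩ := h1 p hp
    show k⁻¹ (g.1 (k p)) = p
    rw [hkp, g.2.2 f hf, ← hkp]
    simp
  · intro g
    apply Subtype.ext
    show k⁻¹ * (k * g.1 * k⁻¹) * k = g.1
    group
  · intro g
    apply Subtype.ext
    show k * (k⁻¹ * g.1 * k) * k⁻¹ = g.1
    group

theorem card_fix_six (E : Finset GolayPt) (hE : E.card = 6) :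
    ((∃ o ∈ octads, E ⊆ o) →
      Nat.card {g : Equiv.Perm GolayPt // g ∈ M24 ∧ ∀ p ∈ E, g p = p} = 16) ∧
    ((¬ ∃ o ∈ octads, E ⊆ o) →
      Nat.card {g : Equiv.Perm GolayPt // g ∈ M24 ∧ ∀ p ∈ E, g p = p} = 3) := by
  have hne : E.Nonempty := by rw [← Finset.card_pos, hE]; norm_num
  obtain ⟨y, hy⟩ := hne
  set xs := (E.erase y).toList with hxs
  have hmem : ∀ p, p ∈ xs ↔ p ≠ y ∧ p ∈ E := by
    intro p; rw [hxs, Finset.mem_toList, Finset.mem_erase]
  have hlen : xs.length = 5 := by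
    rw [hxs, Finset.length_toList, Finset.card_erase_of_mem hy, hE]
  have hyx : y ∉ xs := fun h => ((hmem y).mp h).1 rfl
  obtain ⟨k, hk, hmap, hc⟩ := normal_form xs (Finset.nodup_toList _) hlen y hyx
  have hiff : InOct xs y ↔ ∃ o ∈ octads, E ⊆ o := by
    constructor
    · rintro ⟨o, ho, h1, h2⟩
      refine ⟨o, ho, fun p hp => ?_⟩
      by_cases hpy : p = y
      · rw [hpy]; exact h2
      · exact h1 p ((hmem p).mpr ⟨hpy, hp⟩)
    · rintro ⟨o, ho, h⟩
      exact ⟨o, ho, fun x hx => h ((hmem x).mp hx).2, h hy⟩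
  have hbase : ∀ x ∈ xs, ∃ f ∈ base5, k x = pt f := by
    intro x hx
    have : k x ∈ xs.map k := List.mem_map_of_mem hx
    rw [hmap] at this
    obtain ⟨f, hf, hfe⟩ := List.mem_map.mp this
    exact ⟨f, hf, hfe.symm⟩
  have hbase' : ∀ f ∈ base5, ∃ x ∈ xs, k x = pt f := by
    intro f hf
    have : pt f ∈ base5.map pt := List.mem_map_of_mem hf
    rw [← hmap] at this
    obtain ⟨x, hx, hxe⟩ := List.mem_map.mp this
    exact ⟨x, hx, hxe⟩
  have key : ∀ b : Nat, k y = pt b →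
      Nat.card {g : Equiv.Perm GolayPt // g ∈ M24 ∧ ∀ p ∈ E, g p = p} =
        Nat.card ↥(M24 ⊓ FixL [b, 3, 2, 1, 0, 23]) := by
    intro b hb
    apply card_fix_conj E _ hk
    · intro p hp
      by_cases hpy : p = y
      · exact ⟨b, by simp, by rw [hpy, hb]⟩
      · obtain ⟨f, hf, hfe⟩ := hbase p ((hmem p).mpr ⟨hpy, hp⟩)
        exact ⟨f, List.mem_cons_of_mem _ (base_mem f hf), hfe⟩
    · intro f hf
      rcases List.mem_cons.mp hf with rfl | hf'
      · exact ⟨y, hy, hb⟩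
      · obtain ⟨x, hx, hxe⟩ := hbase' f (mem_base f hf')
        exact ⟨x, ((hmem x).mp hx).2, hxe⟩
  constructor
  · intro hoct
    rcases hc with ⟨-, h5⟩ | ⟨hn, -⟩
    · rw [key 5 h5, card6]
    · exact absurd (hiff.mpr hoct) hn
  · intro hoct
    rcases hc with ⟨hn, -⟩ | ⟨-, h4⟩
    · exact absurd (hiff.mp hn) hoct
    · rw [key 4 h4, card64]

/-! ### The setwise stabiliser -/

theorem card_stab_six (E : Finset GolayPt) (hE : E.card = 6)
    (h3 : Nat.card {g : Equiv.Perm GolayPt // g ∈ M24 ∧ ∀ p ∈ E, g p = p} = 3) :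
    Nat.card ↥(MulAction.stabilizer ↥M24 E) = 2160 := by
  have hinv : ∀ z : ↥(MulAction.stabilizer ↥M24 E), ∀ x : GolayPt,
      ((z : ↥M24) : Equiv.Perm GolayPt) x ∈ E ↔ x ∈ E := by
    intro z x
    have h1 : ((z : ↥M24) : Equiv.Perm GolayPt) • E = E := z.2
    constructor
    · intro h
      have h2 : ((z : ↥M24) : Equiv.Perm GolayPt) • x ∈ ((z : ↥M24) : Equiv.Perm GolayPt) • E := by
        rw [h1]; exact h
      exact (Finset.smul_mem_smul_finset_iff _).mp h2
    · intro h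
      have h2 := Finset.smul_mem_smul_finset (a := ((z : ↥M24) : Equiv.Perm GolayPt)) h
      rw [h1] at h2
      exact h2
  let ρ : ↥(MulAction.stabilizer ↥M24 E) →* Equiv.Perm ↥E :=
    MonoidHom.mk' (fun z => Equiv.Perm.subtypePerm ((z : ↥M24) : Equiv.Perm GolayPt) (hinv z))
      (by
        intro a b
        exact Equiv.ext fun p => Subtype.ext rfl)
  have hρ : ∀ (z : ↥(MulAction.stabilizer ↥M24 E)) (p : ↥E),
      ((ρ z p : ↥E) : GolayPt) = ((z : ↥M24) : Equiv.Perm GolayPt) p := fun z p => rfl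
  have hsurj : Function.Surjective ρ := by
    intro σ
    obtain ⟨g, hg, hgσ⟩ := induce_perm E hE σ
    have hstab : (⟨g, hg⟩ : ↥M24) ∈ MulAction.stabilizer ↥M24 E := by
      rw [MulAction.mem_stabilizer_iff]
      show g • E = E
      apply Finset.eq_of_subset_of_card_le
      · intro x hx
        obtain ⟨x', hx', rfl⟩ := Finset.mem_smul_finset.mp hx
        have := hgσ ⟨x', hx'⟩
        show g x' ∈ E
        rw [this]
        exact (σ ⟨x', hx'⟩).2
      · rw [Finset.card_smul_finset]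
    refine ⟨⟨⟨g, hg⟩, hstab⟩, ?_⟩
    exact Equiv.ext fun p => Subtype.ext (hgσ p)
  have hker : Nat.card ρ.ker = 3 := by
    rw [← h3]
    apply Nat.card_congr
    refine ⟨fun z => ⟨((z.1 : ↥M24) : Equiv.Perm GolayPt), (z.1 : ↥M24).2, ?_⟩,
      fun g => ⟨⟨⟨g.1, g.2.1⟩, ?_⟩, ?_⟩, ?_, ?_⟩
    · intro p hp
      have h1 : ρ z.1 = 1 := MonoidHom.mem_ker.mp z.2
      have h2 := hρ z.1 ⟨p, hp⟩
      rw [h1] at h2
      exact h2.symm
    · rw [MulAction.mem_stabilizer_iff]
      show g.1 • E = E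
      apply Finset.eq_of_subset_of_card_le
      · intro x hx
        obtain ⟨x', hx', rfl⟩ := Finset.mem_smul_finset.mp hx
        show g.1 x' ∈ E
        rw [g.2.2 x' hx']
        exact hx'
      · rw [Finset.card_smul_finset]
    · rw [MonoidHom.mem_ker]
      exact Equiv.ext fun p => Subtype.ext (g.2.2 p p.2)
    · intro z; rfl
    · intro g; rfl
  have hrange : Nat.card ρ.range = 720 := by
    rw [MonoidHom.range_eq_top.mpr hsurj, Subgroup.card_top, Nat.card_eq_fintype_card,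
      Fintype.card_perm, Fintype.card_coe, hE]
    rfl
  have h1 := Subgroup.card_mul_index ρ.ker
  rw [Subgroup.index_ker, hker, hrange] at h1
  omega

end Cfsg.Agent.Lib.Helper86.SixSet
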