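import Mathlib

set_option autoImplicit false

/-!
# Normalisers and centralisers inside a subgroup

Transfer between `Subgroup K` (for a subgroup `K` of `G`) and `Subgroup G`, and along
isomorphisms.
-/

namespace Cfsg.Agent.Lib.Helper86.SubTransfer

variable {G : Type*} [Group G]

theorem mem_normalizer_subgroupOf {H K : Subgroup G} (hHK : H ≤ K) (z : K) :
    z ∈ Subgroup.normalizer ((H.subgroupOf K : Subgroup K) : Set K) ↔
      (z : G) ∈ Subgroup.normalizer (H : Set G) := by
  rw [Subgroup.mem_normalizer_iff, Subgroup.mem_normalizer_iff]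
  constructor
  · intro h y
    constructor
    · intro hy
      have := (h ⟨y, hHK hy⟩).mp (Subgroup.mem_subgroupOf.mpr hy)
      exact Subgroup.mem_subgroupOf.mp this
    · intro hy
      have hyK : y ∈ K := by
        have h1 : y = (z : G)⁻¹ * ((z : G) * y * (z : G)⁻¹) * (z : G) := by group
        rw [h1]
        exact K.mul_mem (K.mul_mem (K.inv_mem z.2) (hHK hy)) z.2
      have := (h ⟨y, hyK⟩).mpr (Subgroup.mem_subgroupOf.mpr hy)
      exact Subgroup.mem_subgroupOf.mp this
  · intro h y
    rw [Subgroup.mem_subgroupOf, Subgroup.mem_subgroupOf]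
    exact h y

theorem mem_centralizer_subgroupOf {H K : Subgroup G} (hHK : H ≤ K) (z : K) :
    z ∈ Subgroup.centralizer ((H.subgroupOf K : Subgroup K) : Set K) ↔
      (z : G) ∈ Subgroup.centralizer (H : Set G) := by
  rw [Subgroup.mem_centralizer_iff, Subgroup.mem_centralizer_iff]
  constructor
  · intro h y hy
    have := h ⟨y, hHK hy⟩ (Subgroup.mem_subgroupOf.mpr hy)
    exact congrArg Subtype.val this
  · intro h y hy
    apply Subtype.ext
    exact h y (Subgroup.mem_subgroupOf.mp hy)

theorem card_normalizer_subgroupOf {H K : Subgroup G} (hHK : H ≤ K) :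
    Nat.card ↥(Subgroup.normalizer ((H.subgroupOf K : Subgroup K) : Set K)) =
      Nat.card ↥(K ⊓ Subgroup.normalizer (H : Set G)) := by
  apply Nat.card_congr
  refine ⟨fun z => ⟨z.1.1, z.1.2, (mem_normalizer_subgroupOf hHK z.1).mp z.2⟩,
    fun x => ⟨⟨x.1, x.2.1⟩, (mem_normalizer_subgroupOf hHK ⟨x.1, x.2.1⟩).mpr x.2.2⟩, ?_, ?_⟩
  · intro z; rfl
  · intro x; rfl

theorem card_centralizer_subgroupOf {H K : Subgroup G} (hHK : H ≤ K) :
    Nat.card ↥(Subgroup.centralizer ((H.subgroupOf K : Subgroup K) : Set K)) =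
      Nat.card ↥(K ⊓ Subgroup.centralizer (H : Set G)) := by
  apply Nat.card_congr
  refine ⟨fun z => ⟨z.1.1, z.1.2, (mem_centralizer_subgroupOf hHK z.1).mp z.2⟩,
    fun x => ⟨⟨x.1, x.2.1⟩, (mem_centralizer_subgroupOf hHK ⟨x.1, x.2.1⟩).mpr x.2.2⟩, ?_, ?_⟩
  · intro z; rfl
  · intro x; rfl

theorem centralizer_zpowers (g : G) :
    Subgroup.centralizer (Subgroup.zpowers g : Set G) = Subgroup.centralizer {g} := by
  ext x
  rw [Subgroup.mem_centralizer_iff, Subgroup.mem_centralizer_iff]
  constructor
  · intro h y hy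
    rw [Set.mem_singleton_iff] at hy
    subst hy
    exact h y (Subgroup.mem_zpowers y)
  · intro h y hy
    obtain ⟨k, rfl⟩ := Subgroup.mem_zpowers_iff.mp hy
    have h1 : Commute g x := h g rfl
    exact (h1.zpow_left k).eq

theorem mem_centralizer_map_equiv (H : Subgroup G) (f : G ≃* G) (x : G) :
    f x ∈ Subgroup.centralizer ((H.map f.toMonoidHom : Subgroup G) : Set G) ↔
      x ∈ Subgroup.centralizer (H : Set G) := by
  rw [Subgroup.mem_centralizer_iff, Subgroup.mem_centralizer_iff]
  constructor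
  · intro h y hy
    have := h (f y) (Subgroup.mem_map_of_mem _ hy)
    rw [← map_mul, ← map_mul] at this
    exact f.injective this
  · rintro h _ ⟨y, hy, rfl⟩
    show f y * f x = f x * f y
    rw [← map_mul, ← map_mul, h y hy]

theorem centralizer_map_equiv (H : Subgroup G) (f : G ≃* G) :
    Subgroup.centralizer ((H.map f.toMonoidHom : Subgroup G) : Set G) =
      (Subgroup.centralizer (H : Set G)).map f.toMonoidHom := by
  ext x
  constructor
  · intro hx
    have h1 : f.symm x ∈ Subgroup.centralizer (H : Set G) := by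
      rw [← mem_centralizer_map_equiv H f]
      simpa using hx
    exact ⟨f.symm x, h1, by simp⟩
  · rintro ⟨y, hy, rfl⟩
    exact (mem_centralizer_map_equiv H f y).mpr hy

end Cfsg.Agent.Lib.Helper86.SubTransfer
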