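import Mathlib
import Cfsg.Agent.Lib.Helper14.TC3Stmt
import Cfsg.Agent.Lib.Helper3.TDBasic
import Cfsg.Agent.Lib.Helper16.Cover
import Cfsg.Agent.Lib.Helper3.MGroup
import Cfsg.Agent.Lib.CT.Ops
/-!
# S4460 piece A4 (helper86)
-/

set_option autoImplicit false

namespace Cfsg.Agent.Lib.Helper86.TC3A4

open Cfsg
open Cfsg.Agent.Lib.Helper14.TC3Stmt

universe u

open scoped commutatorElement in
theorem main : Cfsg.Agent.Lib.Helper14.TC3Stmt.A4.{u} := by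
  intro G _ _ H _ p hp hidx χ
  classical
  have := Fintype.ofFinite G
  obtain ⟨k, hk⟩ := hidx
  obtain ⟨χ', hχ'⟩ : ∃ χ' : IrrCharacter G, χ' = Cfsg.Agent.Lib.Helper3.TDBasic.infl ⁅H, H⁆ χ :=
    ⟨_, rfl⟩
  obtain ⟨θ, hθ⟩ := Cfsg.Agent.Lib.Helper16.Cover.exists_constituent H χ'
  have hdeg := Cfsg.Agent.Lib.Helper3.TDBasic.deg_of_constituent H θ χ' hθ
  have hres : IsCharacter H (fun n : H => (χ' : G → ℂ) n) :=
    Cfsg.Agent.Lib.CT.Ops.isCharacter_restrict H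
      (Cfsg.Agent.Lib.Helper80.Integrality.isCharacter_of_isIrrCharacter χ'.2)
  have hθ1 : (θ : H → ℂ) 1 = 1 := by
    apply Cfsg.Agent.Lib.Helper3.MGroup.apply_one_eq_one_of_comm θ.2
    intro a b
    apply Cfsg.Agent.Lib.Helper3.MGroup.constituent_apply_eq hres θ.2 hθ
    rw [hχ']
    show (χ : G ⧸ ⁅H, H⁆ → ℂ) (((⁅a, b⁆ : H) : G) : G ⧸ ⁅H, H⁆) =
      (χ : G ⧸ ⁅H, H⁆ → ℂ) (((1 : H) : G) : G ⧸ ⁅H, H⁆)
    have h1 : (((⁅a, b⁆ : H) : G) : G ⧸ ⁅H, H⁆) = 1 := by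
      rw [QuotientGroup.eq_one_iff]
      have h2 : ((⁅a, b⁆ : H) : G) = ⁅(a : G), (b : G)⁆ := by
        simp [commutatorElement_def]
      rw [h2]
      exact Subgroup.commutator_mem_commutator a.2 b.2
    rw [h1]
    simp
  have hθd : charDegree (θ : H → ℂ) = 1 := by
    unfold charDegree
    rw [hθ1]
    simp
  rw [hθd, Nat.div_one, hk] at hdeg
  obtain ⟨a, -, ha⟩ := (Nat.dvd_prime_pow hp).mp hdeg.2
  refine ⟨a, ?_⟩
  rw [← Cfsg.Agent.Lib.Helper3.TDBasic.charDegree_infl ⁅H, H⁆ χ, ← hχ']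
  exact ha

end Cfsg.Agent.Lib.Helper86.TC3A4
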