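import Mathlib
import Cfsg.Agent.Lib.Helper14.TC3Stmt
import Cfsg.Agent.Lib.Helper80.Integrality
/-!
# S4460 piece DEGEN (helper86)
-/

set_option autoImplicit false

namespace Cfsg.Agent.Lib.Helper86.TC3DEGEN

open Cfsg
open Cfsg.Agent.Lib.Helper14.TC3Stmt

universe u

theorem main : Cfsg.Agent.Lib.Helper14.TC3Stmt.Degen.{u} := by
  intro G _ _ m n hD hnot
  have hpos : ∀ χ : IrrCharacter G, 0 < charDegree (χ : G → ℂ) :=
    fun χ => Cfsg.Agent.Lib.Helper80.Integrality.charDegree_pos χ
  by_cases hm : HasDeg G m
  · by_cases hn : HasDeg G n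
    · have h3 : ¬ (1 < m ∧ 1 < n ∧ m ≠ n) := fun h => hnot ⟨hm, hn, h⟩
      by_cases h1 : 1 < m
      · by_cases h2 : 1 < n
        · have hmn : m = n := by
            by_contra hne
            exact h3 ⟨h1, h2, hne⟩
          refine ⟨m, fun χ => ?_⟩
          rcases hD χ with h | h | h
          · exact Or.inl h
          · exact Or.inr h
          · exact Or.inr (h.trans hmn.symm)
        · refine ⟨m, fun χ => ?_⟩
          rcases hD χ with h | h | h
          · exact Or.inl h
          · exact Or.inr h
          · left
            have := hpos χ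
            omega
      · refine ⟨n, fun χ => ?_⟩
        rcases hD χ with h | h | h
        · exact Or.inl h
        · left
          have := hpos χ
          omega
        · exact Or.inr h
    · refine ⟨m, fun χ => ?_⟩
      rcases hD χ with h | h | h
      · exact Or.inl h
      · exact Or.inr h
      · exact absurd ⟨χ, h⟩ hn
  · refine ⟨n, fun χ => ?_⟩
    rcases hD χ with h | h | h
    · exact Or.inl h
    · exact absurd ⟨χ, h⟩ hm
    · exact Or.inr h

end Cfsg.Agent.Lib.Helper86.TC3DEGEN
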