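import Mathlib
import Cfsg.Agent.Lib.Helper14.TC3Stmt
import Cfsg.Agent.S0858
import Cfsg.Agent.S0859
/-!
# S4460 piece MONOP (helper86)
-/

set_option autoImplicit false

namespace Cfsg.Agent.Lib.Helper86.TC3MONOP

open Cfsg
open Cfsg.Agent.Lib.Helper14.TC3Stmt

universe u

theorem main (h : Cfsg.Agent.Lib.Helper14.TC3Stmt.ChiefP.{u}) :
    Cfsg.Agent.Lib.Helper14.TC3Stmt.MonoP.{u} := by
  intro G _ _ A p hA hp hidx hab χ hχ
  have : Fact p.Prime := ⟨hp⟩
  have hsolvQ : Group.IsSolvable (G ⧸ A) := by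
    obtain ⟨k, hk⟩ := hidx
    have hpg : IsPGroup p (G ⧸ A) := IsPGroup.of_card (by rw [← Subgroup.index_eq_card, hk])
    have := hpg.isNilpotent
    infer_instance
  have hsolvA : Group.IsSolvable ↥A :=
    Group.isSolvable_of_comm (fun a b => Subtype.ext (hab a a.2 b b.2))
  have hsolvG : Group.IsSolvable G :=
    Group.isSolvable_of_ker_le_range A.subtype (QuotientGroup.mk' A)
      (by rw [QuotientGroup.ker_mk', Subgroup.range_subtype])
  exact Cfsg.Agent.S0859.result A (fun q _ P a _ b _ => Subtype.ext (hab a a.2 b b.2))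
    (fun χ' hχ' => Cfsg.Agent.S0858.result A hsolvQ (h G A p hA hp hidx) χ' hχ') χ hχ

end Cfsg.Agent.Lib.Helper86.TC3MONOP
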