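import Mathlib
import Cfsg.Agent.Lib.Helper14.TC3Stmt

/-!
# S4460 piece QTWO (helper86)
-/

set_option autoImplicit false

namespace Cfsg.Agent.Lib.Helper86.TC3QTWO

open Cfsg
open Cfsg.Agent.Lib.Helper14.TC3Stmt

universe u

theorem main (h : Cfsg.Agent.Lib.Helper14.TC3Stmt.Two.{u}) :
    Cfsg.Agent.Lib.Helper14.TC3Stmt.QTwo.{u} := by
  intro G _ _ M _ k hD
  have h1 := h (G ⧸ M) k hD
  have h2 : (commutator G).map (QuotientGroup.mk' M) ≤ commutator (G ⧸ M) := by
    rw [commutator_def, commutator_def, Subgroup.map_commutator]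
    exact Subgroup.commutator_mono le_top le_top
  have h3 : (⁅commutator G, commutator G⁆).map (QuotientGroup.mk' M) = ⊥ := by
    rw [Subgroup.map_commutator, eq_bot_iff, ← h1]
    exact Subgroup.commutator_mono h2 h2
  have h4 := (Subgroup.map_eq_bot_iff _).mp h3
  rwa [QuotientGroup.ker_mk'] at h4

end Cfsg.Agent.Lib.Helper86.TC3QTWO
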