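import Mathlib
import Cfsg.Agent.Lib.Helper14.TC3Stmt
import Cfsg.Agent.S4458
import Cfsg.Agent.Lib.Helper3.TDBasic
/-!
# S4460 piece TWO (helper86)
-/

set_option autoImplicit false

namespace Cfsg.Agent.Lib.Helper86.TC3TWO

open Cfsg
open Cfsg.Agent.Lib.Helper14.TC3Stmt

universe u

theorem main : Cfsg.Agent.Lib.Helper14.TC3Stmt.Two.{u} := by
  intro G _ _ k hD
  have key : ∀ a ∈ commutator G, ∀ b ∈ commutator G, a * b = b * a := by
    by_cases h : (∃ χ : IrrCharacter G, charDegree (χ : G → ℂ) = k) ∧ k ≠ 1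
    · exact Cfsg.Agent.S4458.result k hD h.1 h.2
    · have hall : ∀ χ : IrrCharacter G, charDegree (χ : G → ℂ) = 1 := by
        intro χ
        rcases hD χ with h1 | h1
        · exact h1
        · by_contra hne
          exact h ⟨⟨χ, h1⟩, fun hk => hne (h1.trans hk)⟩
      intro a _ b _
      exact Cfsg.Agent.Lib.Helper3.TDBasic.comm_of_forall_degree_one hall a b
  rw [Subgroup.commutator_eq_bot_iff_le_centralizer]
  intro a ha
  rw [Subgroup.mem_centralizer_iff]
  intro b hb
  exact key b hb a ha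

end Cfsg.Agent.Lib.Helper86.TC3TWO
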