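import Mathlib
import Cfsg.Agent.Lib.Helper14.TC3Stmt

/-!
# S4460 piece TWOSUB (helper86)
-/

set_option autoImplicit false

namespace Cfsg.Agent.Lib.Helper86.TC3TWOSUB

open Cfsg
open Cfsg.Agent.Lib.Helper14.TC3Stmt

universe u

theorem main (h : Cfsg.Agent.Lib.Helper14.TC3Stmt.Two.{u}) :
    Cfsg.Agent.Lib.Helper14.TC3Stmt.TwoSub.{u} := by
  intro G _ _ N k hD
  have h1 := h ↥N k hD
  have h2 : (commutator ↥N).map N.subtype = ⁅N, N⁆ := by
    rw [commutator_def, Subgroup.map_commutator, ← MonoidHom.range_eq_map, Subgroup.range_subtype]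
  rw [← h2, ← Subgroup.map_commutator, h1, Subgroup.map_bot]

end Cfsg.Agent.Lib.Helper86.TC3TWOSUB
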