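import Mathlib
import Cfsg.Agent.Lib.Helper44.TPStmt

/-!
# S5973, piece CNTID (helper86; adapted from Helper24.TSCNTID)
-/

set_option autoImplicit false

universe u

namespace Cfsg.Agent.Lib.Helper86.TPCNTID

open Cfsg.Agent.Lib.Helper44.TPStmt

theorem card_TFr_zero (d : ℕ) (F : Type u) [Field F] : Nat.card (TFr d F 0) = 1 := by
  rw [Nat.card_eq_one_iff_unique]
  refine ⟨⟨fun a b => Subtype.ext (funext fun i => i.elim0)⟩,
    ⟨⟨fun i => i.elim0, linearIndependent_empty_type, fun a => a.elim0, fun a => a.elim0⟩⟩⟩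

theorem card_TFr (hE : Cfsg.Agent.Lib.Helper44.TPStmt.FrExt.{u}) (F : Type u) [Field F]
    [Fintype F] (d : ℕ) :
    ∀ m : ℕ, m ≤ d → Nat.card (TFr d F m) =
      ∏ j ∈ Finset.range m, (Fintype.card F ^ j *
        ((Fintype.card F ^ (d - j) - 1) * (Fintype.card F ^ (d - 1 - j) + 1))) := by
  intro m
  induction m with
  | zero =>
    intro _
    rw [card_TFr_zero]
    simp
  | succ k ih =>
    intro hk
    rw [hE F d k (by omega), ih (by omega), Finset.prod_range_succ]

/-- CNTID. -/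
theorem main (hF : Cfsg.Agent.Lib.Helper44.TPStmt.FrFib.{u})
    (hE : Cfsg.Agent.Lib.Helper44.TPStmt.FrExt.{u}) :
    Cfsg.Agent.Lib.Helper44.TPStmt.CntId.{u} := by
  intro F _ _ d m hm
  have h1 := hF F d m
  rw [card_TFr hE F d m hm] at h1
  have hq0 : 0 < Fintype.card F := Fintype.card_pos
  have h2 : ∏ j ∈ Finset.range m, (Fintype.card F ^ m - Fintype.card F ^ j) =
      (∏ j ∈ Finset.range m, Fintype.card F ^ j) *
        ∏ j ∈ Finset.range m, (Fintype.card F ^ (m - j) - 1) := by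
    rw [← Finset.prod_mul_distrib]
    apply Finset.prod_congr rfl
    intro j hj
    have hjm : j < m := Finset.mem_range.mp hj
    rw [Nat.mul_sub, mul_one, ← pow_add, Nat.add_sub_cancel' hjm.le]
  rw [h2, Finset.prod_mul_distrib] at h1
  have hpos : 0 < ∏ j ∈ Finset.range m, Fintype.card F ^ j :=
    Finset.prod_pos (fun j _ => pow_pos hq0 j)
  apply Nat.eq_of_mul_eq_mul_left hpos
  rw [h1]
  ring

end Cfsg.Agent.Lib.Helper86.TPCNTID
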