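import Mathlib
import Cfsg.Agent.Lib.Helper44.TPStmt

/-!
# S5973 piece G1E (helper86; assembly, `i` even): an invariant totally singular `m`-space
-/

set_option autoImplicit false

namespace Cfsg.Agent.Lib.Helper86.TPG1E

universe u

open Cfsg.Agent.Lib.Helper44.TPStmt
open Cfsg.Agent.Lib.Helper37.HypStmt (cc IPos)

/-- arithmetic core of G1E -/
theorem arithE (d m i t f0 b : ℕ) (hi : 0 < i) (hn : f0 + b * i = 2 * d)
    (H1 : t + 2 * (m / i) ≤ (2 * d) / i)
    (H2 : (2 * (m % i) ≤ i ∧ (2 * d) % i = 0 ∧ Odd ((2 * d) / i) ∧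
        t + 2 * (m / i) < (2 * d) / i) ∨
      (2 * (m % i) ≤ (2 * d) % i ∧ Even ((2 * d) / i)) ∨
      (2 * (m % i) < (2 * d) % i ∧ Odd ((2 * d) / i))) :
    (min (m / i) ((b + 1 - t) / 2) = 0 ∨
        i * (2 * min (m / i) ((b + 1 - t) / 2) + t) + f0 ≤ 2 * d + i) ∧
      i * min (m / i) ((b + 1 - t) / 2) ≤ m ∧
      (Even b → 2 * (m - i * min (m / i) ((b + 1 - t) / 2)) ≤ f0) ∧
      (Odd b → 0 < f0 → 2 * (m - i * min (m / i) ((b + 1 - t) / 2)) < f0) := by
  obtain ⟨s, hs⟩ : ∃ s, s = min (m / i) ((b + 1 - t) / 2) := ⟨_, rfl⟩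
  rw [← hs]
  obtain ⟨M, hM⟩ : ∃ M, M = m / i := ⟨_, rfl⟩
  obtain ⟨l, hl⟩ : ∃ l, l = m % i := ⟨_, rfl⟩
  obtain ⟨n', hn'⟩ : ∃ n', n' = (2 * d) / i := ⟨_, rfl⟩
  obtain ⟨k, hk⟩ : ∃ k, k = (2 * d) % i := ⟨_, rfl⟩
  rw [← hM, ← hn'] at H1
  rw [← hM, ← hl, ← hn', ← hk] at H2
  have hm : i * M + l = m := by
    rw [hM, hl]
    exact Nat.div_add_mod m i
  have hN : i * n' + k = 2 * d := by
    rw [hn', hk]
    exact Nat.div_add_mod (2 * d) i
  have hli : l < i := by
    rw [hl]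
    exact Nat.mod_lt _ hi
  have hki : k < i := by
    rw [hk]
    exact Nat.mod_lt _ hi
  have hsM : s ≤ M := by
    rw [hs, hM]
    exact min_le_left _ _
  have hs2 : s ≤ (b + 1 - t) / 2 := by
    rw [hs]
    exact min_le_right _ _
  have hsor : s = M ∨ s = (b + 1 - t) / 2 := by
    rw [hs, hM]
    rcases Nat.le_total (m / i) ((b + 1 - t) / 2) with h | h
    · left
      exact Nat.min_eq_left h
    · right
      exact Nat.min_eq_right h
  obtain ⟨PM, hPM⟩ : ∃ PM, PM = i * M := ⟨_, rfl⟩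
  obtain ⟨Ps, hPs⟩ : ∃ Ps, Ps = i * s := ⟨_, rfl⟩
  obtain ⟨Pn, hPn⟩ : ∃ Pn, Pn = i * n' := ⟨_, rfl⟩
  obtain ⟨Pb, hPb⟩ : ∃ Pb, Pb = b * i := ⟨_, rfl⟩
  rw [← hPM] at hm
  rw [← hPn] at hN
  rw [← hPb] at hn
  have hPsM : Ps ≤ PM := by
    rw [hPs, hPM]
    exact Nat.mul_le_mul_left i hsM
  have key : ∀ c : ℕ, 2 * M + b + c ≤ n' + 2 * s → 2 * PM + Pb + c * i ≤ Pn + 2 * Ps := by
    intro c h
    have h1 := Nat.mul_le_mul_left i h
    have e1 : i * (2 * M + b + c) = 2 * (i * M) + b * i + c * i := by ring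
    have e2 : i * (n' + 2 * s) = i * n' + 2 * (i * s) := by ring
    rw [e1, e2, ← hPM, ← hPb, ← hPn, ← hPs] at h1
    exact h1
  have hbn : b ≤ n' := by
    have h1 : i * b < i * (n' + 1) := by
      have e : i * (n' + 1) = i * n' + i := by ring
      rw [e, mul_comm i b, ← hPn, ← hPb]
      omega
    have h2 := Nat.lt_of_mul_lt_mul_left h1
    omega
  have hbn' : k = 0 → 0 < f0 → b < n' := by
    intro hk0 hf
    have h1 : i * b < i * n' := by
      rw [mul_comm i b, ← hPn, ← hPb]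
      omega
    exact Nat.lt_of_mul_lt_mul_left h1
  refine ⟨?_, ?_, ?_, ?_⟩
  · by_cases h0 : s = 0
    · left
      exact h0
    · right
      have h2 : 2 * s + t ≤ b + 1 := by omega
      have h3 := Nat.mul_le_mul_left i h2
      have e2 : i * (b + 1) = b * i + i := by ring
      rw [e2, ← hPb] at h3
      omega
  · rw [← hPs]
    omega
  · intro hbe
    rw [← hPs]
    have hb2 : b % 2 = 0 := Nat.even_iff.mp hbe
    rcases H2 with ⟨ha1, ha2, ha3, ha4⟩ | ⟨hb1, hb2'⟩ | ⟨hc1, hc2⟩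
    · have hn2 : n' % 2 = 1 := Nat.odd_iff.mp ha3
      have h := key 1 (by omega)
      omega
    · have h := key 0 (by omega)
      omega
    · have h := key 0 (by omega)
      omega
  · intro hbo hf
    rw [← hPs]
    have hb2 : b % 2 = 1 := Nat.odd_iff.mp hbo
    rcases H2 with ⟨ha1, ha2, ha3, ha4⟩ | ⟨hb1, hb2'⟩ | ⟨hc1, hc2⟩
    · have hn2 : n' % 2 = 1 := Nat.odd_iff.mp ha3
      have hlt := hbn' ha2 hf
      have h := key 2 (by omega)
      omega
    · have hn2 : n' % 2 = 0 := Nat.even_iff.mp hb2'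
      have h := key 1 (by omega)
      omega
    · have h := key 0 (by omega)
      omega

theorem stab_sup {F : Type u} [Field F] {d : ℕ} {x : Matrix (J d) (J d) F}
    {A B : Submodule F (J d → F)} (hA : Stab x A) (hB : Stab x B) : Stab x (A ⊔ B) := by
  unfold Stab at *
  rw [Submodule.map_sup]
  exact sup_le_sup hA hB

theorem stab_of_le_Fx {F : Type u} [Field F] {d : ℕ} (x : Matrix (J d) (J d) F)
    {W : Submodule F (J d → F)} (h : W ≤ Fx x) : Stab x W := by
  intro v hv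
  obtain ⟨w, hw, rfl⟩ := Submodule.mem_map.mp hv
  have h1 : w ∈ Fx x := h hw
  have h3 : (Matrix.toLin' x - LinearMap.id : (J d → F) →ₗ[F] (J d → F)) w = 0 :=
    LinearMap.mem_ker.mp h1
  rw [LinearMap.sub_apply, LinearMap.id_apply, sub_eq_zero] at h3
  rw [h3]
  exact hw

theorem main (hIPos : IPos.{u}) (hFixND : Cfsg.Agent.Lib.Helper44.TPStmt.FixND.{u})
    (hPerp : Cfsg.Agent.Lib.Helper44.TPStmt.Perp.{u})
    (hInv : Cfsg.Agent.Lib.Helper44.TPStmt.InvDim.{u})
    (hFxT : Cfsg.Agent.Lib.Helper44.TPStmt.FxType.{u})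
    (hTsIn : Cfsg.Agent.Lib.Helper44.TPStmt.TsIn.{u})
    (hTsEven : Cfsg.Agent.Lib.Helper44.TPStmt.TsEven.{u}) :
    Cfsg.Agent.Lib.Helper44.TPStmt.G1E.{u} := by
  intro F _ _ p _ _ d m hm1 hmd r _ hr2 hrp hiev him H1 H2 x hxiso hxr
  have hipos := hIPos F p r hrp
  have hfnd := hFixND F p d r hrp x hxiso hxr
  obtain ⟨Y, hYperp, hYnd, hYdisj, hYdim, hYstab⟩ :=
    hPerp F d (Fx (x : Matrix (J d) (J d) F)) hfnd
  have hYs : Stab (x : Matrix (J d) (J d) F) Y :=
    hYstab x hxiso (stab_of_le_Fx _ le_rfl)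
  have hdvd := hInv F p d r hrp x hxr Y hYs (by rw [inf_comm]; exact hYdisj)
  obtain ⟨b, hb⟩ := hdvd
  have hn : Module.finrank F ↥(Fx (x : Matrix (J d) (J d) F)) +
      b * orderOf ((Fintype.card F : ℕ) : ZMod r) = 2 * d := by
    rw [mul_comm, ← hb]
    exact hYdim
  obtain ⟨hA, hB, hCe, hCo⟩ := arithE d m (orderOf ((Fintype.card F : ℕ) : ZMod r))
    ((r - 1) / orderOf ((Fintype.card F : ℕ) : ZMod r)) _ b hipos hn H1 H2
  obtain ⟨U, hUstab, hUts, hUdim, hUbot, hUperp⟩ :=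
    hTsEven F p d r hr2 hrp hiev x hxiso hxr _ hA
  have hW0 : ∃ W0 : Submodule F (J d → F), W0 ≤ Fx (x : Matrix (J d) (J d) F) ∧
      TSub d F W0 ∧ Module.finrank F ↥W0 =
        m - orderOf ((Fintype.card F : ℕ) : ZMod r) *
          min (m / orderOf ((Fintype.card F : ℕ) : ZMod r))
            ((b + 1 - (r - 1) / orderOf ((Fintype.card F : ℕ) : ZMod r)) / 2) := by
    have hFT := hFxT F p d r hr2 hrp x hxiso hxr
    have hbq : (2 * d - Module.finrank F ↥(Fx (x : Matrix (J d) (J d) F))) /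
        orderOf ((Fintype.card F : ℕ) : ZMod r) = b := by
      have h1 : 2 * d - Module.finrank F ↥(Fx (x : Matrix (J d) (J d) F)) =
          b * orderOf ((Fintype.card F : ℕ) : ZMod r) := by omega
      rw [h1]
      exact Nat.mul_div_cancel b hipos
    rw [hbq] at hFT
    rcases Nat.even_or_odd b with hbe | hbo
    · have h1 := hCe hbe
      rcases Nat.lt_or_ge (2 * (m - orderOf ((Fintype.card F : ℕ) : ZMod r) *
          min (m / orderOf ((Fintype.card F : ℕ) : ZMod r))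
            ((b + 1 - (r - 1) / orderOf ((Fintype.card F : ℕ) : ZMod r)) / 2)))
          (Module.finrank F ↥(Fx (x : Matrix (J d) (J d) F))) with h2 | h2
      · exact hTsIn F d _ _ hfnd h2
      · obtain ⟨T, hTle, hTts, hTdim⟩ := hFT.mpr (Or.inr hbe)
        exact ⟨T, hTle, hTts, by omega⟩
    · have hf0 : 0 < Module.finrank F ↥(Fx (x : Matrix (J d) (J d) F)) := by
        by_contra h0
        have h0' : Module.finrank F ↥(Fx (x : Matrix (J d) (J d) F)) = 0 := by omega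
        have hplus : Plus d F (Fx (x : Matrix (J d) (J d) F)) := by
          refine ⟨⊥, bot_le, ?_, ?_⟩
          · intro w hw
            rw [(Submodule.mem_bot F).mp hw]
            simp [Cfsg.quadFormPlus]
          · rw [finrank_bot, h0']
        rcases hFT.mp hplus with h | h
        · exact (Nat.not_odd_iff_even.mpr hiev) h
        · exact (Nat.not_even_iff_odd.mpr hbo) h
      exact hTsIn F d _ _ hfnd (hCo hbo hf0)
  obtain ⟨W0, hW0le, hW0ts, hW0dim⟩ := hW0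
  refine ⟨U ⊔ W0, ?_, ?_, stab_sup hUstab (stab_of_le_Fx _ hW0le)⟩
  · have hdisj : U ⊓ W0 = ⊥ := by
      apply le_bot_iff.mp
      rw [← hUbot]
      exact inf_le_inf_left U hW0le
    have h1 := Submodule.finrank_sup_add_finrank_inf_eq U W0
    rw [hdisj, finrank_bot, add_zero, hUdim, hW0dim] at h1
    rw [h1]
    omega
  · intro w hw
    obtain ⟨u, hu, w0, hw0, rfl⟩ := Submodule.mem_sup.mp hw
    have h1 := hUperp u hu w0 (hW0le hw0)
    have h2 : Cfsg.quadFormPlus d F (u + w0) =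
        Cfsg.quadFormPlus d F u + Cfsg.quadFormPlus d F w0 +
          QuadraticMap.polar (Cfsg.quadFormPlus d F) u w0 := by
      rw [QuadraticMap.polar]
      ring
    rw [h2, hUts u hu, hW0ts w0 hw0, h1]
    simp

end Cfsg.Agent.Lib.Helper86.TPG1E
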