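import Mathlib

/-!
# Small rank lemmas for S5979 pieces (helper86)
-/

set_option autoImplicit false

namespace Cfsg.Agent.Lib.Helper86.TenRk

universe u

/-- the rank of a matrix unit is `1` -/
theorem rank_single {F : Type u} [Field F] {n : ℕ} (i j : Fin n) (c : F) (hc : c ≠ 0) :
    (Matrix.single i j c).rank = 1 := by
  have hrange : LinearMap.range (Matrix.single i j c).mulVecLin
      = Submodule.span F {(Pi.single i (1 : F) : Fin n → F)} := by
    ext v
    simp only [LinearMap.mem_range, Matrix.mulVecLin_apply, Submodule.mem_span_singleton]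
    constructor
    · rintro ⟨w, rfl⟩
      exact ⟨c * w j, (Matrix.single_mulVec_eq i j c w).symm⟩
    · rintro ⟨t, rfl⟩
      refine ⟨Pi.single j (c⁻¹ * t), ?_⟩
      rw [Matrix.single_mulVec_eq]
      simp [hc]
  rw [Matrix.rank, hrange]
  apply finrank_span_singleton
  intro h
  have := congrFun h i
  simp at this

/-- the rank of a diagonal matrix, as the cardinality of a filter -/
theorem rank_diagonal_filter {F : Type u} [Field F] [DecidableEq F] {n : ℕ} (w : Fin n → F) :
    (Matrix.diagonal w).rank = (Finset.univ.filter (fun i => w i ≠ 0)).card := by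
  rw [Matrix.rank_diagonal, Fintype.card_subtype]

end Cfsg.Agent.Lib.Helper86.TenRk
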