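import Cfsg.Agent.Lib.Helper37.TenStmt
import Cfsg.Agent.Lib.Helper86.TenRk

/-!
# S5979 piece DIAG2 (helper86)
-/

set_option autoImplicit false

namespace Cfsg.Agent.Lib.Helper86.TenDIAG2

universe u

open Cfsg.Agent.Lib.Helper37.TenStmt

theorem main : Diag2.{u} := by
  intro F _ _ r hr hr2 hdvd n hn
  classical
  have : Fact r.Prime := ⟨hr⟩
  have hcard : Nat.card Fˣ = Fintype.card F - 1 := by
    rw [Nat.card_eq_fintype_card, Fintype.card_units]
  obtain ⟨u, hu⟩ := exists_prime_orderOf_dvd_card' (G := Fˣ) r (by rw [hcard]; exact hdvd)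
  set lam : F := (u : F) with hlam
  have hlam0 : lam ≠ 0 := u.ne_zero
  have hlamr : lam ^ r = 1 := by
    have : u ^ r = 1 := by rw [← hu]; exact pow_orderOf_eq_one u
    rw [hlam, ← Units.val_pow_eq_pow_val, this, Units.val_one]
  have hlam1 : lam ≠ 1 := by
    intro h
    have : u = 1 := Units.ext h
    rw [this, orderOf_one] at hu
    exact hr.one_lt.ne hu
  have hlam2 : lam * lam ≠ 1 := by
    intro h
    have : u ^ 2 = 1 := Units.ext (by rw [Units.val_pow_eq_pow_val, pow_two]; exact h)
    have hd : r ∣ 2 := by rw [← hu]; exact orderOf_dvd_of_pow_eq_one this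
    exact hr2 ((Nat.prime_dvd_prime_iff_eq hr Nat.prime_two).mp hd)
  have hinv1 : lam⁻¹ ≠ 1 := by
    intro h
    exact hlam1 (inv_eq_one.mp h)
  have hinv2 : lam⁻¹ ≠ lam := by
    intro h
    apply hlam2
    calc lam * lam = lam * lam⁻¹ := by rw [h]
      _ = 1 := mul_inv_cancel₀ hlam0
  set w : Fin n → F := fun i => if i.val = 0 then lam else if i.val = 1 then lam⁻¹ else 1 with hw
  refine ⟨lam, Matrix.diagonal w, ?_, ?_, ?_, ?_⟩
  · rw [Matrix.det_diagonal]
    obtain ⟨m, rfl⟩ : ∃ m, n = m + 2 := ⟨n - 2, by omega⟩
    rw [Fin.prod_univ_succ, Fin.prod_univ_succ]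
    simp [hw, hlam0]
  · rw [Matrix.diagonal_pow, ← Matrix.diagonal_one]
    congr 1
    funext i
    simp only [hw, Pi.pow_apply]
    split_ifs <;> simp [hlamr, inv_pow]
  · have hsub : Matrix.diagonal w - 1 = Matrix.diagonal (fun i => w i - 1) := by
      rw [← Matrix.diagonal_one, Matrix.diagonal_sub]
    rw [hsub, TenRk.rank_diagonal_filter]
    have hfil : (Finset.univ.filter (fun i : Fin n => w i - 1 ≠ 0))
        = Finset.univ.filter (fun i : Fin n => i.val < 2) := by
      ext i
      simp only [Finset.mem_filter, Finset.mem_univ, true_and, hw]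
      by_cases h0 : i.val = 0
      · simp only [h0, if_true]
        constructor
        · intro _; omega
        · intro _; exact sub_ne_zero.mpr hlam1
      · by_cases h1 : i.val = 1
        · simp only [h1, if_true]
          constructor
          · intro _; omega
          · intro _
            simp only [one_ne_zero, if_false]
            exact sub_ne_zero.mpr hinv1
        · simp only [h0, h1, if_false, sub_self, ne_eq, not_true_eq_false, false_iff]
          omega
    rw [hfil, Fin.card_filter_val_lt]
    omega
  · have hsub : Matrix.diagonal w - lam • (1 : Matrix (Fin n) (Fin n) F)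
        = Matrix.diagonal (fun i => w i - lam) := by
      ext i j
      by_cases hij : i = j
      · subst hij; simp
      · simp [hij, Matrix.diagonal_apply_ne, Matrix.one_apply_ne]
    rw [hsub, TenRk.rank_diagonal_filter]
    have h0n : 0 < n := by omega
    have hfil : (Finset.univ.filter (fun i : Fin n => w i - lam ≠ 0))
        = Finset.univ.erase (⟨0, h0n⟩ : Fin n) := by
      ext i
      simp only [Finset.mem_filter, Finset.mem_univ, true_and, hw, Finset.mem_erase, and_true]
      by_cases h0 : i.val = 0
      · simp only [h0, if_true, sub_self, ne_eq, not_true_eq_false, false_iff, not_not]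
        exact Fin.ext h0
      · have hne : i ≠ ⟨0, h0n⟩ := fun h => h0 (by rw [h])
        by_cases h1 : i.val = 1
        · simp only [h1, if_true, one_ne_zero, if_false]
          exact ⟨fun _ => hne, fun _ => sub_ne_zero.mpr hinv2⟩
        · simp only [h0, h1, if_false]
          exact ⟨fun _ => hne, fun _ => sub_ne_zero.mpr (Ne.symm hlam1)⟩
    rw [hfil, Finset.card_erase_of_mem (Finset.mem_univ _), Finset.card_univ, Fintype.card_fin]

end Cfsg.Agent.Lib.Helper86.TenDIAG2
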