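import Cfsg.Agent.Lib.Helper37.TenStmt

/-!
# S5979 piece KRANKS (helper86): `rank (1 ⊗ₖ M) = a * rank M`, via the rank normal form.
-/

set_option autoImplicit false

namespace Cfsg.Agent.Lib.Helper86.TenKRANKS

universe u

open Cfsg.Agent.Lib.Helper37.TenStmt
open scoped Kronecker

theorem main : KRankS.{u} := by
  intro F _ a b M
  classical
  obtain ⟨V, U, e, hV, hU, hVMU⟩ := Matrix.exists_rank_normal_form M
  have hunit : ∀ W : Matrix (Fin b) (Fin b) F, IsUnit W →
      IsUnit ((1 : Matrix (Fin a) (Fin a) F) ⊗ₖ W).det := by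
    intro W hW
    obtain ⟨W', hW'⟩ := hW.exists_right_inv
    apply Matrix.isUnit_det_of_right_inverse (B := (1 : Matrix (Fin a) (Fin a) F) ⊗ₖ W')
    rw [← Matrix.mul_kronecker_mul, hW', one_mul, Matrix.one_kronecker_one]
  set d : Fin b → F := fun j => if (e j).isLeft then 1 else 0 with hd
  have hD : (Matrix.fromBlocks (1 : Matrix (Fin M.rank) (Fin M.rank) F) 0 0
      (0 : Matrix (Fin (Fintype.card (Fin b) - M.rank)) (Fin (Fintype.card (Fin b) - M.rank)) F)).submatrix e e
      = Matrix.diagonal d := by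
    ext i j
    simp only [Matrix.submatrix_apply, Matrix.diagonal_apply, hd]
    by_cases hij : i = j
    · subst hij
      rcases h : e i with x | y <;> simp
    · have hne : e i ≠ e j := fun h => hij (e.injective h)
      rcases hi : e i with x | y <;> rcases hj : e j with x' | y' <;>
        simp [hij, Matrix.one_apply]
      intro hxx
      apply hne
      rw [hi, hj, hxx]
  have h1 : M.rank = (Matrix.diagonal d).rank := by
    rw [← hD, ← hVMU,
      Matrix.rank_mul_eq_left_of_isUnit_det _ _ ((Matrix.isUnit_iff_isUnit_det _).mp hU),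
      Matrix.rank_mul_eq_right_of_isUnit_det _ _ ((Matrix.isUnit_iff_isUnit_det _).mp hV)]
  have h2 : ((1 : Matrix (Fin a) (Fin a) F) ⊗ₖ M).rank
      = ((1 : Matrix (Fin a) (Fin a) F) ⊗ₖ Matrix.diagonal d).rank := by
    rw [← hD, ← hVMU]
    have h3 : (1 : Matrix (Fin a) (Fin a) F) ⊗ₖ (V * M * U)
        = (1 ⊗ₖ V) * (1 ⊗ₖ M) * (1 ⊗ₖ U) := by
      rw [← Matrix.mul_kronecker_mul, ← Matrix.mul_kronecker_mul, one_mul, one_mul]
    rw [h3, Matrix.rank_mul_eq_left_of_isUnit_det _ _ (hunit U hU),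
      Matrix.rank_mul_eq_right_of_isUnit_det _ _ (hunit V hV)]
  rw [h2, h1, ← Matrix.diagonal_one, Matrix.diagonal_kronecker_diagonal, Matrix.rank_diagonal,
    Matrix.rank_diagonal, Fintype.card_subtype, Fintype.card_subtype]
  have h4 : (Finset.univ.filter (fun p : Fin a × Fin b => (1 : F) * d p.2 ≠ 0))
      = Finset.univ ×ˢ (Finset.univ.filter (fun j => d j ≠ 0)) := by
    ext ⟨i, j⟩
    simp
  rw [h4, Finset.card_product, Finset.card_univ, Fintype.card_fin]

end Cfsg.Agent.Lib.Helper86.TenKRANKS
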