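import Cfsg.Agent.Lib.Helper37.TenStmt

/-!
# S5979 piece KSCAL (helper86)
-/

set_option autoImplicit false

namespace Cfsg.Agent.Lib.Helper86.TenKSCAL

universe u

open Cfsg.Agent.Lib.Helper37.TenStmt
open scoped Kronecker

theorem main : KScal.{u} := by
  intro F _ a b ha hb A B h
  set i0 : Fin a := ⟨0, ha⟩ with hi0
  set j0 : Fin b := ⟨0, hb⟩ with hj0
  have key : ∀ i i' j j', A i i' * B j j' = if (i, j) = (i', j') then 1 else 0 := by
    intro i i' j j'
    have := congrFun (congrFun h (i, j)) (i', j')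
    rw [Matrix.kroneckerMap_apply, Matrix.one_apply] at this
    exact this
  have h00 : A i0 i0 * B j0 j0 = 1 := by rw [key]; simp
  have hw : A i0 i0 ≠ 0 := left_ne_zero_of_mul_eq_one h00
  have hB0 : B j0 j0 = (A i0 i0)⁻¹ := eq_inv_of_mul_eq_one_right h00
  refine ⟨A i0 i0, hw, ?_, ?_⟩
  · ext i i'
    have h1 := key i i' j0 j0
    rw [hB0] at h1
    rw [Matrix.smul_apply, Matrix.one_apply, smul_eq_mul]
    have h2 : A i i' = (A i i' * (A i0 i0)⁻¹) * A i0 i0 := by
      rw [mul_assoc, inv_mul_cancel₀ hw, mul_one]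
    rw [h2, h1]
    by_cases hii : i = i'
    · simp [hii]
    · simp [hii]
  · ext j j'
    have h1 := key i0 i0 j j'
    rw [Matrix.smul_apply, Matrix.one_apply, smul_eq_mul]
    have h2 : B j j' = (A i0 i0)⁻¹ * (A i0 i0 * B j j') := by
      rw [← mul_assoc, inv_mul_cancel₀ hw, one_mul]
    rw [h2, h1]
    by_cases hjj : j = j'
    · simp [hjj]
    · simp [hjj]

end Cfsg.Agent.Lib.Helper86.TenKSCAL
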