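import Cfsg.Agent.Lib.Helper37.TenStmt
import Cfsg.Agent.Lib.Helper86.TenRk

/-!
# S5979 piece NEG2 (helper86)
-/

set_option autoImplicit false

namespace Cfsg.Agent.Lib.Helper86.TenNEG2

universe u

open Cfsg.Agent.Lib.Helper37.TenStmt

theorem main : Neg2.{u} := by
  intro F _ h2 n hn
  classical
  set w : Fin n → F := fun i => if i.val < 2 then -1 else 1 with hw
  have hcard : (Finset.univ.filter (fun i : Fin n => i.val < 2)).card = 2 := by
    rw [Fin.card_filter_val_lt]; omega
  refine ⟨Matrix.diagonal w, ?_, ?_, ?_⟩
  · rw [Matrix.det_diagonal]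
    simp only [hw]
    rw [Finset.prod_ite, Finset.prod_const, Finset.prod_const_one, hcard]
    simp
  · rw [pow_two, Matrix.diagonal_mul_diagonal, ← Matrix.diagonal_one]
    congr 1
    funext i
    simp only [hw]
    split_ifs <;> simp
  · have hsub : Matrix.diagonal w - 1 = Matrix.diagonal (fun i => w i - 1) := by
      rw [← Matrix.diagonal_one, Matrix.diagonal_sub]
    rw [hsub, TenRk.rank_diagonal_filter, ← hcard]
    congr 1
    ext i
    simp only [Finset.mem_filter, Finset.mem_univ, true_and, hw]
    by_cases h : i.val < 2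
    · simp only [h, if_true, iff_true]
      intro h'
      apply h2
      linear_combination -h'
    · simp [h]

end Cfsg.Agent.Lib.Helper86.TenNEG2
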