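import Cfsg.Agent.Lib.Helper37.TenStmt

/-!
# S5979 piece PARITY (helper86)
-/

set_option autoImplicit false

namespace Cfsg.Agent.Lib.Helper86.TenPARITY

universe u

open Cfsg.Agent.Lib.Helper37.TenStmt

theorem main : Parity.{u} := by
  intro F _ _ h2 n hn hle d hd
  set q := Fintype.card F with hq
  have hq1 : q - 1 ≠ 0 := by
    have : 1 < q := Fintype.one_lt_card
    omega
  set s := padicValNat 2 (q - 1) with hs
  have hs1 : 2 ^ s ∣ q - 1 := pow_padicValNat_dvd
  obtain ⟨t, ht⟩ := hs1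
  have htodd : Odd t := by
    rw [← Nat.not_even_iff_odd]
    intro he
    obtain ⟨t', rfl⟩ := he.two_dvd
    have hdv : 2 ^ (s + 1) ∣ q - 1 := ⟨t', by rw [ht, pow_succ]; ring⟩
    exact pow_succ_padicValNat_not_dvd hq1 hdv
  have hn2 : 2 ^ s ∣ n := (pow_dvd_pow 2 hle).trans pow_padicValNat_dvd
  obtain ⟨n', hn'⟩ := hn2
  have hd0 : d ≠ 0 := by
    rintro rfl
    rw [zero_pow (by omega)] at hd
    have : (1 : F) = 0 := by linear_combination hd
    exact one_ne_zero this
  have h1 : d ^ (q - 1) = 1 := FiniteField.pow_card_sub_one_eq_one d hd0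
  have e1 : d ^ (n * t) = 1 := by
    have : n * t = (q - 1) * n' := by rw [hn', ht]; ring
    rw [this, pow_mul, h1, one_pow]
  have e2 : d ^ (n * t) = -1 := by
    rw [pow_mul, hd, htodd.neg_one_pow]
  have h3 : (2 : F) = 0 := by
    have : (1 : F) = -1 := e1.symm.trans e2
    linear_combination this
  exact h2 h3

end Cfsg.Agent.Lib.Helper86.TenPARITY
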