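import Cfsg.Agent.Lib.Helper37.TenStmt
import Cfsg.Agent.Lib.Helper86.TenRk

/-!
# S5979 piece TRANSV (helper86)
-/

set_option autoImplicit false

namespace Cfsg.Agent.Lib.Helper86.TenTRANSV

universe u

open Cfsg.Agent.Lib.Helper37.TenStmt

theorem main : Transv.{u} := by
  intro F _ p _ _ n hn
  have h0 : (0 : ℕ) < n := by omega
  have h1 : (1 : ℕ) < n := by omega
  set i : Fin n := ⟨0, h0⟩ with hi
  set j : Fin n := ⟨1, h1⟩ with hj
  have hij : i ≠ j := by
    intro h
    have := congrArg Fin.val h
    simp [hi, hj] at this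
  set N : Matrix (Fin n) (Fin n) F := Matrix.single i j 1 with hN
  have hNN : N * N = 0 := by
    rw [hN, Matrix.single_mul_single_of_ne _ _ _ _ (Ne.symm hij)]
  have hpow : ∀ k : ℕ, (1 + N) ^ k = 1 + (k : F) • N := by
    intro k
    induction k with
    | zero => simp
    | succ k ih =>
      rw [pow_succ, ih, mul_add, add_mul, add_mul]
      simp only [smul_mul_assoc, hNN, mul_one, one_mul, smul_zero, add_zero, Nat.cast_succ,
        add_smul, one_smul]
      abel
  refine ⟨Matrix.transvection i j 1, Matrix.det_transvection_of_ne i j hij 1, ?_, ?_⟩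
  · rw [Matrix.transvection, ← hN, hpow, CharP.cast_eq_zero F p, zero_smul, add_zero]
  · rw [Matrix.transvection, add_sub_cancel_left]
    exact TenRk.rank_single i j 1 one_ne_zero

end Cfsg.Agent.Lib.Helper86.TenTRANSV
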