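import Mathlib
import Cfsg.Prelude.Def_Solvable
import Cfsg.Prelude.Def_Transfer
import Cfsg.Agent.Lib.Helper93.TransvCent
import Cfsg.Agent.Lib.Helper93.LargeExtra
import Cfsg.Agent.Lib.Helper30.XSExt
import Cfsg.Agent.Lib.Helper90.FStarES
import Cfsg.Agent.Lib.Helper78.Fitting

set_option autoImplicit false

/-!
# The structure of the centraliser of a transvection in `SL(5, 2)`

The centraliser `T` of `1 + E₀₁` has shape `2^{1+6} : SL(3, 2)`: the lower right block is a
homomorphism onto `SL(3, 2)` whose kernel is extraspecial of order `2^7`, equal to `O_2(T)`,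
self-centralising in `T`, and complemented by the block diagonal matrices.
-/

namespace Cfsg.Agent.Lib.Helper86.TransvStruct

open Cfsg.Agent.Lib.Helper93.TransvCent Cfsg.Agent.Lib.Helper30.XSExt

/-- Sum over `Fin 5`, split as `0`, `1` and the last three indices. -/
theorem sum5 (F : Fin 5 → ZMod 2) : ∑ k, F k = F 0 + F 1 + ∑ k : Fin 3, F k.succ.succ := by
  rw [Fin.sum_univ_succ, Fin.sum_univ_succ, ← add_assoc]
  rfl

theorem ss_ne_zero (k : Fin 3) : (k.succ.succ : Fin 5) ≠ 0 := Fin.succ_ne_zero _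

theorem ss_ne_one (k : Fin 3) : (k.succ.succ : Fin 5) ≠ 1 := by
  intro h
  have := congrArg Fin.val h
  simp at this

theorem zero_ne_one5 : (0 : Fin 5) ≠ 1 := by decide

/-- The shape of the matrices commuting with the transvection. -/
structure Ent (t : Matrix (Fin 5) (Fin 5) (ZMod 2)) : Prop where
  c0 : ∀ i : Fin 5, i ≠ 0 → t i 0 = 0
  r1 : ∀ j : Fin 5, j ≠ 1 → t 1 j = 0
  e00 : t 0 0 = 1
  e11 : t 1 1 = 1

theorem blk_apply (g : Matrix (Fin 5) (Fin 5) (ZMod 2)) (i j : Fin 3) :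
    blk g i j = g i.succ.succ j.succ.succ := rfl

theorem mul_01 {t t' : Matrix (Fin 5) (Fin 5) (ZMod 2)} (h : Ent t) (h' : Ent t') :
    (t * t') 0 1 = t 0 1 + t' 0 1 + ∑ k : Fin 3, t 0 k.succ.succ * t' k.succ.succ 1 := by
  rw [Matrix.mul_apply, sum5, h.e00, h'.e11, one_mul, mul_one]
  ring

theorem mul_i1 {t t' : Matrix (Fin 5) (Fin 5) (ZMod 2)} (h : Ent t) (h' : Ent t') (i : Fin 3) :
    (t * t') i.succ.succ 1 =
      t i.succ.succ 1 + ∑ k : Fin 3, t i.succ.succ k.succ.succ * t' k.succ.succ 1 := by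
  rw [Matrix.mul_apply, sum5, h.c0 _ (ss_ne_zero i), h'.e11, zero_mul, mul_one, zero_add]

theorem mul_0j {t t' : Matrix (Fin 5) (Fin 5) (ZMod 2)} (h : Ent t) (h' : Ent t') (j : Fin 3) :
    (t * t') 0 j.succ.succ =
      t' 0 j.succ.succ + ∑ k : Fin 3, t 0 k.succ.succ * t' k.succ.succ j.succ.succ := by
  rw [Matrix.mul_apply, sum5, h.e00, h'.r1 _ (ss_ne_one j), one_mul, mul_zero, add_zero]

theorem sum_mul_one_right (a : Fin 3 → ZMod 2) (j : Fin 3) :
    ∑ k : Fin 3, a k * (1 : Matrix (Fin 3) (Fin 3) (ZMod 2)) k j = a j := by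
  simp [Matrix.one_apply]

theorem sum_one_mul_left (a : Fin 3 → ZMod 2) (i : Fin 3) :
    ∑ k : Fin 3, (1 : Matrix (Fin 3) (Fin 3) (ZMod 2)) i k * a k = a i := by
  simp [Matrix.one_apply]

section Cent

variable {s : Matrix.SpecialLinearGroup (Fin 5) (ZMod 2)}

theorem ent_of_mem (hs : (s : Matrix (Fin 5) (Fin 5) (ZMod 2)) = Matrix.transvection 0 1 1)
    {g : Matrix.SpecialLinearGroup (Fin 5) (ZMod 2)}
    (hg : g ∈ Subgroup.centralizer ({s} : Set (Matrix.SpecialLinearGroup (Fin 5) (ZMod 2)))) :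
    Ent g.1 := by
  obtain ⟨h1, h2, h3, h4⟩ := cent_entries hs hg
  exact ⟨h1, h2, h3, h4⟩

theorem mem_of_ent (hs : (s : Matrix (Fin 5) (Fin 5) (ZMod 2)) = Matrix.transvection 0 1 1)
    {g : Matrix.SpecialLinearGroup (Fin 5) (ZMod 2)} (h : Ent g.1) :
    g ∈ Subgroup.centralizer ({s} : Set (Matrix.SpecialLinearGroup (Fin 5) (ZMod 2))) := by
  rw [Subgroup.mem_centralizer_singleton_iff]
  apply Subtype.ext
  show g.1 * s.1 = s.1 * g.1
  have hs' : s.1 = Matrix.transvection 0 1 1 := hs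
  rw [hs', Matrix.transvection, mul_add, add_mul, mul_one, one_mul]
  congr 1
  ext i j
  by_cases hj : j = 1
  · subst hj
    rw [Matrix.mul_single_apply_same, mul_one]
    by_cases hi : i = 0
    · subst hi
      rw [Matrix.single_mul_apply_same, one_mul, h.e00, h.e11]
    · rw [Matrix.single_mul_apply_of_ne _ _ _ _ _ hi, h.c0 i hi]
  · rw [Matrix.mul_single_apply_of_ne _ _ _ _ _ hj]
    by_cases hi : i = 0
    · subst hi
      rw [Matrix.single_mul_apply_same, one_mul, h.r1 j hj]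
    · rw [Matrix.single_mul_apply_of_ne _ _ _ _ _ hi]

theorem det_blk (hs : (s : Matrix (Fin 5) (Fin 5) (ZMod 2)) = Matrix.transvection 0 1 1)
    (t : ↥(Subgroup.centralizer ({s} : Set (Matrix.SpecialLinearGroup (Fin 5) (ZMod 2))))) :
    (blk t.1.1).det = 1 := by
  have h := blk_mul (A := t.1.1) (A' := (t⁻¹).1.1) (ent_of_mem hs t.2).c0
    (ent_of_mem hs (t⁻¹).2).r1
  have e : t.1.1 * (t⁻¹).1.1 = 1 := by
    have h0 : (t * t⁻¹).1.1 = (1 : Matrix (Fin 5) (Fin 5) (ZMod 2)) := by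
      rw [mul_inv_cancel]; rfl
    exact h0
  rw [e, blk_one] at h
  have hd : (blk t.1.1).det * (blk (t⁻¹).1.1).det = 1 := by
    rw [← Matrix.det_mul, ← h, Matrix.det_one]
  have h2 : ∀ a b : ZMod 2, a * b = 1 → a = 1 := by decide
  exact h2 _ _ hd

/-- The lower right block, as a homomorphism to `SL(3, 2)`. -/
noncomputable def π (hs : (s : Matrix (Fin 5) (Fin 5) (ZMod 2)) = Matrix.transvection 0 1 1) :
    ↥(Subgroup.centralizer ({s} : Set (Matrix.SpecialLinearGroup (Fin 5) (ZMod 2)))) →*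
      Matrix.SpecialLinearGroup (Fin 3) (ZMod 2) where
  toFun t := ⟨blk t.1.1, det_blk hs t⟩
  map_one' := Subtype.ext blk_one
  map_mul' t t' := Subtype.ext (blk_mul (ent_of_mem hs t.2).c0 (ent_of_mem hs t'.2).r1)

theorem π_coe (hs : (s : Matrix (Fin 5) (Fin 5) (ZMod 2)) = Matrix.transvection 0 1 1)
    (t : ↥(Subgroup.centralizer ({s} : Set (Matrix.SpecialLinearGroup (Fin 5) (ZMod 2))))) :
    (π hs t).1 = blk t.1.1 := rfl

theorem mem_ker (hs : (s : Matrix (Fin 5) (Fin 5) (ZMod 2)) = Matrix.transvection 0 1 1)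
    (t : ↥(Subgroup.centralizer ({s} : Set (Matrix.SpecialLinearGroup (Fin 5) (ZMod 2))))) :
    t ∈ (π hs).ker ↔ blk t.1.1 = 1 := by
  rw [MonoidHom.mem_ker]
  constructor
  · intro h; exact congrArg Subtype.val h
  · intro h; exact Subtype.ext h

/-- The kernel of the block map, in the cocycle model of the extraspecial group. -/
noncomputable def fQ (hs : (s : Matrix (Fin 5) (Fin 5) (ZMod 2)) = Matrix.transvection 0 1 1) :
    ↥(π hs).ker →* Ext (Coc.hyp 3) where
  toFun q := ⟨q.1.1.1 0 1, fun i => (q.1.1.1 i.succ.succ 1, q.1.1.1 0 i.succ.succ)⟩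
  map_one' := by
    apply Ext.ext
    · show (1 : Matrix (Fin 5) (Fin 5) (ZMod 2)) 0 1 = 0
      exact Matrix.one_apply_ne zero_ne_one5
    · funext i
      show ((1 : Matrix (Fin 5) (Fin 5) (ZMod 2)) i.succ.succ 1,
        (1 : Matrix (Fin 5) (Fin 5) (ZMod 2)) 0 i.succ.succ) = (0, 0)
      rw [Matrix.one_apply_ne (ss_ne_one i), Matrix.one_apply_ne (ss_ne_zero i).symm]
  map_mul' q q' := by
    have hq := ent_of_mem hs q.1.2
    have hq' := ent_of_mem hs q'.1.2
    have hb := (mem_ker hs q.1).mp q.2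
    have hb' := (mem_ker hs q'.1).mp q'.2
    apply Ext.ext
    · show (q.1.1.1 * q'.1.1.1) 0 1 = q.1.1.1 0 1 + q'.1.1.1 0 1 + (Coc.hyp 3).β _ _
      rw [mul_01 hq hq', Coc.hyp_β]
    · funext i
      show ((q.1.1.1 * q'.1.1.1) i.succ.succ 1, (q.1.1.1 * q'.1.1.1) 0 i.succ.succ) =
        (q.1.1.1 i.succ.succ 1 + q'.1.1.1 i.succ.succ 1,
          q.1.1.1 0 i.succ.succ + q'.1.1.1 0 i.succ.succ)
      rw [mul_i1 hq hq', mul_0j hq hq']
      have e1 : ∀ k : Fin 3, q.1.1.1 i.succ.succ k.succ.succ =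
          (1 : Matrix (Fin 3) (Fin 3) (ZMod 2)) i k := fun k => congrFun (congrFun hb i) k
      have e2 : ∀ k : Fin 3, q'.1.1.1 k.succ.succ i.succ.succ =
          (1 : Matrix (Fin 3) (Fin 3) (ZMod 2)) k i := fun k => congrFun (congrFun hb' k) i
      simp only [e1, e2, sum_one_mul_left, sum_mul_one_right]
      rw [add_comm (q'.1.1.1 0 i.succ.succ)]

theorem fQ_injective (hs : (s : Matrix (Fin 5) (Fin 5) (ZMod 2)) = Matrix.transvection 0 1 1) :
    Function.Injective (fQ hs) := by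
  intro q q' h
  have hq := ent_of_mem hs q.1.2
  have hq' := ent_of_mem hs q'.1.2
  have hb := (mem_ker hs q.1).mp q.2
  have hb' := (mem_ker hs q'.1).mp q'.2
  have hc : q.1.1.1 0 1 = q'.1.1.1 0 1 := congrArg Ext.c h
  have hv : ∀ i : Fin 3, (q.1.1.1 i.succ.succ 1, q.1.1.1 0 i.succ.succ) =
      (q'.1.1.1 i.succ.succ 1, q'.1.1.1 0 i.succ.succ) := fun i => congrFun (congrArg Ext.v h) i
  apply Subtype.ext
  apply Subtype.ext
  apply Subtype.ext
  ext i j
  induction i using Fin.cases with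
  | zero =>
    induction j using Fin.cases with
    | zero => rw [hq.e00, hq'.e00]
    | succ j =>
      induction j using Fin.cases with
      | zero => exact hc
      | succ j => exact (Prod.ext_iff.mp (hv j)).2
  | succ i =>
    induction i using Fin.cases with
    | zero =>
      by_cases hj : j = 1
      · subst hj
        exact hq.e11.trans hq'.e11.symm
      · exact (hq.r1 j hj).trans (hq'.r1 j hj).symm
    | succ i =>
      induction j using Fin.cases with
      | zero => rw [hq.c0 _ (Fin.succ_ne_zero _), hq'.c0 _ (Fin.succ_ne_zero _)]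
      | succ j =>
        induction j using Fin.cases with
        | zero => exact (Prod.ext_iff.mp (hv i)).1
        | succ j =>
          have e1 : q.1.1.1 i.succ.succ j.succ.succ =
              (1 : Matrix (Fin 3) (Fin 3) (ZMod 2)) i j := congrFun (congrFun hb i) j
          have e2 : q'.1.1.1 i.succ.succ j.succ.succ =
              (1 : Matrix (Fin 3) (Fin 3) (ZMod 2)) i j := congrFun (congrFun hb' i) j
          exact e1.trans e2.symm

end Cent

section Card

variable {s : Matrix.SpecialLinearGroup (Fin 5) (ZMod 2)}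

theorem card_SL3_le : Nat.card (Matrix.SpecialLinearGroup (Fin 3) (ZMod 2)) ≤ 168 := by
  rw [← card_GL3]
  apply Nat.card_le_card_of_injective (Matrix.SpecialLinearGroup.toGL)
  intro A B h
  apply Subtype.ext
  have := congrArg (fun u : GL (Fin 3) (ZMod 2) => (u : Matrix (Fin 3) (Fin 3) (ZMod 2))) h
  exact this

theorem card_ext : Nat.card (Ext (Coc.hyp 3)) = 128 := by
  rw [Ext.card, Nat.card_eq_fintype_card]
  simp [ZMod.card]

theorem card_ker (hs : (s : Matrix (Fin 5) (Fin 5) (ZMod 2)) = Matrix.transvection 0 1 1)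
    (hcard : 21504 ≤ Nat.card
      ↥(Subgroup.centralizer ({s} : Set (Matrix.SpecialLinearGroup (Fin 5) (ZMod 2))))) :
    Nat.card ↥(π hs).ker = 128 := by
  have h1 : Nat.card ↥(π hs).ker ≤ 128 := by
    rw [← card_ext]
    exact Nat.card_le_card_of_injective _ (fQ_injective hs)
  have h2 : Nat.card ↥(π hs).range ≤ 168 :=
    le_trans (Nat.card_le_card_of_injective _ Subtype.val_injective) card_SL3_le
  have h3 := Subgroup.card_mul_index (π hs).ker
  rw [Subgroup.index_ker] at h3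
  by_contra hne
  have h4 : Nat.card ↥(π hs).ker ≤ 127 := by omega
  have h5 : Nat.card ↥(π hs).ker * Nat.card ↥(π hs).range ≤ 127 * 168 := Nat.mul_le_mul h4 h2
  omega

/-- The kernel of the block map is the extraspecial group `2^{1+6}_+`. -/
noncomputable def kerEquiv (hs : (s : Matrix (Fin 5) (Fin 5) (ZMod 2)) = Matrix.transvection 0 1 1)
    (hcard : 21504 ≤ Nat.card
      ↥(Subgroup.centralizer ({s} : Set (Matrix.SpecialLinearGroup (Fin 5) (ZMod 2))))) :
    ↥(π hs).ker ≃* Ext (Coc.hyp 3) :=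
  MulEquiv.ofBijective (fQ hs)
    ((fQ_injective hs).bijective_of_nat_card_le (by rw [card_ker hs hcard, card_ext]))

theorem kerEquiv_apply (hs : (s : Matrix (Fin 5) (Fin 5) (ZMod 2)) = Matrix.transvection 0 1 1)
    (hcard : 21504 ≤ Nat.card
      ↥(Subgroup.centralizer ({s} : Set (Matrix.SpecialLinearGroup (Fin 5) (ZMod 2)))))
    (q : ↥(π hs).ker) : kerEquiv hs hcard q = fQ hs q := rfl

theorem es_ker (hs : (s : Matrix (Fin 5) (Fin 5) (ZMod 2)) = Matrix.transvection 0 1 1)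
    (hcard : 21504 ≤ Nat.card
      ↥(Subgroup.centralizer ({s} : Set (Matrix.SpecialLinearGroup (Fin 5) (ZMod 2))))) :
    Cfsg.IsExtraspecial 2 ↥(π hs).ker :=
  Cfsg.Agent.Lib.Helper90.FStarES.isExtraspecial_of_mulEquiv (kerEquiv hs hcard).symm
    Ext.extraspecial

end Card

/-! ### The block diagonal complement -/

/-- The block diagonal matrix `diag(1, 1, A)`. -/
def emb (A : Matrix (Fin 3) (Fin 3) (ZMod 2)) : Matrix (Fin 5) (Fin 5) (ZMod 2) := fun i j =>
  if h : 2 ≤ i.val ∧ 2 ≤ j.val then A ⟨i.val - 2, by omega⟩ ⟨j.val - 2, by omega⟩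
  else if i = j then 1 else 0

theorem emb_ss (A : Matrix (Fin 3) (Fin 3) (ZMod 2)) (i j : Fin 3) :
    emb A i.succ.succ j.succ.succ = A i j := by
  unfold emb
  rw [dif_pos ⟨by rw [Fin.val_succ, Fin.val_succ]; omega, by rw [Fin.val_succ, Fin.val_succ]; omega⟩]
  congr 1 <;> (apply Fin.ext; simp)

theorem emb_low (A : Matrix (Fin 3) (Fin 3) (ZMod 2)) {i j : Fin 5} (h : i.val < 2 ∨ j.val < 2) :
    emb A i j = if i = j then 1 else 0 := by
  unfold emb
  rw [dif_neg (by omega)]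

theorem emb_00 (A : Matrix (Fin 3) (Fin 3) (ZMod 2)) : emb A 0 0 = 1 := by
  rw [emb_low A (Or.inl (by decide)), if_pos rfl]

theorem emb_01 (A : Matrix (Fin 3) (Fin 3) (ZMod 2)) : emb A 0 1 = 0 := by
  rw [emb_low A (Or.inl (by decide)), if_neg (by decide)]

theorem emb_0s (A : Matrix (Fin 3) (Fin 3) (ZMod 2)) (k : Fin 3) : emb A 0 k.succ.succ = 0 := by
  rw [emb_low A (Or.inl (by decide)), if_neg (ss_ne_zero k).symm]

theorem emb_10 (A : Matrix (Fin 3) (Fin 3) (ZMod 2)) : emb A 1 0 = 0 := by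
  rw [emb_low A (Or.inl (by decide)), if_neg (by decide)]

theorem emb_11 (A : Matrix (Fin 3) (Fin 3) (ZMod 2)) : emb A 1 1 = 1 := by
  rw [emb_low A (Or.inl (by decide)), if_pos rfl]

theorem emb_1s (A : Matrix (Fin 3) (Fin 3) (ZMod 2)) (k : Fin 3) : emb A 1 k.succ.succ = 0 := by
  rw [emb_low A (Or.inl (by decide)), if_neg (ss_ne_one k).symm]

theorem emb_s0 (A : Matrix (Fin 3) (Fin 3) (ZMod 2)) (k : Fin 3) : emb A k.succ.succ 0 = 0 := by
  rw [emb_low A (Or.inr (by decide)), if_neg (ss_ne_zero k)]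

theorem emb_s1 (A : Matrix (Fin 3) (Fin 3) (ZMod 2)) (k : Fin 3) : emb A k.succ.succ 1 = 0 := by
  rw [emb_low A (Or.inr (by decide)), if_neg (ss_ne_one k)]

theorem fin5_cases (P : Fin 5 → Prop) (h0 : P 0) (h1 : P 1) (hs : ∀ k : Fin 3, P k.succ.succ) :
    ∀ i, P i := by
  intro i
  induction i using Fin.cases with
  | zero => exact h0
  | succ i =>
    induction i using Fin.cases with
    | zero => exact h1
    | succ i => exact hs i

theorem ent_emb (A : Matrix (Fin 3) (Fin 3) (ZMod 2)) : Ent (emb A) where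
  c0 := by
    intro i hi
    rw [emb_low A (Or.inr (by decide)), if_neg hi]
  r1 := by
    intro j hj
    rw [emb_low A (Or.inl (by decide)), if_neg (Ne.symm hj)]
  e00 := emb_00 A
  e11 := emb_11 A

theorem blk_emb (A : Matrix (Fin 3) (Fin 3) (ZMod 2)) : blk (emb A) = A := by
  ext i j
  exact emb_ss A i j

theorem emb_mul (A B : Matrix (Fin 3) (Fin 3) (ZMod 2)) : emb A * emb B = emb (A * B) := by
  ext i j
  revert j
  refine fin5_cases (fun i => ∀ j, (emb A * emb B) i j = emb (A * B) i j) ?_ ?_ ?_ i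
  · refine fin5_cases _ ?_ ?_ ?_
    · simp only [Matrix.mul_apply, sum5, emb_00, emb_01, emb_0s, emb_10, emb_11, emb_1s, emb_s0,
        emb_s1, emb_ss, mul_zero, zero_mul, mul_one, Finset.sum_const_zero, add_zero, zero_add]
    · simp only [Matrix.mul_apply, sum5, emb_00, emb_01, emb_0s, emb_10, emb_11, emb_1s, emb_s0,
        emb_s1, emb_ss, mul_zero, zero_mul, mul_one, Finset.sum_const_zero, add_zero, zero_add]
    · intro l
      simp only [Matrix.mul_apply, sum5, emb_00, emb_01, emb_0s, emb_10, emb_11, emb_1s, emb_s0,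
        emb_s1, emb_ss, mul_zero, zero_mul, mul_one, Finset.sum_const_zero, add_zero, zero_add]
  · refine fin5_cases _ ?_ ?_ ?_
    · simp only [Matrix.mul_apply, sum5, emb_00, emb_01, emb_0s, emb_10, emb_11, emb_1s, emb_s0,
        emb_s1, emb_ss, mul_zero, zero_mul, mul_one, Finset.sum_const_zero, add_zero, zero_add]
    · simp only [Matrix.mul_apply, sum5, emb_00, emb_01, emb_0s, emb_10, emb_11, emb_1s, emb_s0,
        emb_s1, emb_ss, mul_zero, zero_mul, mul_one, Finset.sum_const_zero, add_zero, zero_add]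
    · intro l
      simp only [Matrix.mul_apply, sum5, emb_00, emb_01, emb_0s, emb_10, emb_11, emb_1s, emb_s0,
        emb_s1, emb_ss, mul_zero, zero_mul, mul_one, Finset.sum_const_zero, add_zero, zero_add]
  · intro k
    refine fin5_cases _ ?_ ?_ ?_
    · simp only [Matrix.mul_apply, sum5, emb_00, emb_01, emb_0s, emb_10, emb_11, emb_1s, emb_s0,
        emb_s1, emb_ss, mul_zero, zero_mul, mul_one, Finset.sum_const_zero, add_zero, zero_add]
    · simp only [Matrix.mul_apply, sum5, emb_00, emb_01, emb_0s, emb_10, emb_11, emb_1s, emb_s0,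
        emb_s1, emb_ss, mul_zero, zero_mul, mul_one, Finset.sum_const_zero, add_zero, zero_add]
    · intro l
      simp only [Matrix.mul_apply, sum5, emb_00, emb_01, emb_0s, emb_10, emb_11, emb_1s, emb_s0,
        emb_s1, emb_ss, mul_zero, zero_mul, mul_one, Finset.sum_const_zero, add_zero, zero_add]

theorem emb_one : emb 1 = 1 := by
  ext i j
  unfold emb
  by_cases h : 2 ≤ i.val ∧ 2 ≤ j.val
  · rw [dif_pos h, Matrix.one_apply, Matrix.one_apply]
    have e : ((⟨i.val - 2, by omega⟩ : Fin 3) = ⟨j.val - 2, by omega⟩) ↔ i = j := by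
      rw [Fin.mk.injEq, Fin.ext_iff]
      omega
    simp only [e]
  · rw [dif_neg h, Matrix.one_apply]

theorem det_emb (A : Matrix.SpecialLinearGroup (Fin 3) (ZMod 2)) : (emb A.1).det = 1 := by
  have e : A.1 * (A⁻¹).1 = 1 := by
    have h0 : (A * A⁻¹).1 = (1 : Matrix (Fin 3) (Fin 3) (ZMod 2)) := by
      rw [mul_inv_cancel]; rfl
    exact h0
  have h := emb_mul A.1 (A⁻¹).1
  rw [e, emb_one] at h
  have hd : (emb A.1).det * (emb (A⁻¹).1).det = 1 := by
    rw [← Matrix.det_mul, h, Matrix.det_one]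
  have h2 : ∀ a b : ZMod 2, a * b = 1 → a = 1 := by decide
  exact h2 _ _ hd

section Compl

variable {s : Matrix.SpecialLinearGroup (Fin 5) (ZMod 2)}

/-- The block diagonal embedding of `SL(3, 2)` in the centraliser. -/
noncomputable def σ (hs : (s : Matrix (Fin 5) (Fin 5) (ZMod 2)) = Matrix.transvection 0 1 1) :
    Matrix.SpecialLinearGroup (Fin 3) (ZMod 2) →*
      ↥(Subgroup.centralizer ({s} : Set (Matrix.SpecialLinearGroup (Fin 5) (ZMod 2)))) where
  toFun A := ⟨⟨emb A.1, det_emb A⟩, mem_of_ent hs (ent_emb A.1)⟩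
  map_one' := Subtype.ext (Subtype.ext emb_one)
  map_mul' A B := Subtype.ext (Subtype.ext (emb_mul A.1 B.1).symm)

theorem π_σ (hs : (s : Matrix (Fin 5) (Fin 5) (ZMod 2)) = Matrix.transvection 0 1 1)
    (A : Matrix.SpecialLinearGroup (Fin 3) (ZMod 2)) : π hs (σ hs A) = A :=
  Subtype.ext (blk_emb A.1)

theorem σ_injective (hs : (s : Matrix (Fin 5) (Fin 5) (ZMod 2)) = Matrix.transvection 0 1 1) :
    Function.Injective (σ hs) := by
  intro A B h
  rw [← π_σ hs A, ← π_σ hs B, h]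

theorem ker_inf_range (hs : (s : Matrix (Fin 5) (Fin 5) (ZMod 2)) = Matrix.transvection 0 1 1) :
    (π hs).ker ⊓ (σ hs).range = ⊥ := by
  rw [Subgroup.eq_bot_iff_forall]
  rintro x ⟨hx1, ⟨A, rfl⟩⟩
  have h : π hs (σ hs A) = 1 := hx1
  rw [π_σ] at h
  rw [h, map_one]

theorem ker_sup_range (hs : (s : Matrix (Fin 5) (Fin 5) (ZMod 2)) = Matrix.transvection 0 1 1) :
    (π hs).ker ⊔ (σ hs).range = ⊤ := by
  rw [eq_top_iff]
  intro t _
  have e : t = (t * (σ hs (π hs t))⁻¹) * σ hs (π hs t) := by group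
  rw [e]
  apply Subgroup.mul_mem_sup
  · rw [MonoidHom.mem_ker, map_mul, map_inv, π_σ, mul_inv_cancel]
  · exact ⟨_, rfl⟩

end Compl

/-! ### `SL(3, 2)` has no non-trivial normal 2-subgroup -/

/-- A linear map of order 7 permuting the non-zero vectors of `𝔽₂³` cyclically. -/
def cvec (v : Fin 3 → ZMod 2) : Fin 3 → ZMod 2 := ![v 2, v 0 + v 2, v 1]

theorem cvec_orbit : ∀ v w : Fin 3 → ZMod 2, v ≠ 0 → w ≠ 0 → ∃ k : Fin 7, cvec^[k] v = w := by
  decide

/-- The matrix of `cvec`. -/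
def cM : Matrix (Fin 3) (Fin 3) (ZMod 2) := !![0, 0, 1; 1, 0, 1; 0, 1, 0]

theorem cM_det : cM.det = 1 := by
  rw [Matrix.det_fin_three]
  decide

theorem cM_mulVec (v : Fin 3 → ZMod 2) : cM.mulVec v = cvec v := by
  ext i
  fin_cases i <;> simp [cM, cvec, Matrix.mulVec, dotProduct, Fin.sum_univ_three]

/-- `cM` as an element of `SL(3, 2)`. -/
def cS : Matrix.SpecialLinearGroup (Fin 3) (ZMod 2) := ⟨cM, cM_det⟩

theorem mulVec_ne_zero (A : Matrix.SpecialLinearGroup (Fin 3) (ZMod 2)) {v : Fin 3 → ZMod 2}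
    (hv : v ≠ 0) : A.1.mulVec v ≠ 0 := by
  intro h
  apply hv
  have h1 := congrArg (A⁻¹).1.mulVec h
  rw [Matrix.mulVec_mulVec, Matrix.mulVec_zero] at h1
  have e : (A⁻¹).1 * A.1 = 1 := by
    have h0 : (A⁻¹ * A).1 = (1 : Matrix (Fin 3) (Fin 3) (ZMod 2)) := by
      rw [inv_mul_cancel]; rfl
    exact h0
  rwa [e, Matrix.one_mulVec] at h1

/-- The action of `SL(3, 2)` on the non-zero vectors. -/
instance actX : MulAction (Matrix.SpecialLinearGroup (Fin 3) (ZMod 2))
    {v : Fin 3 → ZMod 2 // v ≠ 0} where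
  smul A v := ⟨A.1.mulVec v.1, mulVec_ne_zero A v.2⟩
  one_smul v := Subtype.ext (Matrix.one_mulVec v.1)
  mul_smul A B v := Subtype.ext (by
    show (A.1 * B.1).mulVec v.1 = A.1.mulVec (B.1.mulVec v.1)
    rw [Matrix.mulVec_mulVec])

theorem smul_val (A : Matrix.SpecialLinearGroup (Fin 3) (ZMod 2))
    (v : {v : Fin 3 → ZMod 2 // v ≠ 0}) : (A • v).1 = A.1.mulVec v.1 := rfl

theorem card_X3 : Nat.card {v : Fin 3 → ZMod 2 // v ≠ 0} = 7 := by
  rw [Nat.card_eq_fintype_card]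
  decide

theorem normal_two_eq_bot (N : Subgroup (Matrix.SpecialLinearGroup (Fin 3) (ZMod 2)))
    [hn : N.Normal] (hN : IsPGroup 2 N) : N = ⊥ := by
  haveI : Fact (Nat.Prime 2) := ⟨Nat.prime_two⟩
  have hc : ¬ 2 ∣ Nat.card {v : Fin 3 → ZMod 2 // v ≠ 0} := by
    rw [card_X3]; decide
  obtain ⟨v0, hv0⟩ := hN.nonempty_fixed_point_of_prime_not_dvd_card
    {v : Fin 3 → ZMod 2 // v ≠ 0} hc
  have hfix0 : ∀ n ∈ N, n • v0 = v0 := fun n hn' => hv0 ⟨n, hn'⟩
  have hstep : ∀ v : {v : Fin 3 → ZMod 2 // v ≠ 0}, (∀ n ∈ N, n • v = v) →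
      ∀ n ∈ N, n • (cS • v) = cS • v := by
    intro v hv n hn'
    have h1 : cS⁻¹ * n * cS ∈ N := by
      have := hn.conj_mem n hn' cS⁻¹
      simpa using this
    have e : n * cS = cS * (cS⁻¹ * n * cS) := by group
    rw [← mul_smul, e, mul_smul, hv _ h1]
  have hiter : ∀ k : ℕ, ∀ n ∈ N, n • ((cS ^ k) • v0) = (cS ^ k) • v0 := by
    intro k
    induction k with
    | zero =>
      intro n hn'
      rw [pow_zero, one_smul]
      exact hfix0 n hn'
    | succ k ih =>
      intro n hn'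
      rw [pow_succ', mul_smul]
      exact hstep _ ih n hn'
  have hval : ∀ k : ℕ, ((cS ^ k) • v0 : {v : Fin 3 → ZMod 2 // v ≠ 0}).1 = cvec^[k] v0.1 := by
    intro k
    induction k with
    | zero => rw [pow_zero, one_smul]; rfl
    | succ k ih =>
      rw [pow_succ', mul_smul, Function.iterate_succ_apply', smul_val, ih]
      exact cM_mulVec _
  have hall : ∀ w : {v : Fin 3 → ZMod 2 // v ≠ 0}, ∀ n ∈ N, n • w = w := by
    intro w
    obtain ⟨k, hk⟩ := cvec_orbit v0.1 w.1 v0.2 w.2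
    have e : w = (cS ^ (k : ℕ)) • v0 := Subtype.ext (by rw [hval, hk])
    rw [e]
    exact hiter k
  rw [Subgroup.eq_bot_iff_forall]
  intro n hn'
  have hmv : ∀ v : Fin 3 → ZMod 2, n.1.mulVec v = v := by
    intro v
    by_cases hv : v = 0
    · rw [hv, Matrix.mulVec_zero]
    · exact congrArg Subtype.val (hall ⟨v, hv⟩ n hn')
  apply Subtype.ext
  show n.1 = 1
  apply Matrix.ext_of_mulVec_single
  intro i
  rw [hmv, Matrix.one_mulVec]

/-! ### The 2-core and its centraliser -/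

section Core

variable {s : Matrix.SpecialLinearGroup (Fin 5) (ZMod 2)}

theorem pCore_eq_ker (hs : (s : Matrix (Fin 5) (Fin 5) (ZMod 2)) = Matrix.transvection 0 1 1)
    (hcard : 21504 ≤ Nat.card
      ↥(Subgroup.centralizer ({s} : Set (Matrix.SpecialLinearGroup (Fin 5) (ZMod 2))))) :
    Cfsg.pCore 2 ↥(Subgroup.centralizer ({s} : Set (Matrix.SpecialLinearGroup (Fin 5) (ZMod 2))))
      = (π hs).ker := by
  haveI : Fact (Nat.Prime 2) := ⟨Nat.prime_two⟩
  apply le_antisymm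
  · have hn := Cfsg.Agent.Lib.Helper78.Fitting.pCore_normal
      (G := ↥(Subgroup.centralizer ({s} : Set (Matrix.SpecialLinearGroup (Fin 5) (ZMod 2))))) 2
    have hp := Cfsg.Agent.Lib.Helper78.Fitting.pCore_isPGroup
      (G := ↥(Subgroup.centralizer ({s} : Set (Matrix.SpecialLinearGroup (Fin 5) (ZMod 2))))) 2
    have hsurj : Function.Surjective (π hs) := fun A => ⟨σ hs A, π_σ hs A⟩
    haveI : ((Cfsg.pCore 2
        ↥(Subgroup.centralizer ({s} : Set (Matrix.SpecialLinearGroup (Fin 5) (ZMod 2))))).map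
        (π hs)).Normal := hn.map _ hsurj
    have h2 := normal_two_eq_bot _ (hp.map (π hs))
    exact (Subgroup.map_eq_bot_iff _).mp h2
  · apply le_sSup
    exact ⟨MonoidHom.normal_ker _, IsPGroup.of_card (n := 7) (by rw [card_ker hs hcard]; norm_num)⟩

theorem cent_le (hs : (s : Matrix (Fin 5) (Fin 5) (ZMod 2)) = Matrix.transvection 0 1 1)
    (hcard : 21504 ≤ Nat.card
      ↥(Subgroup.centralizer ({s} : Set (Matrix.SpecialLinearGroup (Fin 5) (ZMod 2)))))
    (c : ↥(Subgroup.centralizer ({s} : Set (Matrix.SpecialLinearGroup (Fin 5) (ZMod 2)))))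
    (hc : ∀ q ∈ (π hs).ker, c * q = q * c) : c ∈ (π hs).ker := by
  rw [mem_ker]
  have hcE := ent_of_mem hs c.2
  ext k j
  obtain ⟨q, hq⟩ := (kerEquiv hs hcard).surjective
    (⟨0, fun i => (0, (Pi.single k 1 : Fin 3 → ZMod 2) i)⟩ : Ext (Coc.hyp 3))
  rw [kerEquiv_apply] at hq
  have hqE := ent_of_mem hs q.1.2
  have hqb := (mem_ker hs q.1).mp q.2
  have hq0 : ∀ m : Fin 3, q.1.1.1 0 m.succ.succ = (Pi.single k 1 : Fin 3 → ZMod 2) m := fun m =>
    (Prod.ext_iff.mp (congrFun (congrArg Ext.v hq) m)).2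
  have hcomm : c.1.1 * q.1.1.1 = q.1.1.1 * c.1.1 :=
    congrArg (fun u : ↥(Subgroup.centralizer
      ({s} : Set (Matrix.SpecialLinearGroup (Fin 5) (ZMod 2)))) => u.1.1) (hc q.1 q.2)
  have h1 := mul_0j hcE hqE j
  have h2 := mul_0j hqE hcE j
  rw [hcomm, h2] at h1
  have e1 : ∀ m : Fin 3, q.1.1.1 m.succ.succ j.succ.succ =
      (1 : Matrix (Fin 3) (Fin 3) (ZMod 2)) m j := fun m => congrFun (congrFun hqb m) j
  simp only [e1, hq0, sum_mul_one_right] at h1
  have e2 : ∑ m : Fin 3, (Pi.single k 1 : Fin 3 → ZMod 2) m * c.1.1 m.succ.succ j.succ.succ =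
      c.1.1 k.succ.succ j.succ.succ := by
    simp [Pi.single_apply]
  rw [e2] at h1
  have h3 : c.1.1 k.succ.succ j.succ.succ = (Pi.single k 1 : Fin 3 → ZMod 2) j := by
    apply add_left_cancel (a := c.1.1 0 j.succ.succ)
    rw [h1, add_comm]
  rw [blk_apply, h3, Matrix.one_apply, Pi.single_apply]
  simp [eq_comm]

end Core

/-! ### An elementary abelian subgroup of order 16 -/

/-- The elementary abelian subgroup of order 16 of the model. -/
def AE : Subgroup (Ext (Coc.hyp 3)) where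
  carrier := {a | ∀ i, (a.v i).1 = 0}
  mul_mem' := by
    intro a b ha hb i
    show (a.v i).1 + (b.v i).1 = 0
    rw [ha i, hb i, add_zero]
  one_mem' := fun _ => rfl
  inv_mem' := by
    intro a ha i
    exact ha i

theorem AE_comm {a b : Ext (Coc.hyp 3)} (ha : a ∈ AE) (hb : b ∈ AE) : a * b = b * a := by
  apply Ext.ext
  · rw [Ext.mul_c, Ext.mul_c, Coc.hyp_β, Coc.hyp_β]
    have h1 : ∑ i, (a.v i).2 * (b.v i).1 = 0 :=
      Finset.sum_eq_zero (fun i _ => by rw [hb i, mul_zero])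
    have h2 : ∑ i, (b.v i).2 * (a.v i).1 = 0 :=
      Finset.sum_eq_zero (fun i _ => by rw [ha i, mul_zero])
    rw [h1, h2, add_comm a.c]
  · rw [Ext.mul_v, Ext.mul_v, add_comm]

theorem AE_sq {a : Ext (Coc.hyp 3)} (ha : a ∈ AE) : a * a = 1 := by
  apply Ext.ext
  · rw [Ext.mul_c, Coc.hyp_β, Ext.one_c]
    have h1 : ∑ i, (a.v i).2 * (a.v i).1 = 0 :=
      Finset.sum_eq_zero (fun i _ => by rw [ha i, mul_zero])
    rw [h1, add_zero]
    exact CharTwo.add_self_eq_zero _
  · rw [Ext.mul_v, Ext.one_v]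
    exact (Coc.hyp 3).two _

theorem card_AE : Nat.card ↥AE = 16 := by
  have e : ↥AE ≃ ZMod 2 × (Fin 3 → ZMod 2) :=
    { toFun := fun a => (a.1.c, fun i => (a.1.v i).2)
      invFun := fun p => ⟨⟨p.1, fun i => (0, p.2 i)⟩, fun _ => rfl⟩
      left_inv := by
        intro a
        apply Subtype.ext
        apply Ext.ext
        · rfl
        · funext i
          exact Prod.ext (a.2 i).symm rfl
      right_inv := by
        intro p
        rfl }
  rw [Nat.card_congr e, Nat.card_eq_fintype_card]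
  simp [ZMod.card]

/-- Elementary abelian subgroups are mapped to elementary abelian subgroups. -/
theorem elemAb_map {H H' : Type*} [Group H] [Group H'] {A : Subgroup H}
    (hcomm : ∀ a ∈ A, ∀ b ∈ A, a * b = b * a) (hsq : ∀ a ∈ A, a * a = 1) (f : H →* H') :
    Cfsg.IsElementaryAbelian 2 (A.map f) := by
  refine ⟨⟨⟨?_⟩⟩, ?_⟩
  · rintro ⟨x, a, ha, rfl⟩ ⟨y, b, hb, rfl⟩
    apply Subtype.ext
    show f a * f b = f b * f a
    rw [← map_mul, ← map_mul, hcomm a ha b hb]
  · rintro x ⟨a, ha, rfl⟩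
    rw [pow_two, ← map_mul, hsq a ha, map_one]

/-! ### The summary -/

/-- The structure of a group of shape `2^{1+6} : SL(3, 2)` with extraspecial self-centralising
2-core. -/
structure Good (H : Type*) [Group H] : Prop where
  es : Cfsg.IsExtraspecial 2 ↥(Cfsg.pCore 2 H)
  card : Nat.card ↥(Cfsg.pCore 2 H) = 2 ^ 7
  cent : ∀ c : H, (∀ q ∈ Cfsg.pCore 2 H, c * q = q * c) → c ∈ Cfsg.pCore 2 H
  elem : ∃ E : Subgroup H, E ≤ Cfsg.pCore 2 H ∧ (∀ a ∈ E, ∀ b ∈ E, a * b = b * a) ∧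
    (∀ a ∈ E, a * a = 1) ∧ Nat.card ↥E = 2 ^ 4
  compl : ∃ K : Subgroup H, Cfsg.pCore 2 H ⊓ K = ⊥ ∧ Cfsg.pCore 2 H ⊔ K = ⊤ ∧
    Nonempty (↥K ≃* Matrix.SpecialLinearGroup (Fin 3) (ZMod 2))

theorem good_T {s : Matrix.SpecialLinearGroup (Fin 5) (ZMod 2)}
    (hs : (s : Matrix (Fin 5) (Fin 5) (ZMod 2)) = Matrix.transvection 0 1 1)
    (hcard : 21504 ≤ Nat.card
      ↥(Subgroup.centralizer ({s} : Set (Matrix.SpecialLinearGroup (Fin 5) (ZMod 2))))) :
    Good ↥(Subgroup.centralizer ({s} : Set (Matrix.SpecialLinearGroup (Fin 5) (ZMod 2)))) := by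
  have hcore := pCore_eq_ker hs hcard
  refine ⟨?_, ?_, ?_, ?_, ?_⟩
  · rw [hcore]
    exact es_ker hs hcard
  · rw [hcore, card_ker hs hcard]; norm_num
  · intro c hc
    rw [hcore] at hc ⊢
    exact cent_le hs hcard c hc
  · rw [hcore]
    refine ⟨(AE.map (kerEquiv hs hcard).symm.toMonoidHom).map (π hs).ker.subtype,
      Subgroup.map_subtype_le _, ?_, ?_, ?_⟩
    · rintro x ⟨x', ⟨a, ha, rfl⟩, rfl⟩ y ⟨y', ⟨b, hb, rfl⟩, rfl⟩
      rw [← map_mul, ← map_mul, ← map_mul, ← map_mul, AE_comm ha hb]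
    · rintro x ⟨x', ⟨a, ha, rfl⟩, rfl⟩
      rw [← map_mul, ← map_mul, AE_sq ha, map_one, map_one]
    · rw [Subgroup.card_map_of_injective (Subgroup.subtype_injective _),
        Subgroup.card_map_of_injective (kerEquiv hs hcard).symm.injective, card_AE]; norm_num
  · rw [hcore]
    exact ⟨(σ hs).range, ker_inf_range hs, ker_sup_range hs,
      ⟨(MonoidHom.ofInjective (σ_injective hs)).symm⟩⟩

theorem Good.of_equiv {H H' : Type*} [Group H] [Group H'] (e : H ≃* H') (h : Good H) :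
    Good H' := by
  have hp : (Cfsg.pCore 2 H).map e.toMonoidHom = Cfsg.pCore 2 H' :=
    Cfsg.Agent.Lib.Helper93.LargeExtra.pCore_map_equiv 2 e
  have hmem : ∀ x : H, e x ∈ Cfsg.pCore 2 H' ↔ x ∈ Cfsg.pCore 2 H := by
    intro x
    rw [← hp]
    constructor
    · rintro ⟨y, hy, hxy⟩
      have : y = x := e.injective hxy
      rw [← this]; exact hy
    · intro hx
      exact ⟨x, hx, rfl⟩
  have eQ : ↥(Cfsg.pCore 2 H) ≃* ↥(Cfsg.pCore 2 H') :=
    (e.subgroupMap (Cfsg.pCore 2 H)).trans (MulEquiv.subgroupCongr hp)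
  refine ⟨Cfsg.Agent.Lib.Helper90.FStarES.isExtraspecial_of_mulEquiv eQ h.es, ?_, ?_, ?_, ?_⟩
  · rw [← Nat.card_congr eQ.toEquiv]
    exact h.card
  · intro c hc
    have h1 : e.symm c ∈ Cfsg.pCore 2 H := by
      apply h.cent
      intro q hq
      have := congrArg e.symm (hc (e q) ((hmem q).mpr hq))
      simpa using this
    have := (hmem (e.symm c)).mpr h1
    simpa using this
  · obtain ⟨E, h1, h2, h3, h4⟩ := h.elem
    refine ⟨E.map e.toMonoidHom, ?_, ?_, ?_, ?_⟩
    · rw [← hp]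
      exact Subgroup.map_mono h1
    · rintro x ⟨a, ha, rfl⟩ y ⟨b, hb, rfl⟩
      show e a * e b = e b * e a
      rw [← map_mul, ← map_mul, h2 a ha b hb]
    · rintro x ⟨a, ha, rfl⟩
      show e a * e a = 1
      rw [← map_mul, h3 a ha, map_one]
    · rw [Subgroup.card_map_of_injective e.injective, h4]
  · obtain ⟨K, h1, h2, ⟨eK⟩⟩ := h.compl
    refine ⟨K.map e.toMonoidHom, ?_, ?_, ⟨(e.subgroupMap K).symm.trans eK⟩⟩
    · rw [← hp, ← Subgroup.map_inf _ _ _ e.injective, h1, Subgroup.map_bot]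
    · rw [← hp, ← Subgroup.map_sup, h2]
      exact Subgroup.map_top_of_surjective _ e.surjective

end Cfsg.Agent.Lib.Helper86.TransvStruct
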